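import Cfsg.Agent.Helper8.B2S1
import Cfsg.Prelude.Def_ChevB2

set_option autoImplicit false

namespace Cfsg.Agent.Helper8

open Cfsg.Lie

/-! ### The action of `B₂(2)` on six row vectors -/

/-- Six row vectors of the adjoint module over the field with two elements forming an orbit. -/
def b2tab : List (List ℕ) := [[0, 1, 0, 0, 0, 1, 1, 0, 0, 1], [0, 1, 0, 0, 0, 1, 1, 0, 0, 0],
  [0, 1, 1, 0, 0, 1, 1, 0, 0, 0], [0, 1, 1, 0, 0, 1, 0, 0, 0, 1], [0, 1, 1, 0, 0, 0, 0, 0, 0, 1],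
  [0, 1, 1, 0, 0, 0, 1, 0, 0, 1]]

def b2code : chevB2.Idx → ℕ := Sum.elim (fun i => i.val) (fun s => 2 + s.val)

def b2vec (k : Fin 6) : chevB2.Idx → ZMod 2 :=
  fun a => (((b2tab.getD k.val []).getD (b2code a) 0 : ℕ) : ZMod 2)

/-- The permutations of the six vectors induced by the root elements `x_r(1)`. -/
def b2perm : ℕ → Equiv.Perm (Fin 6)
  | 0 => Equiv.swap 0 1
  | 1 => Equiv.swap 0 1 * Equiv.swap 2 3 * Equiv.swap 4 5
  | 2 => Equiv.swap 0 1 * Equiv.swap 2 5 * Equiv.swap 3 4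
  | 3 => Equiv.swap 4 5
  | 4 => Equiv.swap 3 4
  | 5 => Equiv.swap 0 3 * Equiv.swap 1 2 * Equiv.swap 4 5
  | 6 => Equiv.swap 0 5 * Equiv.swap 1 2 * Equiv.swap 3 4
  | 7 => Equiv.swap 1 2
  | _ => 1

theorem b2vec_inj : ∀ k k' : Fin 6, b2vec k = b2vec k' → k = k' := by decide +kernel

theorem b2_act_one : ∀ (r : Fin chevB2.nroots) (k : Fin 6),
    Matrix.vecMul (b2vec k) (chevB2.xMat (ZMod 2) r 1) = b2vec (b2perm r.val k) := by decide +kernel

theorem b2_act_zero : ∀ (r : Fin chevB2.nroots) (k : Fin 6),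
    Matrix.vecMul (b2vec k) (chevB2.xMat (ZMod 2) r 0) = b2vec k := by decide +kernel

/-- `g` permutes the six vectors according to `σ`. -/
def B2PermOn (g : GL chevB2.Idx (ZMod 2)) (σ : Equiv.Perm (Fin 6)) : Prop :=
  ∀ k, Matrix.vecMul (b2vec k) (g : Matrix chevB2.Idx chevB2.Idx (ZMod 2)) = b2vec (σ k)

theorem B2PermOn.one : B2PermOn 1 1 := fun k => by
  rw [Units.val_one, Matrix.vecMul_one]; rfl

theorem B2PermOn.mul {g h : GL chevB2.Idx (ZMod 2)} {σ τ : Equiv.Perm (Fin 6)} (hg : B2PermOn g σ)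
    (hh : B2PermOn h τ) : B2PermOn (g * h) (τ * σ) := fun k => by
  rw [Units.val_mul, ← Matrix.vecMul_vecMul, hg k, hh (σ k)]; rfl

theorem B2PermOn.inv {g : GL chevB2.Idx (ZMod 2)} {σ : Equiv.Perm (Fin 6)} (hg : B2PermOn g σ) :
    B2PermOn g⁻¹ σ⁻¹ := fun k => by
  have h := hg (σ⁻¹ k)
  have h2 : σ (σ⁻¹ k) = k := σ.apply_symm_apply k
  rw [h2] at h
  rw [← h, Matrix.vecMul_vecMul, ← Units.val_mul, mul_inv_cancel, Units.val_one, Matrix.vecMul_one]

theorem B2PermOn.unique {g : GL chevB2.Idx (ZMod 2)} {σ τ : Equiv.Perm (Fin 6)} (hg : B2PermOn g σ)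
    (hg' : B2PermOn g τ) : σ = τ := by
  ext k
  have := b2vec_inj (σ k) (τ k) (by rw [← hg k, ← hg' k])
  rw [this]

theorem b2_exists_perm (g : GL chevB2.Idx (ZMod 2)) (hg : g ∈ chevB2.group (ZMod 2)) :
    ∃ σ : Equiv.Perm (Fin 6), B2PermOn g σ := by
  unfold ChevalleyDatum.group at hg
  induction hg using Subgroup.closure_induction with
  | mem g hg =>
    obtain ⟨r, t, hg⟩ := hg
    have ht : ∀ t : ZMod 2, t = 0 ∨ t = 1 := by decide
    have ht := ht t
    rcases ht with rfl | rfl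
    · exact ⟨1, fun k => by rw [hg, b2_act_zero r k]; rfl⟩
    · exact ⟨b2perm r.val, fun k => by rw [hg, b2_act_one r k]⟩
  | one => exact ⟨1, B2PermOn.one⟩
  | mul g h _ _ ihg ihh =>
    obtain ⟨σ, hσ⟩ := ihg
    obtain ⟨τ, hτ⟩ := ihh
    exact ⟨τ * σ, hσ.mul hτ⟩
  | inv g _ ih =>
    obtain ⟨σ, hσ⟩ := ih
    exact ⟨σ⁻¹, hσ.inv⟩

/-- The permutation representation of `B₂(2)` on the six vectors. -/
noncomputable def b2Hom : ↥(chevB2.group (ZMod 2)) →* Equiv.Perm (Fin 6) :=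
  MonoidHom.mk' (fun g => (Classical.choose (b2_exists_perm g.val g.property))⁻¹) (by
    intro g h
    have hg := Classical.choose_spec (b2_exists_perm g.val g.property)
    have hh := Classical.choose_spec (b2_exists_perm h.val h.property)
    have hgh := Classical.choose_spec (b2_exists_perm (g * h).val (g * h).property)
    have e := hgh.unique (hg.mul hh)
    rw [e, mul_inv_rev])

theorem b2Hom_eq (g : ↥(chevB2.group (ZMod 2))) (σ : Equiv.Perm (Fin 6)) (h : B2PermOn g.val σ) :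
    b2Hom g = σ⁻¹ := by
  have hg := Classical.choose_spec (b2_exists_perm g.val g.property)
  show (Classical.choose (b2_exists_perm g.val g.property))⁻¹ = σ⁻¹
  rw [hg.unique h]

/-- The root element `x_r(1)` as an element of the group. -/
noncomputable def b2x (r : Fin chevB2.nroots) : ↥(chevB2.group (ZMod 2)) :=
  ⟨⟨chevB2.xMat (ZMod 2) r 1, chevB2.xMat (ZMod 2) r 1, by revert r; decide +kernel, by revert r; decide +kernel⟩,
    Subgroup.subset_closure ⟨r, 1, rfl⟩⟩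

theorem b2x_perm (r : Fin chevB2.nroots) : B2PermOn (b2x r).val (b2perm r.val) := fun k => b2_act_one r k

theorem b2Hom_surjective : Function.Surjective b2Hom := by
  rw [← MonoidHom.range_eq_top, ← top_le_iff,
    ← Subgroup.closure_eq_top_of_mclosure_eq_top (Equiv.Perm.mclosure_swap_castSucc_succ 5), Subgroup.closure_le]
  rintro _ ⟨i, rfl⟩
  have h0 : b2Hom (b2x ⟨0, by decide⟩) = Equiv.swap 0 1 := by
    rw [b2Hom_eq _ _ (b2x_perm _)]; decide
  have h7 : b2Hom (b2x ⟨7, by decide⟩) = Equiv.swap 1 2 := by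
    rw [b2Hom_eq _ _ (b2x_perm _)]; decide
  have h4 : b2Hom (b2x ⟨4, by decide⟩) = Equiv.swap 3 4 := by
    rw [b2Hom_eq _ _ (b2x_perm _)]; decide
  have h3 : b2Hom (b2x ⟨3, by decide⟩) = Equiv.swap 4 5 := by
    rw [b2Hom_eq _ _ (b2x_perm _)]; decide
  have h5 : b2Hom (b2x ⟨5, by decide⟩) = Equiv.swap 0 3 * Equiv.swap 1 2 * Equiv.swap 4 5 := by
    rw [b2Hom_eq _ _ (b2x_perm _)]; decide
  have h505 : b2Hom (b2x ⟨5, by decide⟩ * b2x ⟨0, by decide⟩ * b2x ⟨5, by decide⟩) = Equiv.swap 2 3 := by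
    rw [map_mul, map_mul, h5, h0]; decide
  fin_cases i
  · exact ⟨_, h0⟩
  · exact ⟨_, h7⟩
  · exact ⟨_, h505⟩
  · exact ⟨_, h4⟩
  · exact ⟨_, h3⟩

end Cfsg.Agent.Helper8
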