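import Cfsg.Agent.Helper8.Par6
import Cfsg.Prelude.Def_ChevAutomorphisms
import Cfsg.Agent.S1028

set_option autoImplicit false

namespace Cfsg.Agent.Helper8

open Cfsg.Lie

variable {F : Type*} [Field F]

/-! ### Characters of the root lattice along chains -/

/-- The roots `us` continue the `r`-chain through `s`: each is the next root of the chain. -/
def chainStepOK (D : ChevalleyDatum) (r : ℕ) : ℕ → List ℕ → Bool
  | _, [] => true
  | s, u :: rest => Nat.blt s D.nroots && decide (D.chainRoot r s 1 = some u) && chainStepOK D r u rest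

def chainStepChk (D : ChevalleyDatum) (r : ℕ) : Bool :=
  allF (fun e => chainStepOK D r e.1 (e.2.toList.map Prod.fst)) (D.chain.getD r #[]).toList

theorem chainStep_char (D : ChevalleyDatum) (χ : ℕ → Fˣ) (hχ : D.IsRootCharacter χ) (r : ℕ) (hr : r < D.nroots) :
    ∀ (us : List ℕ) (s : ℕ), chainStepOK D r s us = true → ∀ (k : ℕ) (u : ℕ), us[k]? = some u →
      χ u = χ r ^ (k + 1) * χ s := by
  intro us
  induction us with
  | nil =>
    intro s _ k u hu
    simp at hu
  | cons u0 rest ih =>
    intro s hOK k u hu
    simp only [chainStepOK, Bool.and_eq_true, decide_eq_true_eq] at hOK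
    obtain ⟨⟨hs, h1⟩, h2⟩ := hOK
    have hs' : s < D.nroots := by simpa [Nat.blt_eq] using hs
    have e0 : χ u0 = χ r * χ s := hχ.2 r s u0 hr hs' h1
    cases k with
    | zero =>
      simp only [List.getElem?_cons_zero, Option.some.injEq] at hu
      rw [← hu, e0, zero_add, pow_one]
    | succ k =>
      simp only [List.getElem?_cons_succ] at hu
      rw [ih u0 h2 k u hu, e0, pow_succ (χ r) (k + 1), mul_assoc]

theorem chainCoeff_char (D : ChevalleyDatum) (χ : ℕ → Fˣ) (hχ : D.IsRootCharacter χ) (r : ℕ) (hr : r < D.nroots)
    (hchk : chainStepChk D r = true) (s u : ℕ) (km : ℕ × ℤ) (hkm : km ∈ D.chainCoeff r s u) :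
    χ u = χ r ^ km.1 * χ s := by
  obtain ⟨e, he1, he2, q, hq1, hq2, hq3⟩ := chainCoeff_mem D r s u km hkm
  have h1 := allF_mem _ _ hchk e he1
  have h2 : e.2.toList[q.2]? = some q.1 := List.mem_zipIdx_iff_getElem?.mp hq1
  have h3 : (e.2.toList.map Prod.fst)[q.2]? = some u := by
    rw [List.getElem?_map, h2, Option.map_some, hq2]
  have h4 := chainStep_char D χ hχ r hr _ _ h1 q.2 u h3
  rw [h4, hq3, he2]

/-- Conjugation of a root element by the diagonal matrix of a character of the root lattice. -/
theorem charDiag_x_comm (D : ChevalleyDatum) (χ : ℕ → Fˣ) (hχ : D.IsRootCharacter χ) (r : Fin D.nroots)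
    (hchk : chainStepChk D r.val = true) (t : F) :
    D.charDiag F χ * D.xMat F r t = D.xMat F r ((χ r.val : F) * t) * D.charDiag F χ := by
  have hneg : ((χ (D.negIdx.getD r.val 0) : Fˣ) : F) = ((χ r.val : Fˣ) : F)⁻¹ := by
    have h := hχ.1 r.val r.isLt
    have h' : χ (D.negIdx.getD r.val 0) = (χ r.val)⁻¹ := h
    rw [h', Units.val_inv_eq_inv_val]
  have hc0 : ((χ r.val : Fˣ) : F) ≠ 0 := Units.ne_zero _
  ext a b
  rw [ChevalleyDatum.charDiag, Matrix.diagonal_mul, Matrix.mul_diagonal]
  rcases b with i | s
  · rcases a with i' | u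
    · simp [ChevalleyDatum.xMat]
    · simp only [ChevalleyDatum.xMat, Matrix.of_apply, Sum.elim_inl, Sum.elim_inr, mul_one]
      by_cases hu : u = r
      · subst hu; rw [if_pos rfl, if_pos rfl]; ring
      · rw [if_neg hu, if_neg hu, mul_zero]
  · by_cases hs : s = r
    · subst hs
      rcases a with i' | u
      · simp [ChevalleyDatum.xMat]
      · by_cases hu : u = s
        · subst hu; simp [ChevalleyDatum.xMat]
        · simp [ChevalleyDatum.xMat, hu]
    · by_cases hsn : s.val = D.negIdx.getD r.val 0
      · rcases a with i' | u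
        · simp only [ChevalleyDatum.xMat, Matrix.of_apply, Sum.elim_inl, Sum.elim_inr, if_neg hs, if_pos hsn, one_mul]
          rw [hsn, hneg]
          field_simp
        · simp only [ChevalleyDatum.xMat, Matrix.of_apply, Sum.elim_inr, if_neg hs, if_pos hsn]
          by_cases hu : u = s
          · subst hu; simp
          · rw [if_neg hu, if_neg hu]
            by_cases hur : u = r
            · subst hur
              rw [if_pos rfl, if_pos rfl, hsn, hneg]
              field_simp
            · rw [if_neg hur, if_neg hur, mul_zero, zero_mul]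
      · rcases a with i' | u
        · simp only [ChevalleyDatum.xMat, Matrix.of_apply, Sum.elim_inl, Sum.elim_inr, if_neg hs, if_neg hsn,
            mul_zero, zero_mul]
        · simp only [ChevalleyDatum.xMat, Matrix.of_apply, Sum.elim_inr, if_neg hs, if_neg hsn]
          rw [mul_add, add_mul]
          congr 1
          · by_cases hu : u = s
            · subst hu; simp
            · simp [hu]
          · rw [← List.sum_map_mul_left, ← List.sum_map_mul_right]
            congr 1
            apply List.map_congr_left
            intro km hkm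
            have h := chainCoeff_char D χ hχ r.val r.isLt hchk s.val u.val km hkm
            rw [h, Units.val_mul, Units.val_pow_eq_pow_val]
            ring

end Cfsg.Agent.Helper8
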