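import Cfsg.Agent.Helper8.CharD

set_option autoImplicit false

namespace Cfsg.Agent.Helper8

open Cfsg.Lie

variable {F : Type*} [Field F]

set_option maxRecDepth 100000 in
theorem chainStep_G2 : ∀ r, 0 ≤ r → r < 0 + 12 → chainStepChk chevG2 r = true :=
  range_all (chainStepChk chevG2) 0 12 (by decide +kernel)

set_option maxRecDepth 100000 in
theorem chainStep_B2 : ∀ r, 0 ≤ r → r < 0 + 8 → chainStepChk chevB2 r = true :=
  range_all (chainStepChk chevB2) 0 8 (by decide +kernel)

set_option maxRecDepth 100000 in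
theorem chainStep_D4 : ∀ r, 0 ≤ r → r < 0 + 24 → chainStepChk chevD4 r = true :=
  range_all (chainStepChk chevD4) 0 24 (by decide +kernel)

set_option maxRecDepth 100000 in
theorem chainStep_F4 : ∀ r, 0 ≤ r → r < 0 + 48 → chainStepChk chevF4 r = true :=
  range_all (chainStepChk chevF4) 0 48 (by decide +kernel)

set_option maxRecDepth 100000 in
theorem chainStep_E6 : ∀ r, 0 ≤ r → r < 0 + 72 → chainStepChk chevE6 r = true :=
  range_all (chainStepChk chevE6) 0 72 (by decide +kernel)

set_option maxRecDepth 100000 in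
theorem chainStep_E7 : ∀ r, 0 ≤ r → r < 0 + 126 → chainStepChk chevE7 r = true :=
  range_all (chainStepChk chevE7) 0 126 (by decide +kernel)

set_option maxRecDepth 100000 in
theorem chainStep_E8 : ∀ r, 0 ≤ r → r < 0 + 240 → chainStepChk chevE8 r = true :=
  range_all (chainStepChk chevE8) 0 240 (by decide +kernel)

theorem chainStep_all (D : ChevalleyDatum) (hD : Std7 D) (r : ℕ) (hr : r < D.nroots) : chainStepChk D r = true := by
  have hD' := hD
  simp only [Std7, List.mem_cons, List.mem_nil_iff, or_false] at hD'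
  rcases hD' with rfl | rfl | rfl | rfl | rfl | rfl | rfl
  · exact chainStep_G2 r (Nat.zero_le r) (by rw [Nat.zero_add]; exact hr)
  · exact chainStep_B2 r (Nat.zero_le r) (by rw [Nat.zero_add]; exact hr)
  · exact chainStep_D4 r (Nat.zero_le r) (by rw [Nat.zero_add]; exact hr)
  · exact chainStep_F4 r (Nat.zero_le r) (by rw [Nat.zero_add]; exact hr)
  · exact chainStep_E6 r (Nat.zero_le r) (by rw [Nat.zero_add]; exact hr)
  · exact chainStep_E7 r (Nat.zero_le r) (by rw [Nat.zero_add]; exact hr)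
  · exact chainStep_E8 r (Nat.zero_le r) (by rw [Nat.zero_add]; exact hr)

/-- `ĥ(χ) x_r(t) ĥ(χ)⁻¹ = x_r(χ(r) t)`. -/
theorem charDiag_conj (D : ChevalleyDatum) (hD : Std7 D) (χ : ℕ → Fˣ) (hχ : D.IsRootCharacter χ) (g : GL D.Idx F)
    (hgχ : (g : Matrix D.Idx D.Idx F) = D.charDiag F χ) (r : ℕ) (hr : r < D.nroots) (t : F) :
    g * xGL D hD F r hr t * g⁻¹ = xGL D hD F r hr ((χ r : F) * t) := by
  rw [mul_inv_eq_iff_eq_mul]
  apply Units.ext
  rw [Units.val_mul, Units.val_mul, hgχ]
  show D.charDiag F χ * D.x F r t = D.x F r _ * D.charDiag F χ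
  rw [ChevalleyDatum.x, dif_pos hr, ChevalleyDatum.x, dif_pos hr]
  exact charDiag_x_comm D χ hχ ⟨r, hr⟩ (chainStep_all D hD r hr) t

theorem charDiag_conj' (D : ChevalleyDatum) (hD : Std7 D) (χ : ℕ → Fˣ) (hχ : D.IsRootCharacter χ) (g : GL D.Idx F)
    (hgχ : (g : Matrix D.Idx D.Idx F) = D.charDiag F χ) (r : ℕ) (hr : r < D.nroots) (t : F) :
    g⁻¹ * xGL D hD F r hr t * g = xGL D hD F r hr ((χ r : F)⁻¹ * t) := by
  have h := charDiag_conj D hD χ hχ g hgχ r hr ((χ r : F)⁻¹ * t)
  rw [← mul_assoc, mul_inv_cancel₀ (Units.ne_zero _), one_mul] at h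
  rw [← h]
  group

/-- An element of the Chevalley group which is the diagonal matrix of a character of the root lattice lies in `H`. -/
theorem charDiag_mem_diag (D : ChevalleyDatum) (hD : Std7 D) (χ : ℕ → Fˣ) (hχ : D.IsRootCharacter χ)
    (g : GL D.Idx F) (hg : g ∈ D.group F) (hgχ : (g : Matrix D.Idx D.Idx F) = D.charDiag F χ) :
    g ∈ D.diagonalSubgroup F := by
  have hnorm : g ∈ Subgroup.normalizer (D.unipotentRadical F ∅ : Set (GL D.Idx F)) := by
    unfold ChevalleyDatum.unipotentRadical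
    apply mem_normalizer_closure
    · rintro s ⟨r, t, hr, hnJ, hs⟩
      have hs' : s = xGL D hD F r hr.1 t := Units.ext hs
      rw [hs', charDiag_conj D hD χ hχ g hgχ]
      exact Subgroup.subset_closure ⟨r, _, hr, hnJ, rfl⟩
    · rintro s ⟨r, t, hr, hnJ, hs⟩
      have hs' : s = xGL D hD F r hr.1 t := Units.ext hs
      rw [hs', charDiag_conj' D hD χ hχ g hgχ]
      exact Subgroup.subset_closure ⟨r, _, hr, hnJ, rfl⟩
  have hB : g ∈ D.borelSubgroup F := by
    have h1 : g ∈ Subgroup.normalizer (D.unipotentRadical F ∅ : Set (GL D.Idx F)) ⊓ D.group F := ⟨hnorm, hg⟩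
    rw [normalizer_radical D hD ∅] at h1
    unfold ChevalleyDatum.parabolicSubgroup at h1
    have e : {g : GL D.Idx F | ∃ j ∈ (∅ : Set ℕ), j < D.rank ∧
        (g : Matrix D.Idx D.Idx F) = D.nMat F (D.simple j) 1} = ∅ := by
      ext x
      simp
    rw [e, Subgroup.closure_empty, sup_bot_eq] at h1
    exact h1
  obtain ⟨u, hu, h, hh, rfl⟩ := mem_borel D hD g hB
  have hoff : ∀ a b, a ≠ b → (u : Matrix D.Idx D.Idx F) a b = 0 := by
    intro a b hab
    have e : u = u * h * h⁻¹ := by group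
    rw [e, Units.val_mul, hgχ, ChevalleyDatum.charDiag, Matrix.diagonal_mul]
    have h0 : ((h⁻¹ : GL D.Idx F) : Matrix D.Idx D.Idx F) a b = 0 := by
      by_contra hne
      exact hab (diag_entry D hD h⁻¹ (inv_mem hh) a b hne)
    rw [h0, mul_zero]
  have hnil := Cfsg.Agent.S1028.result D hD u hu
  have hdiag : (u : Matrix D.Idx D.Idx F) - 1 =
      Matrix.diagonal (fun a => (u : Matrix D.Idx D.Idx F) a a - 1) := by
    ext a b
    by_cases hab : a = b
    · subst hab
      rw [Matrix.sub_apply, Matrix.one_apply_eq, Matrix.diagonal_apply_eq]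
    · rw [Matrix.sub_apply, Matrix.one_apply_ne hab, Matrix.diagonal_apply_ne _ hab, hoff a b hab, sub_zero]
  rw [hdiag, Matrix.diagonal_pow] at hnil
  have hu1 : u = 1 := by
    apply Units.ext
    ext a b
    by_cases hab : a = b
    · subst hab
      have h1 := congrFun (congrFun hnil a) a
      rw [Matrix.diagonal_apply_eq, Matrix.zero_apply] at h1
      have h2 : (u : Matrix D.Idx D.Idx F) a a - 1 = 0 := by
        have h3 : ((u : Matrix D.Idx D.Idx F) a a - 1) ^ (D.rank + D.nroots) = 0 := h1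
        exact pow_eq_zero_iff (by
          have := rank_pos_all D hD
          omega) |>.mp h3
      rw [Units.val_one, Matrix.one_apply_eq]
      exact sub_eq_zero.mp h2
    · rw [Units.val_one, Matrix.one_apply_ne hab, hoff a b hab]
  rw [hu1, one_mul]
  exact hh

end Cfsg.Agent.Helper8
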