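import Cfsg.Agent.Helper8.Cox1

set_option autoImplicit false

namespace Cfsg.Agent.Helper8

open Cfsg.Lie

/-! ### Matsumoto's theorem for the seven types -/

section matsumoto

variable {C : Type*} [Group C]

/-- The product of the word in a group with given generators. -/
def gprod (g : ℕ → C) (l : List ℕ) : C := (l.map g).prod

theorem gprod_nil (g : ℕ → C) : gprod g [] = 1 := rfl

theorem gprod_append (g : ℕ → C) (x y : List ℕ) : gprod g (x ++ y) = gprod g x * gprod g y := by
  unfold gprod
  rw [List.map_append, List.prod_append]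

theorem gprod_single (g : ℕ → C) (a : ℕ) : gprod g [a] = g a := by
  unfold gprod
  simp

/-- Two reduced words with the same action on the roots have the same product in any group whose generators
satisfy the braid relations. -/
theorem matsumoto (D : ChevalleyDatum) (hD : Std7 D) (g : ℕ → C) (mf : ℕ → ℕ → ℕ)
    (hbraid : ∀ i i', i < D.rank → i' < D.rank → i ≠ i' →
      gprod g (altN i i' (mf i i')) = gprod g (altN i' i (mf i i')))
    (hsym : ∀ i i', i < D.rank → i' < D.rank → mf i i' = mf i' i)
    (hchk : coxChk D mf = true) :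
    ∀ k : ℕ, ∀ u v : List ℕ, Red D u → Red D v → u.length = k → RE D u v → gprod g u = gprod g v := by
  intro k
  induction k using Nat.strong_induction_on with
  | _ k ih =>
  intro u v hu hv hlen hre
  have hlenv : v.length = k := by
    have := re_invN hre
    have := hu.2
    have := hv.2
    omega
  rcases List.eq_nil_or_concat' u with rfl | ⟨u', s, rfl⟩
  · have hv0 : v = [] := List.eq_nil_of_length_eq_zero (by rw [hlenv, ← hlen]; rfl)
    rw [hv0]
  rcases List.eq_nil_or_concat' v with rfl | ⟨v', t, rfl⟩
  · rw [List.length_append, List.length_singleton] at hlen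
    simp at hlenv
    omega
  have hs : s < D.rank := vw_snoc hu.1
  have ht : t < D.rank := vw_snoc hv.1
  obtain ⟨hru', hposu⟩ := red_snoc_inv D hD hu
  obtain ⟨hrv', hposv⟩ := red_snoc_inv D hD hv
  rw [List.length_append, List.length_singleton] at hlen hlenv
  by_cases hst : s = t
  · subst hst
    have h1 := ih (k - 1) (by omega) u' v' hru' hrv' (by omega) (re_snoc_cancel D hD s hs hre)
    rw [gprod_append, gprod_append, h1]
  · have hpt := std_simple_lt D hD t ht
    have hnegs : D.IsNegRoot (reflWord D (u' ++ [s]) (D.simple s)) := by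
      rw [reflWord_snoc_simple D hD u' hru'.1 s hs]
      exact (neg_swap D hD _ (reflWord_lt D hD u' hru'.1 _ (std_simple_lt D hD s hs))).1 hposu
    have hnegt : D.IsNegRoot (reflWord D (u' ++ [s]) (D.simple t)) := by
      rw [hre _ hpt, reflWord_snoc_simple D hD v' hrv'.1 t ht]
      exact (neg_swap D hD _ (reflWord_lt D hD v' hrv'.1 _ hpt)).1 hposv
    have c1 := coxChk_pair D mf hchk s t hs ht
    have c2 := coxChk_pair D mf hchk t s ht hs
    rw [← hsym s t hs ht] at c2
    obtain ⟨hm0, -, -, hAB⟩ := coxPair_facts D hD (mf s t) s t hs ht c1 hst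
    obtain ⟨-, -, hA2, -⟩ := coxPair_facts D hD (mf s t) t s ht hs c2 (Ne.symm hst)
    obtain ⟨m', hm'⟩ : ∃ m', mf s t = m' + 1 := ⟨mf s t - 1, by omega⟩
    have hdih := (dih_len D hD (mf s t) s t hs ht hst c1 c2 (u' ++ [s]) hu.1 hnegs hnegt (mf s t) (le_refl _)).2
    have hAvw : VW D (altN t s (mf s t)) := altN_vw D t s _ ht hs
    have hBvw : VW D (altN s t (mf s t)) := altN_vw D s t _ hs ht
    obtain ⟨z, hz, hzre⟩ := exists_red D hD (u' ++ [s] ++ altN t s (mf s t)) (vw_append hu.1 hAvw)
    have hzlen : z.length + mf s t = k := by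
      have e1 := re_invN hzre
      have e2 := hz.2
      have e3 := hu.2
      rw [List.length_append, List.length_singleton] at e3
      omega
    -- `u ~ z ++ A`
    have hu_z : RE D (u' ++ [s]) (z ++ altN t s (mf s t)) := by
      have e1 : RE D (u' ++ [s] ++ []) (u' ++ [s] ++ (altN t s (mf s t) ++ altN t s (mf s t))) :=
        re_append_left D (u' ++ [s]) (re_symm hA2)
      rw [List.append_nil, ← List.append_assoc] at e1
      exact re_trans e1 (re_append_right D hD _ hAvw hzre)
    have hv_z : RE D (v' ++ [t]) (z ++ altN s t (mf s t)) :=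
      re_trans (re_symm hre) (re_trans hu_z (re_append_left D z (re_symm hAB)))
    rw [hm'] at hu_z hv_z
    rw [altN_succ, ← List.append_assoc] at hu_z hv_z
    have hu2 : RE D u' (z ++ altN s t m') := re_snoc_cancel D hD s hs hu_z
    have hv2 : RE D v' (z ++ altN t s m') := re_snoc_cancel D hD t ht hv_z
    have hred1 : Red D (z ++ altN s t m') := by
      refine ⟨vw_append hz.1 (altN_vw D s t m' hs ht), ?_⟩
      rw [← re_invN hu2, hru'.2, List.length_append, altN_length]
      omega
    have hred2 : Red D (z ++ altN t s m') := by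
      refine ⟨vw_append hz.1 (altN_vw D t s m' ht hs), ?_⟩
      rw [← re_invN hv2, hrv'.2, List.length_append, altN_length]
      omega
    have i1 := ih (k - 1) (by omega) u' _ hru' hred1 (by omega) hu2
    have i2 := ih (k - 1) (by omega) v' _ hrv' hred2 (by omega) hv2
    have hb := hbraid s t hs ht hst
    rw [hm', altN_succ, altN_succ, gprod_append, gprod_append] at hb
    rw [gprod_append, gprod_append, i1, i2, gprod_append, gprod_append, mul_assoc, mul_assoc, hb]

/-- Every word has the same product as a reduced word with the same action. -/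
theorem exists_red_prod (D : ChevalleyDatum) (hD : Std7 D) (g : ℕ → C) (mf : ℕ → ℕ → ℕ)
    (hsq : ∀ a, a < D.rank → g a * g a = 1)
    (hbraid : ∀ i i', i < D.rank → i' < D.rank → i ≠ i' →
      gprod g (altN i i' (mf i i')) = gprod g (altN i' i (mf i i')))
    (hsym : ∀ i i', i < D.rank → i' < D.rank → mf i i' = mf i' i)
    (hchk : coxChk D mf = true) (l : List ℕ) (hl : VW D l) :
    ∃ r, Red D r ∧ RE D l r ∧ gprod g l = gprod g r := by
  induction l using List.reverseRecOn with
  | nil => exact ⟨[], red_nil D hD, re_refl D [], rfl⟩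
  | append_singleton l a ih =>
    have ha := vw_snoc hl
    obtain ⟨r0, hr0, hre0, hp0⟩ := ih (vw_left hl)
    have h1 : RE D (l ++ [a]) (r0 ++ [a]) := re_append_right D hD [a] (vw_single ha) hre0
    rcases pos_or_neg D hD _ (reflWord_lt D hD r0 hr0.1 _ (std_simple_lt D hD a ha)) with h | h
    · exact ⟨r0 ++ [a], red_snoc D hD hr0 a ha h, h1, by rw [gprod_append, gprod_append, hp0]⟩
    · obtain ⟨x', hx', hlen, hre⟩ := exch_red D hD a ha r0 hr0 h
      refine ⟨x', hx', re_trans h1 (re_trans (re_append_right D hD [a] (vw_single ha) hre) (re_snoc2 D hD x' a ha)), ?_⟩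
      have hred : Red D (x' ++ [a]) := by
        refine ⟨vw_append hx'.1 (vw_single ha), ?_⟩
        rw [← re_invN hre, hr0.2, List.length_append, List.length_singleton, hlen]
      have e := matsumoto D hD g mf hbraid hsym hchk _ r0 (x' ++ [a]) hr0 hred rfl hre
      rw [gprod_append, hp0, e, gprod_append, gprod_single, mul_assoc, hsq a ha, mul_one]

/-- Words with the same action on the roots have the same product in any group whose generators satisfy the
Coxeter relations. -/
theorem cox_word_eq (D : ChevalleyDatum) (hD : Std7 D) (g : ℕ → C) (mf : ℕ → ℕ → ℕ)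
    (hsq : ∀ a, a < D.rank → g a * g a = 1)
    (hbraid : ∀ i i', i < D.rank → i' < D.rank → i ≠ i' →
      gprod g (altN i i' (mf i i')) = gprod g (altN i' i (mf i i')))
    (hsym : ∀ i i', i < D.rank → i' < D.rank → mf i i' = mf i' i)
    (hchk : coxChk D mf = true) (l l' : List ℕ) (hl : VW D l) (hl' : VW D l') (h : RE D l l') :
    gprod g l = gprod g l' := by
  obtain ⟨r, hr, hre, hp⟩ := exists_red_prod D hD g mf hsq hbraid hsym hchk l hl
  obtain ⟨r', hr', hre', hp'⟩ := exists_red_prod D hD g mf hsq hbraid hsym hchk l' hl'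
  rw [hp, hp']
  exact matsumoto D hD g mf hbraid hsym hchk _ r r' hr hr' rfl (re_trans (re_symm hre) (re_trans h hre'))

end matsumoto

end Cfsg.Agent.Helper8
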