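import Cfsg.Agent.Helper8.Cox2

set_option autoImplicit false

namespace Cfsg.Agent.Helper8

open Cfsg.Lie

/-- Entry of a table of natural numbers. -/
def mfOf (tbl : List (List ℕ)) (i i' : ℕ) : ℕ := (tbl.getD i []).getD i' 0

def coxTblG2 : List (List ℕ) := [[1, 6], [6, 1]]
def coxTblB2 : List (List ℕ) := [[1, 4], [4, 1]]
def coxTblD4 : List (List ℕ) := [[1, 3, 2, 2], [3, 1, 3, 3], [2, 3, 1, 2], [2, 3, 2, 1]]
def coxTblF4 : List (List ℕ) := [[1, 3, 2, 2], [3, 1, 4, 2], [2, 4, 1, 3], [2, 2, 3, 1]]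
def coxTblE6 : List (List ℕ) :=
  [[1, 2, 3, 2, 2, 2], [2, 1, 2, 3, 2, 2], [3, 2, 1, 3, 2, 2], [2, 3, 3, 1, 3, 2], [2, 2, 2, 3, 1, 3],
    [2, 2, 2, 2, 3, 1]]
def coxTblE7 : List (List ℕ) :=
  [[1, 2, 3, 2, 2, 2, 2], [2, 1, 2, 3, 2, 2, 2], [3, 2, 1, 3, 2, 2, 2], [2, 3, 3, 1, 3, 2, 2],
    [2, 2, 2, 3, 1, 3, 2], [2, 2, 2, 2, 3, 1, 3], [2, 2, 2, 2, 2, 3, 1]]
def coxTblE8 : List (List ℕ) :=
  [[1, 2, 3, 2, 2, 2, 2, 2], [2, 1, 2, 3, 2, 2, 2, 2], [3, 2, 1, 3, 2, 2, 2, 2], [2, 3, 3, 1, 3, 2, 2, 2],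
    [2, 2, 2, 3, 1, 3, 2, 2], [2, 2, 2, 2, 3, 1, 3, 2], [2, 2, 2, 2, 2, 3, 1, 3], [2, 2, 2, 2, 2, 2, 3, 1]]

set_option maxRecDepth 100000 in
theorem coxChk_G2 : coxChk chevG2 (mfOf coxTblG2) = true := by decide +kernel

set_option maxRecDepth 100000 in
theorem coxChk_B2 : coxChk chevB2 (mfOf coxTblB2) = true := by decide +kernel

set_option maxRecDepth 100000 in
theorem coxChk_D4 : coxChk chevD4 (mfOf coxTblD4) = true := by decide +kernel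

set_option maxRecDepth 100000 in
theorem coxChk_F4 : coxChk chevF4 (mfOf coxTblF4) = true := by decide +kernel

end Cfsg.Agent.Helper8
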