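import Cfsg.Agent.Helper8.Cox3

set_option autoImplicit false

namespace Cfsg.Agent.Helper8

open Cfsg.Lie

set_option maxRecDepth 100000 in
theorem coxChk_E7 : coxChk chevE7 (mfOf coxTblE7) = true := by decide +kernel

end Cfsg.Agent.Helper8
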