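import Cfsg.Agent.Helper8.Cox3
import Cfsg.Agent.Helper8.Ord4

set_option autoImplicit false

namespace Cfsg.Agent.Helper8

open Cfsg.Lie

/-! ### The reflections as permutations of the roots -/

/-- The fundamental reflection as a permutation of the roots. -/
def sPerm (D : ChevalleyDatum) (hD : Std7 D) (i : ℕ) : Equiv.Perm (Fin D.nroots) :=
  if hi : i < D.rank then
    { toFun := fun r => ⟨D.reflectRoot i r, (reflectRoot_invol D hD i hi r r.2).1⟩
      invFun := fun r => ⟨D.reflectRoot i r, (reflectRoot_invol D hD i hi r r.2).1⟩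
      left_inv := fun r => Fin.ext (reflectRoot_invol D hD i hi r r.2).2
      right_inv := fun r => Fin.ext (reflectRoot_invol D hD i hi r r.2).2 }
  else 1

theorem sPerm_apply (D : ChevalleyDatum) (hD : Std7 D) (i : ℕ) (hi : i < D.rank) (r : Fin D.nroots) :
    ((sPerm D hD i r : Fin D.nroots) : ℕ) = D.reflectRoot i r := by
  unfold sPerm
  rw [dif_pos hi]
  rfl

theorem gprod_sPerm_apply (D : ChevalleyDatum) (hD : Std7 D) (l : List ℕ) (hl : VW D l) (r : Fin D.nroots) :
    ((gprod (sPerm D hD) l r : Fin D.nroots) : ℕ) = reflWord D l r := by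
  induction l with
  | nil => rfl
  | cons a l ih =>
    have ha := hl a List.mem_cons_self
    have hl' : VW D l := fun b hb => hl b (List.mem_cons_of_mem _ hb)
    have e : gprod (sPerm D hD) (a :: l) = sPerm D hD a * gprod (sPerm D hD) l := by
      unfold gprod
      rw [List.map_cons, List.prod_cons]
    rw [e, Equiv.Perm.mul_apply, sPerm_apply D hD a ha, reflWord_cons, ih hl']

theorem gprod_sPerm_eq_iff (D : ChevalleyDatum) (hD : Std7 D) (l l' : List ℕ) (hl : VW D l) (hl' : VW D l') :
    gprod (sPerm D hD) l = gprod (sPerm D hD) l' ↔ RE D l l' := by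
  constructor
  · intro h r hr
    have h1 := gprod_sPerm_apply D hD l hl ⟨r, hr⟩
    have h2 := gprod_sPerm_apply D hD l' hl' ⟨r, hr⟩
    rw [h] at h1
    exact h1.symm.trans h2
  · intro h
    apply Equiv.ext
    intro r
    apply Fin.ext
    rw [gprod_sPerm_apply D hD l hl, gprod_sPerm_apply D hD l' hl']
    exact h r r.2

theorem gprod_repW {C : Type*} [Group C] (g : ℕ → C) (l : List ℕ) (k : ℕ) : gprod g (repW l k) = gprod g l ^ k := by
  induction k with
  | zero => rw [pow_zero]; rfl
  | succ k ih =>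
    show gprod g (l ++ repW l k) = _
    rw [gprod_append, ih, pow_succ']

/-! ### The Coxeter group -/

section cox

variable {n : ℕ} (M : CoxeterMatrix (Fin n))

/-- The generators of the Coxeter group indexed by natural numbers. -/
def cgen (a : ℕ) : M.Group := if h : a < n then M.simple ⟨a, h⟩ else 1

theorem cgen_val (i : Fin n) : cgen M i = M.simple i := by
  unfold cgen
  rw [dif_pos i.2]

theorem cgen_lt (a : ℕ) (h : a < n) : cgen M a = M.simple ⟨a, h⟩ := by
  unfold cgen
  rw [dif_pos h]

theorem gprod_cgen_map (ω : List (Fin n)) :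
    gprod (cgen M) (ω.map Fin.val) = M.toCoxeterSystem.wordProd ω := by
  unfold gprod CoxeterSystem.wordProd
  rw [List.map_map]
  congr 1
  apply List.map_congr_left
  intro i _
  rw [Function.comp_apply, cgen_val, CoxeterMatrix.toCoxeterSystem_simple]

theorem altN_map (i i' : Fin n) (m : ℕ) :
    altN i i' m = (CoxeterSystem.alternatingWord i i' m).map Fin.val := by
  induction m generalizing i i' with
  | zero => rfl
  | succ m ih =>
    rw [altN_succ, CoxeterSystem.alternatingWord_succ, List.concat_eq_append, List.map_append, ih]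
    rfl

/-- Words have the same product in the Coxeter group exactly when they act in the same way on the roots. -/
theorem cox_iff (D : ChevalleyDatum) (hD : Std7 D) (hn : D.rank = n) (mf : ℕ → ℕ → ℕ)
    (hM : ∀ i i' : Fin n, M i i' = mf i i') (hchk : coxChk D mf = true) (l l' : List ℕ) (hl : VW D l)
    (hl' : VW D l') : gprod (cgen M) l = gprod (cgen M) l' ↔ RE D l l' := by
  constructor
  · intro h
    have hlift : M.IsLiftable (fun i : Fin n => sPerm D hD i) := by
      intro i i'
      have c := coxChk_pair D mf hchk i i' (hn ▸ i.2) (hn ▸ i'.2)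
      have h1 := (gprod_sPerm_eq_iff D hD _ [] (repW_vw D [(i : ℕ), (i' : ℕ)]
        (vw_pair (hn ▸ i.2) (hn ▸ i'.2)) _) (vw_nil D)).mpr (coxPair_rep D hD _ _ _ (hn ▸ i.2) (hn ▸ i'.2) c)
      rw [gprod_repW, ← hM i i'] at h1
      have e : gprod (sPerm D hD) [(i : ℕ), (i' : ℕ)] = sPerm D hD i * sPerm D hD i' := by
        unfold gprod
        simp
      rw [e] at h1
      exact h1
    have hf : ∀ x : List ℕ, VW D x →
        M.toCoxeterSystem.lift ⟨fun i : Fin n => sPerm D hD i, hlift⟩ (gprod (cgen M) x) = gprod (sPerm D hD) x := by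
      intro x hx
      unfold gprod
      rw [map_list_prod, List.map_map]
      congr 1
      apply List.map_congr_left
      intro a ha
      have han : a < n := hn ▸ hx a ha
      rw [Function.comp_apply, cgen_lt M a han, ← CoxeterMatrix.toCoxeterSystem_simple,
        M.toCoxeterSystem.lift_apply_simple hlift ⟨a, han⟩]
    have h2 := congrArg (M.toCoxeterSystem.lift ⟨fun i : Fin n => sPerm D hD i, hlift⟩) h
    rw [hf l hl, hf l' hl'] at h2
    exact (gprod_sPerm_eq_iff D hD l l' hl hl').mp h2
  · intro h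
    apply cox_word_eq D hD (cgen M) mf ?_ ?_ ?_ hchk l l' hl hl' h
    · intro a ha
      have han : a < n := hn ▸ ha
      rw [cgen_lt M a han, ← CoxeterMatrix.toCoxeterSystem_simple]
      exact M.toCoxeterSystem.simple_mul_simple_self _
    · intro i i' hi hi' _
      have hin : i < n := hn ▸ hi
      have hin' : i' < n := hn ▸ hi'
      have e1 := altN_map (⟨i, hin⟩ : Fin n) ⟨i', hin'⟩ (mf i i')
      have e2 := altN_map (⟨i', hin'⟩ : Fin n) ⟨i, hin⟩ (mf i i')
      have e3 := M.toCoxeterSystem.wordProd_braidWord_eq (⟨i, hin⟩ : Fin n) ⟨i', hin'⟩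
      unfold CoxeterSystem.braidWord at e3
      rw [M.symmetric ⟨i', hin'⟩ ⟨i, hin⟩, hM ⟨i, hin⟩ ⟨i', hin'⟩] at e3
      show gprod (cgen M) (altN ((⟨i, hin⟩ : Fin n) : ℕ) ((⟨i', hin'⟩ : Fin n) : ℕ) (mf i i')) =
        gprod (cgen M) (altN ((⟨i', hin'⟩ : Fin n) : ℕ) ((⟨i, hin⟩ : Fin n) : ℕ) (mf i i'))
      rw [e1, e2, gprod_cgen_map, gprod_cgen_map]
      exact e3
    · intro i i' hi hi'
      have hin : i < n := hn ▸ hi
      have hin' : i' < n := hn ▸ hi'
      have := hM ⟨i, hin⟩ ⟨i', hin'⟩
      have := hM ⟨i', hin'⟩ ⟨i, hin⟩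
      have := M.symmetric ⟨i, hin⟩ ⟨i', hin'⟩
      simp only at *
      omega

/-- The order of the Coxeter group is the value at `1` of the Poincaré polynomial. -/
theorem cox_card (D : ChevalleyDatum) (hD : Std7 D) (hn : D.rank = n) (mf : ℕ → ℕ → ℕ)
    (hM : ∀ i i' : Fin n, M i i' = mf i i') (hchk : coxChk D mf = true) (P : ℕ → ℕ)
    (hP : PoinOK D (List.range D.rank) P) : Nat.card M.Group = P 1 := by
  obtain ⟨ι, hι, w, hw, hsum⟩ := hP
  have hwv : ∀ i, VW D (w i) := fun i a ha => List.mem_range.mp (hw.mem i a ha)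
  have hbij : Function.Bijective (fun i : ι => gprod (cgen M) (w i)) := by
    constructor
    · intro i j hij
      exact hw.inj i j ((cox_iff M D hD hn mf hM hchk _ _ (hwv i) (hwv j)).mp hij)
    · intro g
      obtain ⟨ω, rfl⟩ := M.toCoxeterSystem.wordProd_surjective g
      have hv : ∀ a ∈ ω.map Fin.val, a ∈ List.range D.rank := by
        intro a ha
        rw [List.mem_map] at ha
        obtain ⟨i, -, rfl⟩ := ha
        exact List.mem_range.mpr (hn ▸ i.2)
      obtain ⟨i, hi⟩ := hw.complete _ hv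
      refine ⟨i, ?_⟩
      show gprod (cgen M) (w i) = _
      rw [← gprod_cgen_map]
      exact ((cox_iff M D hD hn mf hM hchk _ _ (fun a ha => List.mem_range.mp (hv a ha)) (hwv i)).mpr hi).symm
  rw [← Nat.card_eq_of_bijective _ hbij, Nat.card_eq_fintype_card, ← hsum 1]
  simp

/-- The order of the product of a word in the Coxeter group. -/
theorem cox_order (D : ChevalleyDatum) (hD : Std7 D) (hn : D.rank = n) (mf : ℕ → ℕ → ℕ)
    (hM : ∀ i i' : Fin n, M i i' = mf i i') (hchk : coxChk D mf = true) (c : List ℕ) (hc : VW D c) (h : ℕ)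
    (hpos : 0 < h) (h1 : RE D (repW c h) [])
    (h2 : ∀ k, 0 < k → k < h → ¬ RE D (repW c k) []) : orderOf (gprod (cgen M) c) = h := by
  rw [orderOf_eq_iff hpos]
  constructor
  · rw [← gprod_repW]
    exact (cox_iff M D hD hn mf hM hchk _ _ (repW_vw D c hc h) (vw_nil D)).mpr h1
  · intro k hk hk0 hone
    rw [← gprod_repW] at hone
    exact h2 k hk0 hk ((cox_iff M D hD hn mf hM hchk _ _ (repW_vw D c hc k) (vw_nil D)).mp hone)

end cox

end Cfsg.Agent.Helper8
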