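import Cfsg.Agent.Helper8.Cox4

set_option autoImplicit false

namespace Cfsg.Agent.Helper8

open Cfsg.Lie

section cox

variable {n : ℕ} (M : CoxeterMatrix (Fin n))

/-! ### The Coxeter element -/

theorem cox_elt_eq : ((List.finRange n).map M.simple).prod = gprod (cgen M) (List.range n) := by
  rw [← List.map_coe_finRange_eq_range, gprod_cgen_map]
  unfold CoxeterSystem.wordProd
  rw [CoxeterMatrix.toCoxeterSystem_simple]

/-- The check of the order of the Coxeter element. -/
def coxEltChk (D : ChevalleyDatum) (h : ℕ) : Bool :=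
  reChkT D (repW (List.range D.rank) h) [] &&
  allF (fun k => !(Nat.beq (reflWordT D (repW (List.range D.rank) (k + 1)) (D.simple 0)) (D.simple 0)))
    (List.range (h - 1))

theorem cox_elt_order (D : ChevalleyDatum) (hD : Std7 D) (hn : D.rank = n) (mf : ℕ → ℕ → ℕ)
    (hM : ∀ i i' : Fin n, M i i' = mf i i') (hchk : coxChk D mf = true) (h : ℕ) (hpos : 0 < h)
    (hc : coxEltChk D h = true) : orderOf ((List.finRange n).map M.simple).prod = h := by
  subst hn
  rw [cox_elt_eq]
  have hv : VW D (List.range D.rank) := fun a ha => List.mem_range.mp ha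
  unfold coxEltChk at hc
  rw [Bool.and_eq_true] at hc
  apply cox_order M D hD rfl mf hM hchk _ hv h hpos (reChkT_sound D hD _ _ (repW_vw D _ hv h) (vw_nil D) hc.1)
  intro k hk0 hk hre
  obtain ⟨k', rfl⟩ : ∃ k', k = k' + 1 := ⟨k - 1, by omega⟩
  have h1 := allF_mem _ _ hc.2 k' (List.mem_range.mpr (by omega))
  have hp := std_simple_lt D hD 0 (rank_pos_all D hD)
  rw [reflWordT_eq D hD _ (repW_vw D _ hv (k' + 1)) _ hp, hre _ hp, reflWord_nil, Nat.beq_refl] at h1
  exact absurd h1 (by decide)

/-! ### `N/H` is the Coxeter group -/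

variable {F : Type*} [Field F]

theorem cox_hom (D : ChevalleyDatum) (hD : Std7 D) (hn : D.rank = n) (mf : ℕ → ℕ → ℕ)
    (hM : ∀ i i' : Fin n, M i i' = mf i i') (hchk : coxChk D mf = true) :
    ∃ φ : ↥(D.monomialSubgroup F) →* M.Group, Function.Surjective φ ∧
      φ.ker = (D.diagonalSubgroup F).subgroupOf (D.monomialSubgroup F) ∧
      ∀ (i : Fin n) (g : ↥(D.monomialSubgroup F)),
        ((g : GL D.Idx F) : Matrix D.Idx D.Idx F) = D.nMat F (D.simple i) 1 → φ g = M.simple i := by
  have hex : ∀ g : ↥(D.monomialSubgroup F), ∃ l : List ℕ, VW D l ∧ ∃ h ∈ D.diagonalSubgroup F,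
      (g : GL D.Idx F) = nProdGL D F l * h := by
    intro g
    obtain ⟨k, l, -, hl, h, hh, e⟩ := monomial_word D hD (g : GL D.Idx F) g.2
    exact ⟨l, hl, h, hh, e⟩
  -- the key property of the chosen words
  have key : ∀ (g : ↥(D.monomialSubgroup F)) (l : List ℕ), VW D l → ∀ h ∈ D.diagonalSubgroup F,
      (g : GL D.Idx F) = nProdGL D F l * h → gprod (cgen M) (Classical.choose (hex g)) = gprod (cgen M) l := by
    intro g l hl h hh e
    obtain ⟨hl0, h0, hh0, e0⟩ := Classical.choose_spec (hex g)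
    apply (cox_iff M D hD hn mf hM hchk _ _ hl0 hl).mpr
    apply re_of_mem_diag D hD _ _ hl0 hl (F := F)
    have e1 : (nProdGL D F (Classical.choose (hex g)))⁻¹ * nProdGL D F l = h0 * h⁻¹ := by
      have e2 : nProdGL D F (Classical.choose (hex g)) * h0 = nProdGL D F l * h := e0.symm.trans e
      have e3 : nProdGL D F l = nProdGL D F (Classical.choose (hex g)) * h0 * h⁻¹ := by
        rw [e2]
        group
      rw [e3]
      group
    rw [e1]
    exact mul_mem hh0 (inv_mem hh)
  let φ : ↥(D.monomialSubgroup F) →* M.Group := MonoidHom.mk' (fun g => gprod (cgen M) (Classical.choose (hex g)))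
    (by
      intro a b
      obtain ⟨la, hla, ha, hha, ea⟩ := hex a
      obtain ⟨lb, hlb, hb, hhb, eb⟩ := hex b
      show gprod (cgen M) (Classical.choose (hex (a * b))) =
        gprod (cgen M) (Classical.choose (hex a)) * gprod (cgen M) (Classical.choose (hex b))
      rw [key a la hla ha hha ea, key b lb hlb hb hhb eb, ← gprod_append]
      apply key (a * b) _ (vw_append hla hlb) ((nProdGL D F lb)⁻¹ * ha * nProdGL D F lb * hb)
        (mul_mem (diag_conj_mem' D hD _ _ (nProdGL_mem D hD F _ hlb) hha) hhb)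
      rw [Subgroup.coe_mul, ea, eb, nProdGL_append]
      group)
  have hφ : ∀ (g : ↥(D.monomialSubgroup F)) (l : List ℕ), VW D l → ∀ h ∈ D.diagonalSubgroup F,
      (g : GL D.Idx F) = nProdGL D F l * h → φ g = gprod (cgen M) l := key
  refine ⟨φ, ?_, ?_, ?_⟩
  · intro g
    obtain ⟨ω, rfl⟩ := M.toCoxeterSystem.wordProd_surjective g
    have hv : VW D (ω.map Fin.val) := by
      intro a ha
      rw [List.mem_map] at ha
      obtain ⟨i, -, rfl⟩ := ha
      exact hn ▸ i.2
    refine ⟨⟨nProdGL D F (ω.map Fin.val), nProdGL_mem D hD F _ hv⟩, ?_⟩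
    rw [hφ _ _ hv 1 (one_mem _) (by rw [mul_one]), gprod_cgen_map]
  · ext g
    rw [MonoidHom.mem_ker, Subgroup.mem_subgroupOf]
    obtain ⟨l, hl, h, hh, e⟩ := hex g
    rw [hφ g l hl h hh e, e]
    have e1 : gprod (cgen M) l = 1 ↔ RE D l [] := cox_iff M D hD hn mf hM hchk l [] hl (vw_nil D)
    rw [e1]
    constructor
    · intro hre
      have h1 := mem_diag_of_simple_eq D hD l [] hl (vw_nil D) (fun k hk => hre _ (std_simple_lt D hD k hk)) (F := F)
      rw [nProdGL_nil, inv_one, one_mul] at h1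
      exact mul_mem h1 hh
    · intro hmem
      apply re_of_mem_diag D hD l [] hl (vw_nil D) (F := F)
      rw [nProdGL_nil, mul_one]
      have h2 : nProdGL D F l = nProdGL D F l * h * h⁻¹ := by group
      rw [h2]
      exact inv_mem (mul_mem hmem (inv_mem hh))
  · intro i g hg
    have hi : (i : ℕ) < D.rank := hn ▸ i.2
    have e : (g : GL D.Idx F) = nProdGL D F [(i : ℕ)] * 1 := by
      rw [mul_one, nProdGL_cons, nProdGL_nil, mul_one]
      apply Units.ext
      rw [hg, nGL_val D hD F _ (std_simple_lt D hD i hi)]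
    rw [hφ g _ (vw_single hi) 1 (one_mem _) e, gprod_single, cgen_val]

end cox

end Cfsg.Agent.Helper8
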