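import Cfsg.Agent.Helper8.Cox5
import Cfsg.Agent.Helper8.Cox3E6
import Cfsg.Agent.Helper8.Cox3E7
import Cfsg.Agent.Helper8.Cox3E8

set_option autoImplicit false

namespace Cfsg.Agent.Helper8

open Cfsg.Lie

theorem coxM_G2 : ∀ i i' : Fin 2, CoxeterMatrix.G₂ i i' = mfOf coxTblG2 i i' := by
  intro i i'
  fin_cases i <;> fin_cases i' <;> rfl

theorem coxM_B2 : ∀ i i' : Fin 2, (CoxeterMatrix.B 2) i i' = mfOf coxTblB2 i i' := by
  intro i i'
  fin_cases i <;> fin_cases i' <;> rfl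

theorem coxM_D4 : ∀ i i' : Fin 4, coxeterD4 i i' = mfOf coxTblD4 i i' := by
  intro i i'
  fin_cases i <;> fin_cases i' <;> rfl

theorem coxM_F4 : ∀ i i' : Fin 4, CoxeterMatrix.F₄ i i' = mfOf coxTblF4 i i' := by
  intro i i'
  fin_cases i <;> fin_cases i' <;> rfl

theorem coxM_E6 : ∀ i i' : Fin 6, CoxeterMatrix.E₆ i i' = mfOf coxTblE6 i i' := by
  intro i i'
  fin_cases i <;> fin_cases i' <;> rfl

theorem coxM_E7 : ∀ i i' : Fin 7, CoxeterMatrix.E₇ i i' = mfOf coxTblE7 i i' := by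
  intro i i'
  fin_cases i <;> fin_cases i' <;> rfl

theorem coxM_E8 : ∀ i i' : Fin 8, CoxeterMatrix.E₈ i i' = mfOf coxTblE8 i i' := by
  intro i i'
  fin_cases i <;> fin_cases i' <;> rfl

set_option maxRecDepth 100000 in
theorem coxEltChk_G2 : coxEltChk chevG2 6 = true := by decide +kernel

theorem coxElt_G2 : orderOf ((List.finRange 2).map CoxeterMatrix.G₂.simple).prod = 6 :=
  cox_elt_order CoxeterMatrix.G₂ chevG2 (by simp [Std7]) rfl (mfOf coxTblG2) coxM_G2 coxChk_G2 6 (by norm_num) coxEltChk_G2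

theorem coxHom_G2 {F : Type*} [Field F] :
    ∃ φ : ↥(chevG2.monomialSubgroup F) →* CoxeterMatrix.G₂.Group, Function.Surjective φ ∧
      φ.ker = (chevG2.diagonalSubgroup F).subgroupOf (chevG2.monomialSubgroup F) ∧
      ∀ (i : Fin 2) (g : ↥(chevG2.monomialSubgroup F)),
        ((g : GL chevG2.Idx F) : Matrix chevG2.Idx chevG2.Idx F) = chevG2.nMat F (chevG2.simple i) 1 → φ g = CoxeterMatrix.G₂.simple i :=
  cox_hom CoxeterMatrix.G₂ chevG2 (by simp [Std7]) rfl (mfOf coxTblG2) coxM_G2 coxChk_G2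

set_option maxRecDepth 100000 in
theorem coxEltChk_B2 : coxEltChk chevB2 4 = true := by decide +kernel

theorem coxElt_B2 : orderOf ((List.finRange 2).map (CoxeterMatrix.B 2).simple).prod = 4 :=
  cox_elt_order (CoxeterMatrix.B 2) chevB2 (by simp [Std7]) rfl (mfOf coxTblB2) coxM_B2 coxChk_B2 4 (by norm_num) coxEltChk_B2

theorem coxHom_B2 {F : Type*} [Field F] :
    ∃ φ : ↥(chevB2.monomialSubgroup F) →* (CoxeterMatrix.B 2).Group, Function.Surjective φ ∧
      φ.ker = (chevB2.diagonalSubgroup F).subgroupOf (chevB2.monomialSubgroup F) ∧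
      ∀ (i : Fin 2) (g : ↥(chevB2.monomialSubgroup F)),
        ((g : GL chevB2.Idx F) : Matrix chevB2.Idx chevB2.Idx F) = chevB2.nMat F (chevB2.simple i) 1 → φ g = (CoxeterMatrix.B 2).simple i :=
  cox_hom (CoxeterMatrix.B 2) chevB2 (by simp [Std7]) rfl (mfOf coxTblB2) coxM_B2 coxChk_B2

set_option maxRecDepth 100000 in
theorem coxEltChk_D4 : coxEltChk chevD4 6 = true := by decide +kernel

theorem coxElt_D4 : orderOf ((List.finRange 4).map coxeterD4.simple).prod = 6 :=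
  cox_elt_order coxeterD4 chevD4 (by simp [Std7]) rfl (mfOf coxTblD4) coxM_D4 coxChk_D4 6 (by norm_num) coxEltChk_D4

theorem coxHom_D4 {F : Type*} [Field F] :
    ∃ φ : ↥(chevD4.monomialSubgroup F) →* coxeterD4.Group, Function.Surjective φ ∧
      φ.ker = (chevD4.diagonalSubgroup F).subgroupOf (chevD4.monomialSubgroup F) ∧
      ∀ (i : Fin 4) (g : ↥(chevD4.monomialSubgroup F)),
        ((g : GL chevD4.Idx F) : Matrix chevD4.Idx chevD4.Idx F) = chevD4.nMat F (chevD4.simple i) 1 → φ g = coxeterD4.simple i :=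
  cox_hom coxeterD4 chevD4 (by simp [Std7]) rfl (mfOf coxTblD4) coxM_D4 coxChk_D4

set_option maxRecDepth 100000 in
theorem coxEltChk_F4 : coxEltChk chevF4 12 = true := by decide +kernel

theorem coxElt_F4 : orderOf ((List.finRange 4).map CoxeterMatrix.F₄.simple).prod = 12 :=
  cox_elt_order CoxeterMatrix.F₄ chevF4 (by simp [Std7]) rfl (mfOf coxTblF4) coxM_F4 coxChk_F4 12 (by norm_num) coxEltChk_F4

theorem coxHom_F4 {F : Type*} [Field F] :
    ∃ φ : ↥(chevF4.monomialSubgroup F) →* CoxeterMatrix.F₄.Group, Function.Surjective φ ∧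
      φ.ker = (chevF4.diagonalSubgroup F).subgroupOf (chevF4.monomialSubgroup F) ∧
      ∀ (i : Fin 4) (g : ↥(chevF4.monomialSubgroup F)),
        ((g : GL chevF4.Idx F) : Matrix chevF4.Idx chevF4.Idx F) = chevF4.nMat F (chevF4.simple i) 1 → φ g = CoxeterMatrix.F₄.simple i :=
  cox_hom CoxeterMatrix.F₄ chevF4 (by simp [Std7]) rfl (mfOf coxTblF4) coxM_F4 coxChk_F4

set_option maxRecDepth 100000 in
theorem coxEltChk_E6 : coxEltChk chevE6 12 = true := by decide +kernel

theorem coxElt_E6 : orderOf ((List.finRange 6).map CoxeterMatrix.E₆.simple).prod = 12 :=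
  cox_elt_order CoxeterMatrix.E₆ chevE6 (by simp [Std7]) rfl (mfOf coxTblE6) coxM_E6 coxChk_E6 12 (by norm_num) coxEltChk_E6

theorem coxHom_E6 {F : Type*} [Field F] :
    ∃ φ : ↥(chevE6.monomialSubgroup F) →* CoxeterMatrix.E₆.Group, Function.Surjective φ ∧
      φ.ker = (chevE6.diagonalSubgroup F).subgroupOf (chevE6.monomialSubgroup F) ∧
      ∀ (i : Fin 6) (g : ↥(chevE6.monomialSubgroup F)),
        ((g : GL chevE6.Idx F) : Matrix chevE6.Idx chevE6.Idx F) = chevE6.nMat F (chevE6.simple i) 1 → φ g = CoxeterMatrix.E₆.simple i :=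
  cox_hom CoxeterMatrix.E₆ chevE6 (by simp [Std7]) rfl (mfOf coxTblE6) coxM_E6 coxChk_E6

set_option maxRecDepth 100000 in
theorem coxEltChk_E7 : coxEltChk chevE7 18 = true := by decide +kernel

theorem coxElt_E7 : orderOf ((List.finRange 7).map CoxeterMatrix.E₇.simple).prod = 18 :=
  cox_elt_order CoxeterMatrix.E₇ chevE7 (by simp [Std7]) rfl (mfOf coxTblE7) coxM_E7 coxChk_E7 18 (by norm_num) coxEltChk_E7

theorem coxHom_E7 {F : Type*} [Field F] :
    ∃ φ : ↥(chevE7.monomialSubgroup F) →* CoxeterMatrix.E₇.Group, Function.Surjective φ ∧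
      φ.ker = (chevE7.diagonalSubgroup F).subgroupOf (chevE7.monomialSubgroup F) ∧
      ∀ (i : Fin 7) (g : ↥(chevE7.monomialSubgroup F)),
        ((g : GL chevE7.Idx F) : Matrix chevE7.Idx chevE7.Idx F) = chevE7.nMat F (chevE7.simple i) 1 → φ g = CoxeterMatrix.E₇.simple i :=
  cox_hom CoxeterMatrix.E₇ chevE7 (by simp [Std7]) rfl (mfOf coxTblE7) coxM_E7 coxChk_E7

set_option maxRecDepth 100000 in
theorem coxEltChk_E8 : coxEltChk chevE8 30 = true := by decide +kernel

theorem coxElt_E8 : orderOf ((List.finRange 8).map CoxeterMatrix.E₈.simple).prod = 30 :=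
  cox_elt_order CoxeterMatrix.E₈ chevE8 (by simp [Std7]) rfl (mfOf coxTblE8) coxM_E8 coxChk_E8 30 (by norm_num) coxEltChk_E8

theorem coxHom_E8 {F : Type*} [Field F] :
    ∃ φ : ↥(chevE8.monomialSubgroup F) →* CoxeterMatrix.E₈.Group, Function.Surjective φ ∧
      φ.ker = (chevE8.diagonalSubgroup F).subgroupOf (chevE8.monomialSubgroup F) ∧
      ∀ (i : Fin 8) (g : ↥(chevE8.monomialSubgroup F)),
        ((g : GL chevE8.Idx F) : Matrix chevE8.Idx chevE8.Idx F) = chevE8.nMat F (chevE8.simple i) 1 → φ g = CoxeterMatrix.E₈.simple i :=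
  cox_hom CoxeterMatrix.E₈ chevE8 (by simp [Std7]) rfl (mfOf coxTblE8) coxM_E8 coxChk_E8

end Cfsg.Agent.Helper8
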