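import Cfsg.Agent.Helper8.Cox6
import Cfsg.Agent.Helper8.Ord8G2
import Cfsg.Agent.Helper8.Ord8B2
import Cfsg.Agent.Helper8.Ord8D4
import Cfsg.Agent.Helper8.Ord8F4
import Cfsg.Agent.Helper8.Ord8E6
import Cfsg.Agent.Helper8.Ord8E7
import Cfsg.Agent.Helper8.Ord8E8

set_option autoImplicit false

namespace Cfsg.Agent.Helper8

open Cfsg.Lie

set_option maxRecDepth 100000 in
theorem coxCard_G2 : Nat.card CoxeterMatrix.G₂.Group = 12 := by
  have h := cox_card CoxeterMatrix.G₂ chevG2 (by simp [Std7]) rfl (mfOf coxTblG2) coxM_G2 coxChk_G2 _ poin_G2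
  rw [h]
  decide +kernel

set_option maxRecDepth 100000 in
theorem coxCard_B2 : Nat.card (CoxeterMatrix.B 2).Group = 8 := by
  have h := cox_card (CoxeterMatrix.B 2) chevB2 (by simp [Std7]) rfl (mfOf coxTblB2) coxM_B2 coxChk_B2 _ poin_B2
  rw [h]
  decide +kernel

set_option maxRecDepth 100000 in
theorem coxCard_D4 : Nat.card coxeterD4.Group = 192 := by
  have h := cox_card coxeterD4 chevD4 (by simp [Std7]) rfl (mfOf coxTblD4) coxM_D4 coxChk_D4 _ poin_D4
  rw [h]
  decide +kernel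

set_option maxRecDepth 100000 in
theorem coxCard_F4 : Nat.card CoxeterMatrix.F₄.Group = 1152 := by
  have h := cox_card CoxeterMatrix.F₄ chevF4 (by simp [Std7]) rfl (mfOf coxTblF4) coxM_F4 coxChk_F4 _ poin_F4
  rw [h]
  decide +kernel

set_option maxRecDepth 100000 in
theorem coxCard_E6 : Nat.card CoxeterMatrix.E₆.Group = 51840 := by
  have h := cox_card CoxeterMatrix.E₆ chevE6 (by simp [Std7]) rfl (mfOf coxTblE6) coxM_E6 coxChk_E6 _ poin_E6
  rw [h]
  decide +kernel

set_option maxRecDepth 100000 in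
theorem coxCard_E7 : Nat.card CoxeterMatrix.E₇.Group = 2903040 := by
  have h := cox_card CoxeterMatrix.E₇ chevE7 (by simp [Std7]) rfl (mfOf coxTblE7) coxM_E7 coxChk_E7 _ poin_E7
  rw [h]
  decide +kernel

set_option maxRecDepth 100000 in
theorem coxCard_E8 : Nat.card CoxeterMatrix.E₈.Group = 696729600 := by
  have h := cox_card CoxeterMatrix.E₈ chevE8 (by simp [Std7]) rfl (mfOf coxTblE8) coxM_E8 coxChk_E8 _ poin_E8
  rw [h]
  decide +kernel

end Cfsg.Agent.Helper8
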