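import Cfsg.Agent.Helper8.Cox5
import Cfsg.Agent.Helper8.CorootLinChk
import Cfsg.Agent.Helper8.BNChk

set_option autoImplicit false

namespace Cfsg.Agent.Helper8

open Cfsg.Lie

/-! ### Centres of the Coxeter groups of the tabulated types -/

/-- A word that keeps every fundamental root positive acts trivially on the roots. -/
theorem re_nil_of_pos (D : ChevalleyDatum) (hD : Std7 D) (l : List ℕ) (hl : VW D l)
    (h : ∀ k, k < D.rank → D.IsPosRoot (reflWord D l (D.simple k))) : RE D l [] := by
  obtain ⟨r, hr, hre⟩ := exists_red D hD l hl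
  have h0 : invN D l = 0 := by
    unfold invN
    rw [Set.ncard_eq_zero (invSet_finite D l), Set.eq_empty_iff_forall_notMem]
    rintro s ⟨hp, hn⟩
    exact pos_neg_excl D hD _ (word_pos D hD l hl h s hp) hn
  have h1 : r.length = 0 := by rw [← hr.2, ← re_invN hre, h0]
  rw [List.length_eq_zero_iff] at h1
  rw [h1] at hre
  exact hre

/-- Table check: the only roots mapped to their negatives by `w_i` are `±p_i`. -/
def sfixChk (D : ChevalleyDatum) (i : ℕ) : Bool :=
  allF (fun r => !(Nat.beq (D.reflectRoot i r) (D.neg r)) || (Nat.beq r (D.simple i) || Nat.beq r (D.neg (D.simple i))))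
    (List.range D.nroots)

theorem sfix_sound (D : ChevalleyDatum) (i : ℕ) (h : sfixChk D i = true) (r : ℕ) (hr : r < D.nroots)
    (e : D.reflectRoot i r = D.neg r) : r = D.simple i ∨ r = D.neg (D.simple i) := by
  have h1 : (!(Nat.beq (D.reflectRoot i r) (D.neg r)) || (Nat.beq r (D.simple i) || Nat.beq r (D.neg (D.simple i)))) = true :=
    allF_mem _ _ h r (List.mem_range.mpr hr)
  have e' : Nat.beq (D.reflectRoot i r) (D.neg r) = true := by
    rw [e]
    exact Nat.beq_refl _
  rw [e', Bool.not_true, Bool.false_or, Bool.or_eq_true] at h1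
  rcases h1 with h1 | h1
  · exact Or.inl (Nat.eq_of_beq_eq_true h1)
  · exact Or.inr (Nat.eq_of_beq_eq_true h1)

/-- Table check: every coefficient of the coroot of `s` is positive. -/
def hiChk (D : ChevalleyDatum) (s : ℕ) : Bool :=
  Nat.blt s D.nroots && allF (fun j => decide (0 < corootC D s j)) (List.range D.rank)

theorem hi_sound (D : ChevalleyDatum) (s : ℕ) (h : hiChk D s = true) :
    s < D.nroots ∧ ∀ j, j < D.rank → 0 < corootC D s j := by
  unfold hiChk at h
  rw [Bool.and_eq_true] at h
  refine ⟨by have := h.1; rwa [Nat.blt_eq] at this, fun j hj => ?_⟩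
  exact of_decide_eq_true (allF_mem _ _ h.2 j (List.mem_range.mpr hj))

/-- Table check: the coroot of `-p_k` is minus the `k`-th basis vector. -/
def negSimpleChk (D : ChevalleyDatum) (k : ℕ) : Bool :=
  allF (fun j => decide (corootC D (D.neg (D.simple k)) j = @Bool.rec (fun _ => ℤ) 0 (-1) (Nat.beq j k)))
    (List.range D.rank)

theorem negSimple_sound (D : ChevalleyDatum) (k : ℕ) (h : negSimpleChk D k = true) (j : ℕ) (hj : j < D.rank) :
    corootC D (D.neg (D.simple k)) j = if j = k then -1 else 0 := by
  have h1 := allF_mem _ _ h j (List.mem_range.mpr hj)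
  have h2 := of_decide_eq_true h1
  rw [h2, boolRec_beq]

/-- Table check: the word `w` maps `p_k` to `-p_{jf k}`. -/
def wSignChk (D : ChevalleyDatum) (w : List ℕ) (jf : ℕ → ℕ) : Bool :=
  allF (fun k => Nat.blt (jf k) D.rank && Nat.beq (reflWordT D w (D.simple k)) (D.neg (D.simple (jf k))))
    (List.range D.rank)

theorem wSign_sound (D : ChevalleyDatum) (hD : Std7 D) (w : List ℕ) (hw : VW D w) (jf : ℕ → ℕ)
    (h : wSignChk D w jf = true) (k : ℕ) (hk : k < D.rank) :
    jf k < D.rank ∧ reflWord D w (D.simple k) = D.neg (D.simple (jf k)) := by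
  have h1 := allF_mem _ _ h k (List.mem_range.mpr hk)
  rw [Bool.and_eq_true] at h1
  refine ⟨by have := h1.1; rwa [Nat.blt_eq] at this, ?_⟩
  rw [← reflWordT_eq D hD w hw _ (std_simple_lt D hD k hk)]
  exact Nat.eq_of_beq_eq_true h1.2

/-- The data of the table checks used for the centre. -/
structure CenChk (D : ChevalleyDatum) (s0 : ℕ) : Prop where
  sfix : ∀ i, i < D.rank → sfixChk D i = true
  hi : hiChk D s0 = true
  negS : ∀ k, k < D.rank → negSimpleChk D k = true

theorem coord_of_signs (D : ChevalleyDatum) (hD : Std7 D) (hns : ∀ k, k < D.rank → negSimpleChk D k = true)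
    (l : List ℕ) (hl : VW D l)
    (hβ : ∀ k, k < D.rank → reflWord D l (D.simple k) = D.simple k ∨ reflWord D l (D.simple k) = D.neg (D.simple k))
    (s : ℕ) (hs : s < D.nroots) (j : ℕ) (hj : j < D.rank) :
    corootC D (reflWord D l s) j = corootC D s j * corootC D (reflWord D l (D.simple j)) j := by
  rw [corootC_word D hD (corootLin_all D hD) (corootSimple_all D hD) l hl s hs j]
  apply Finset.sum_eq_single j
  · intro k hk hkj
    have hk' := Finset.mem_range.mp hk
    rcases hβ k hk' with e | e
    · rw [e, corootSimple_sound D k hk' (corootSimple_all D hD k hk') j, if_neg (fun h => hkj h.symm), mul_zero]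
    · rw [e, negSimple_sound D k (hns k hk') j hj, if_neg (fun h => hkj h.symm), mul_zero]
  · intro hnot
    exact absurd (Finset.mem_range.mpr hj) hnot

section cox

variable {n : ℕ} (M : CoxeterMatrix (Fin n))

theorem exists_word (D : ChevalleyDatum) (hn : D.rank = n) (z : M.Group) :
    ∃ l, VW D l ∧ z = gprod (cgen M) l := by
  obtain ⟨ω, rfl⟩ := M.toCoxeterSystem.wordProd_surjective z
  refine ⟨ω.map Fin.val, ?_, (gprod_cgen_map M ω).symm⟩
  intro a ha
  rw [List.mem_map] at ha
  obtain ⟨i, -, rfl⟩ := ha
  exact hn ▸ i.2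

theorem cgen_sq (a : ℕ) (ha : a < n) : cgen M a * cgen M a = 1 := by
  rw [cgen_lt M a ha, ← CoxeterMatrix.toCoxeterSystem_simple]
  exact M.toCoxeterSystem.simple_mul_simple_self _

/-- A central element of the Coxeter group fixes all the fundamental roots or negates all of them. -/
theorem center_cases (D : ChevalleyDatum) (hD : Std7 D) (hn : D.rank = n) (mf : ℕ → ℕ → ℕ)
    (hM : ∀ i i' : Fin n, M i i' = mf i i') (hchk : coxChk D mf = true) (s0 : ℕ) (hC : CenChk D s0)
    (z : M.Group) (hz : z ∈ Subgroup.center M.Group) :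
    ∃ l, VW D l ∧ z = gprod (cgen M) l ∧
      ((∀ k, k < D.rank → reflWord D l (D.simple k) = D.simple k) ∨
        (∀ k, k < D.rank → reflWord D l (D.simple k) = D.neg (D.simple k))) := by
  obtain ⟨l, hl, rfl⟩ := exists_word M D hn z
  refine ⟨l, hl, rfl, ?_⟩
  have hβ : ∀ k, k < D.rank →
      reflWord D l (D.simple k) = D.simple k ∨ reflWord D l (D.simple k) = D.neg (D.simple k) := by
    intro i hi
    have hcomm : gprod (cgen M) (l ++ [i]) = gprod (cgen M) ([i] ++ l) := by
      rw [gprod_append, gprod_append, gprod_single]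
      exact (Subgroup.mem_center_iff.mp hz (cgen M i)).symm
    have hre := (cox_iff M D hD hn mf hM hchk _ _ (vw_append hl (vw_single hi)) (vw_append (vw_single hi) hl)).mp hcomm
    have h1 := hre _ (std_simple_lt D hD i hi)
    rw [reflWord_snoc_simple D hD l hl i hi] at h1
    have h2 : reflWord D ([i] ++ l) (D.simple i) = D.reflectRoot i (reflWord D l (D.simple i)) := rfl
    rw [h2] at h1
    exact sfix_sound D i (hC.sfix i hi) _ (reflWord_lt D hD l hl _ (std_simple_lt D hD i hi)) h1.symm
  by_cases hall : ∀ k, k < D.rank → reflWord D l (D.simple k) = D.simple k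
  · exact Or.inl hall
  · right
    push Not at hall
    obtain ⟨a, ha, hane⟩ := hall
    have hae : reflWord D l (D.simple a) = D.neg (D.simple a) := (hβ a ha).resolve_left hane
    intro b hb
    rcases hβ b hb with hbe | hbe
    · exfalso
      obtain ⟨hs0, hpos⟩ := hi_sound D s0 hC.hi
      have hq := reflWord_lt D hD l hl s0 hs0
      have ca := coord_of_signs D hD hC.negS l hl hβ s0 hs0 a ha
      have cb := coord_of_signs D hD hC.negS l hl hβ s0 hs0 b hb
      rw [hae, negSimple_sound D a (hC.negS a ha) a ha, if_pos rfl] at ca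
      rw [hbe, corootSimple_sound D b hb (corootSimple_all D hD b hb) b, if_pos rfl] at cb
      have pa := hpos a ha
      have pb := hpos b hb
      rcases pos_or_neg D hD _ hq with hp | hn'
      · have := corootC_nonneg D _ hp a
        rw [ca] at this
        omega
      · have := corootC_nonpos D _ hn' b
        rw [cb] at this
        omega
    · exact hbe

/-- A central element that fixes the fundamental roots is trivial. -/
theorem eq_one_of_fix (D : ChevalleyDatum) (hD : Std7 D) (hn : D.rank = n) (mf : ℕ → ℕ → ℕ)
    (hM : ∀ i i' : Fin n, M i i' = mf i i') (hchk : coxChk D mf = true) (l : List ℕ) (hl : VW D l)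
    (h : ∀ k, k < D.rank → reflWord D l (D.simple k) = D.simple k) : gprod (cgen M) l = 1 := by
  have hre : RE D l [] := re_of_simple D hD l [] hl (vw_nil D) h
  exact (cox_iff M D hD hn mf hM hchk _ _ hl (vw_nil D)).mpr hre

/-- The centre when `-1` is the `m`-th power of the Coxeter element. -/
theorem center_two (D : ChevalleyDatum) (hD : Std7 D) (hn : D.rank = n) (mf : ℕ → ℕ → ℕ)
    (hM : ∀ i i' : Fin n, M i i' = mf i i') (hchk : coxChk D mf = true) (s0 : ℕ) (hC : CenChk D s0)
    (m : ℕ) (hw0 : wSignChk D (repW (List.range D.rank) m) (fun k => k) = true) :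
    Nat.card (Subgroup.center M.Group) = 2 ∧
      Subgroup.center M.Group ≤ Subgroup.zpowers ((List.finRange n).map M.simple).prod := by
  have hv : VW D (List.range D.rank) := fun a ha => List.mem_range.mp ha
  have hw : VW D (repW (List.range D.rank) m) := repW_vw D _ hv m
  have hwk : ∀ k, k < D.rank → reflWord D (repW (List.range D.rank) m) (D.simple k) = D.neg (D.simple k) :=
    fun k hk => (wSign_sound D hD _ hw _ hw0 k hk).2
  have hg : gprod (cgen M) (repW (List.range D.rank) m) = ((List.finRange n).map M.simple).prod ^ m := by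
    rw [gprod_repW, cox_elt_eq, hn]
  -- the element is central
  have hcen : gprod (cgen M) (repW (List.range D.rank) m) ∈ Subgroup.center M.Group := by
    have hsimple : ∀ i, i < D.rank → cgen M i * gprod (cgen M) (repW (List.range D.rank) m) =
        gprod (cgen M) (repW (List.range D.rank) m) * cgen M i := by
      intro i hi
      have h1 : reflWord D (repW (List.range D.rank) m ++ [i]) (D.simple i) = D.simple i := by
        rw [reflWord_snoc_simple D hD _ hw i hi, hwk i hi, neg_neg_simple D hD i hi]
      have hwi : VW D (repW (List.range D.rank) m ++ [i]) := vw_append hw (vw_single hi)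
      have h2 := re_conj D hD _ hwi i i hi hi h1
      have h3 := re_trans h2 (re_snoc2 D hD (repW (List.range D.rank) m) i hi)
      have h4 := (cox_iff M D hD hn mf hM hchk _ _ (by
        intro a ha
        rcases List.mem_cons.mp ha with rfl | ha
        · exact hi
        · exact hwi a ha) hw).mpr h3
      have h5 : gprod (cgen M) (i :: (repW (List.range D.rank) m ++ [i])) =
          cgen M i * gprod (cgen M) (repW (List.range D.rank) m) * cgen M i := by
        have e : i :: (repW (List.range D.rank) m ++ [i]) = [i] ++ repW (List.range D.rank) m ++ [i] := rfl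
        rw [e, gprod_append, gprod_append, gprod_single]
      rw [h5] at h4
      have hsq := cgen_sq M i (hn ▸ hi)
      calc cgen M i * gprod (cgen M) (repW (List.range D.rank) m)
          = cgen M i * gprod (cgen M) (repW (List.range D.rank) m) * (cgen M i * cgen M i) := by
            rw [hsq, mul_one]
        _ = cgen M i * gprod (cgen M) (repW (List.range D.rank) m) * cgen M i * cgen M i := by
            rw [mul_assoc _ (cgen M i) (cgen M i)]
        _ = gprod (cgen M) (repW (List.range D.rank) m) * cgen M i := by rw [h4]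
    rw [Subgroup.mem_center_iff]
    intro h
    obtain ⟨l, hl, rfl⟩ := exists_word M D hn h
    clear hg
    induction l with
    | nil =>
      have e : gprod (cgen M) [] = 1 := rfl
      rw [e, one_mul, mul_one]
    | cons a l ih =>
      have ha : a < D.rank := hl a List.mem_cons_self
      have hl' : VW D l := fun b hb => hl b (List.mem_cons_of_mem _ hb)
      have e : gprod (cgen M) (a :: l) = cgen M a * gprod (cgen M) l := by
        have e' : a :: l = [a] ++ l := rfl
        rw [e', gprod_append, gprod_single]
      rw [e, mul_assoc, ih hl', ← mul_assoc, hsimple a ha, mul_assoc]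
  -- it is not trivial
  have hne : gprod (cgen M) (repW (List.range D.rank) m) ≠ 1 := by
    intro h1
    have e : gprod (cgen M) ([] : List ℕ) = 1 := rfl
    rw [← e] at h1
    have hre := (cox_iff M D hD hn mf hM hchk _ _ hw (vw_nil D)).mp h1
    have h0 := rank_pos_all D hD
    have hlt := std_simple_lt D hD 0 h0
    have h2 := hre _ hlt
    rw [hwk 0 h0, reflWord_nil] at h2
    exact (std_facts D hD 0 h0 _ hlt).2.1 h2
  -- the central elements
  have hall : ∀ z ∈ Subgroup.center M.Group, z = 1 ∨ z = gprod (cgen M) (repW (List.range D.rank) m) := by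
    intro z hz
    obtain ⟨l, hl, rfl, h | h⟩ := center_cases M D hD hn mf hM hchk s0 hC z hz
    · exact Or.inl (eq_one_of_fix M D hD hn mf hM hchk l hl h)
    · right
      apply (cox_iff M D hD hn mf hM hchk _ _ hl hw).mpr
      apply re_of_simple D hD _ _ hl hw
      intro k hk
      rw [h k hk, hwk k hk]
  constructor
  · rw [Nat.card_eq_two_iff]
    refine ⟨⟨1, one_mem _⟩, ⟨_, hcen⟩, ?_, ?_⟩
    · intro h
      exact hne (Subtype.ext_iff.mp h).symm
    · rw [Set.eq_univ_iff_forall]
      rintro ⟨z, hz⟩
      rcases hall z hz with rfl | rfl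
      · exact Or.inl rfl
      · exact Or.inr rfl
  · intro z hz
    rcases hall z hz with rfl | rfl
    · exact one_mem _
    · rw [hg]
      exact Subgroup.pow_mem _ (Subgroup.mem_zpowers _) m

/-- The centre is trivial when some word negates the fundamental roots up to a non-trivial permutation. -/
theorem center_bot (D : ChevalleyDatum) (hD : Std7 D) (hn : D.rank = n) (mf : ℕ → ℕ → ℕ)
    (hM : ∀ i i' : Fin n, M i i' = mf i i') (hchk : coxChk D mf = true) (s0 : ℕ) (hC : CenChk D s0)
    (w : List ℕ) (hw : VW D w) (jf : ℕ → ℕ) (hwj : wSignChk D w jf = true) (k0 : ℕ) (hk0 : k0 < D.rank)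
    (hne : D.simple (jf k0) ≠ D.simple k0) : Subgroup.center M.Group = ⊥ := by
  rw [Subgroup.eq_bot_iff_forall]
  intro z hz
  obtain ⟨l, hl, rfl, h | h⟩ := center_cases M D hD hn mf hM hchk s0 hC z hz
  · exact eq_one_of_fix M D hD hn mf hM hchk l hl h
  · exfalso
    have hu : ∀ k, k < D.rank → reflWord D (l ++ w) (D.simple k) = D.simple (jf k) := by
      intro k hk
      obtain ⟨hj, e⟩ := wSign_sound D hD w hw jf hwj k hk
      rw [reflWord_append, e, reflWord_neg D hD l hl _ (std_simple_lt D hD _ hj), h _ hj, neg_neg_simple D hD _ hj]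
    have hre := re_nil_of_pos D hD (l ++ w) (vw_append hl hw) (fun k hk => by
      rw [hu k hk]
      exact simple_pos D hD _ (wSign_sound D hD w hw jf hwj k hk).1)
    have h1 := hre _ (std_simple_lt D hD k0 hk0)
    rw [hu k0 hk0, reflWord_nil] at h1
    exact hne h1

end cox

end Cfsg.Agent.Helper8
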