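import Cfsg.Agent.Helper8.CoxZ
import Cfsg.Agent.Helper8.Cox3E6
import Cfsg.Agent.Helper8.Cox3E7
import Cfsg.Agent.Helper8.Cox3E8

set_option autoImplicit false

namespace Cfsg.Agent.Helper8

open Cfsg.Lie

/-! ### Type `G2` -/

theorem cenM_G2 : ∀ i i' : Fin 2, CoxeterMatrix.G₂ i i' = mfOf coxTblG2 i i' := by
  intro i i'
  fin_cases i <;> fin_cases i' <;> rfl

set_option maxRecDepth 100000 in
theorem sfix_G2 : ∀ r, 0 ≤ r → r < 0 + 2 → sfixChk chevG2 r = true :=
  range_all (sfixChk chevG2) 0 2 (by decide +kernel)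

set_option maxRecDepth 100000 in
theorem hi_G2 : hiChk chevG2 8 = true := by decide +kernel

set_option maxRecDepth 100000 in
theorem negS_G2 : ∀ r, 0 ≤ r → r < 0 + 2 → negSimpleChk chevG2 r = true :=
  range_all (negSimpleChk chevG2) 0 2 (by decide +kernel)

theorem cenChk_G2 : CenChk chevG2 8 :=
  ⟨fun i hi => sfix_G2 i (Nat.zero_le _) (by rw [Nat.zero_add]; exact hi), hi_G2,
    fun i hi => negS_G2 i (Nat.zero_le _) (by rw [Nat.zero_add]; exact hi)⟩

set_option maxRecDepth 100000 in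
theorem w0_G2 : wSignChk chevG2 (repW (List.range chevG2.rank) 3) (fun k => k) = true := by decide +kernel

theorem cen_G2 : Nat.card (Subgroup.center CoxeterMatrix.G₂.Group) = 2 ∧
    Subgroup.center CoxeterMatrix.G₂.Group ≤ Subgroup.zpowers ((List.finRange 2).map CoxeterMatrix.G₂.simple).prod :=
  center_two CoxeterMatrix.G₂ chevG2 (by simp [Std7]) rfl (mfOf coxTblG2) cenM_G2 coxChk_G2 8 cenChk_G2 3 w0_G2

/-! ### Type `B2` -/

theorem cenM_B2 : ∀ i i' : Fin 2, (CoxeterMatrix.B 2) i i' = mfOf coxTblB2 i i' := by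
  intro i i'
  fin_cases i <;> fin_cases i' <;> rfl

set_option maxRecDepth 100000 in
theorem sfix_B2 : ∀ r, 0 ≤ r → r < 0 + 2 → sfixChk chevB2 r = true :=
  range_all (sfixChk chevB2) 0 2 (by decide +kernel)

set_option maxRecDepth 100000 in
theorem hi_B2 : hiChk chevB2 6 = true := by decide +kernel

set_option maxRecDepth 100000 in
theorem negS_B2 : ∀ r, 0 ≤ r → r < 0 + 2 → negSimpleChk chevB2 r = true :=
  range_all (negSimpleChk chevB2) 0 2 (by decide +kernel)

theorem cenChk_B2 : CenChk chevB2 6 :=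
  ⟨fun i hi => sfix_B2 i (Nat.zero_le _) (by rw [Nat.zero_add]; exact hi), hi_B2,
    fun i hi => negS_B2 i (Nat.zero_le _) (by rw [Nat.zero_add]; exact hi)⟩

set_option maxRecDepth 100000 in
theorem w0_B2 : wSignChk chevB2 (repW (List.range chevB2.rank) 2) (fun k => k) = true := by decide +kernel

theorem cen_B2 : Nat.card (Subgroup.center (CoxeterMatrix.B 2).Group) = 2 ∧
    Subgroup.center (CoxeterMatrix.B 2).Group ≤ Subgroup.zpowers ((List.finRange 2).map (CoxeterMatrix.B 2).simple).prod :=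
  center_two (CoxeterMatrix.B 2) chevB2 (by simp [Std7]) rfl (mfOf coxTblB2) cenM_B2 coxChk_B2 6 cenChk_B2 2 w0_B2

/-! ### Type `D4` -/

theorem cenM_D4 : ∀ i i' : Fin 4, coxeterD4 i i' = mfOf coxTblD4 i i' := by
  intro i i'
  fin_cases i <;> fin_cases i' <;> rfl

set_option maxRecDepth 100000 in
theorem sfix_D4 : ∀ r, 0 ≤ r → r < 0 + 4 → sfixChk chevD4 r = true :=
  range_all (sfixChk chevD4) 0 4 (by decide +kernel)

set_option maxRecDepth 100000 in
theorem hi_D4 : hiChk chevD4 22 = true := by decide +kernel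

set_option maxRecDepth 100000 in
theorem negS_D4 : ∀ r, 0 ≤ r → r < 0 + 4 → negSimpleChk chevD4 r = true :=
  range_all (negSimpleChk chevD4) 0 4 (by decide +kernel)

theorem cenChk_D4 : CenChk chevD4 22 :=
  ⟨fun i hi => sfix_D4 i (Nat.zero_le _) (by rw [Nat.zero_add]; exact hi), hi_D4,
    fun i hi => negS_D4 i (Nat.zero_le _) (by rw [Nat.zero_add]; exact hi)⟩

set_option maxRecDepth 100000 in
theorem w0_D4 : wSignChk chevD4 (repW (List.range chevD4.rank) 3) (fun k => k) = true := by decide +kernel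

theorem cen_D4 : Nat.card (Subgroup.center coxeterD4.Group) = 2 ∧
    Subgroup.center coxeterD4.Group ≤ Subgroup.zpowers ((List.finRange 4).map coxeterD4.simple).prod :=
  center_two coxeterD4 chevD4 (by simp [Std7]) rfl (mfOf coxTblD4) cenM_D4 coxChk_D4 22 cenChk_D4 3 w0_D4

/-! ### Type `F4` -/

theorem cenM_F4 : ∀ i i' : Fin 4, CoxeterMatrix.F₄ i i' = mfOf coxTblF4 i i' := by
  intro i i'
  fin_cases i <;> fin_cases i' <;> rfl

set_option maxRecDepth 100000 in
theorem sfix_F4 : ∀ r, 0 ≤ r → r < 0 + 4 → sfixChk chevF4 r = true :=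
  range_all (sfixChk chevF4) 0 4 (by decide +kernel)

set_option maxRecDepth 100000 in
theorem hi_F4 : hiChk chevF4 36 = true := by decide +kernel

set_option maxRecDepth 100000 in
theorem negS_F4 : ∀ r, 0 ≤ r → r < 0 + 4 → negSimpleChk chevF4 r = true :=
  range_all (negSimpleChk chevF4) 0 4 (by decide +kernel)

theorem cenChk_F4 : CenChk chevF4 36 :=
  ⟨fun i hi => sfix_F4 i (Nat.zero_le _) (by rw [Nat.zero_add]; exact hi), hi_F4,
    fun i hi => negS_F4 i (Nat.zero_le _) (by rw [Nat.zero_add]; exact hi)⟩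

set_option maxRecDepth 100000 in
theorem w0_F4 : wSignChk chevF4 (repW (List.range chevF4.rank) 6) (fun k => k) = true := by decide +kernel

theorem cen_F4 : Nat.card (Subgroup.center CoxeterMatrix.F₄.Group) = 2 ∧
    Subgroup.center CoxeterMatrix.F₄.Group ≤ Subgroup.zpowers ((List.finRange 4).map CoxeterMatrix.F₄.simple).prod :=
  center_two CoxeterMatrix.F₄ chevF4 (by simp [Std7]) rfl (mfOf coxTblF4) cenM_F4 coxChk_F4 36 cenChk_F4 6 w0_F4

/-! ### Type `E6` -/

theorem cenM_E6 : ∀ i i' : Fin 6, CoxeterMatrix.E₆ i i' = mfOf coxTblE6 i i' := by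
  intro i i'
  fin_cases i <;> fin_cases i' <;> rfl

set_option maxRecDepth 100000 in
theorem sfix_E6 : ∀ r, 0 ≤ r → r < 0 + 6 → sfixChk chevE6 r = true :=
  range_all (sfixChk chevE6) 0 6 (by decide +kernel)

set_option maxRecDepth 100000 in
theorem hi_E6 : hiChk chevE6 63 = true := by decide +kernel

set_option maxRecDepth 100000 in
theorem negS_E6 : ∀ r, 0 ≤ r → r < 0 + 6 → negSimpleChk chevE6 r = true :=
  range_all (negSimpleChk chevE6) 0 6 (by decide +kernel)

theorem cenChk_E6 : CenChk chevE6 63 :=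
  ⟨fun i hi => sfix_E6 i (Nat.zero_le _) (by rw [Nat.zero_add]; exact hi), hi_E6,
    fun i hi => negS_E6 i (Nat.zero_le _) (by rw [Nat.zero_add]; exact hi)⟩

/-- A reduced word of the longest element of type `E₆`. -/
def longE6 : List ℕ :=
  [0, 1, 2, 0, 3, 1, 2, 0, 3, 2, 4, 3, 1, 2, 0, 3, 2, 4, 3, 1, 5, 4, 3, 1, 2, 0, 3, 2, 4, 3, 1, 5, 4, 3, 2, 0]

/-- The opposition involution of the diagram of type `E₆`. -/
def oppE6 (k : ℕ) : ℕ := List.getD [5, 1, 4, 3, 2, 0] k 0

set_option maxRecDepth 100000 in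
theorem long_E6 : wSignChk chevE6 longE6 oppE6 = true := by decide +kernel

theorem cen_E6 : Subgroup.center CoxeterMatrix.E₆.Group = ⊥ :=
  center_bot CoxeterMatrix.E₆ chevE6 (by simp [Std7]) rfl (mfOf coxTblE6) cenM_E6 coxChk_E6 63 cenChk_E6 longE6
    (by show ∀ a ∈ longE6, a < chevE6.rank; decide) oppE6 long_E6 0 (by decide) (by decide)

/-! ### Type `E7` -/

theorem cenM_E7 : ∀ i i' : Fin 7, CoxeterMatrix.E₇ i i' = mfOf coxTblE7 i i' := by
  intro i i'
  fin_cases i <;> fin_cases i' <;> rfl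

set_option maxRecDepth 100000 in
theorem sfix_E7 : ∀ r, 0 ≤ r → r < 0 + 7 → sfixChk chevE7 r = true :=
  range_all (sfixChk chevE7) 0 7 (by decide +kernel)

set_option maxRecDepth 100000 in
theorem hi_E7 : hiChk chevE7 102 = true := by decide +kernel

set_option maxRecDepth 100000 in
theorem negS_E7 : ∀ r, 0 ≤ r → r < 0 + 7 → negSimpleChk chevE7 r = true :=
  range_all (negSimpleChk chevE7) 0 7 (by decide +kernel)

theorem cenChk_E7 : CenChk chevE7 102 :=
  ⟨fun i hi => sfix_E7 i (Nat.zero_le _) (by rw [Nat.zero_add]; exact hi), hi_E7,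
    fun i hi => negS_E7 i (Nat.zero_le _) (by rw [Nat.zero_add]; exact hi)⟩

set_option maxRecDepth 100000 in
theorem w0_E7 : wSignChk chevE7 (repW (List.range chevE7.rank) 9) (fun k => k) = true := by decide +kernel

theorem cen_E7 : Nat.card (Subgroup.center CoxeterMatrix.E₇.Group) = 2 ∧
    Subgroup.center CoxeterMatrix.E₇.Group ≤ Subgroup.zpowers ((List.finRange 7).map CoxeterMatrix.E₇.simple).prod :=
  center_two CoxeterMatrix.E₇ chevE7 (by simp [Std7]) rfl (mfOf coxTblE7) cenM_E7 coxChk_E7 102 cenChk_E7 9 w0_E7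

/-! ### Type `E8` -/

theorem cenM_E8 : ∀ i i' : Fin 8, CoxeterMatrix.E₈ i i' = mfOf coxTblE8 i i' := by
  intro i i'
  fin_cases i <;> fin_cases i' <;> rfl

set_option maxRecDepth 100000 in
theorem sfix_E8 : ∀ r, 0 ≤ r → r < 0 + 8 → sfixChk chevE8 r = true :=
  range_all (sfixChk chevE8) 0 8 (by decide +kernel)

set_option maxRecDepth 100000 in
theorem hi_E8 : hiChk chevE8 173 = true := by decide +kernel

set_option maxRecDepth 100000 in
theorem negS_E8 : ∀ r, 0 ≤ r → r < 0 + 8 → negSimpleChk chevE8 r = true :=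
  range_all (negSimpleChk chevE8) 0 8 (by decide +kernel)

theorem cenChk_E8 : CenChk chevE8 173 :=
  ⟨fun i hi => sfix_E8 i (Nat.zero_le _) (by rw [Nat.zero_add]; exact hi), hi_E8,
    fun i hi => negS_E8 i (Nat.zero_le _) (by rw [Nat.zero_add]; exact hi)⟩

set_option maxRecDepth 100000 in
theorem w0_E8 : wSignChk chevE8 (repW (List.range chevE8.rank) 15) (fun k => k) = true := by decide +kernel

theorem cen_E8 : Nat.card (Subgroup.center CoxeterMatrix.E₈.Group) = 2 ∧
    Subgroup.center CoxeterMatrix.E₈.Group ≤ Subgroup.zpowers ((List.finRange 8).map CoxeterMatrix.E₈.simple).prod :=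
  center_two CoxeterMatrix.E₈ chevE8 (by simp [Std7]) rfl (mfOf coxTblE8) cenM_E8 coxChk_E8 173 cenChk_E8 15 w0_E8

end Cfsg.Agent.Helper8
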