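import Cfsg.Agent.Helper8.FA2
import Cfsg.Prelude.Def_ChevAutomorphisms

set_option autoImplicit false

namespace Cfsg.Agent.Helper8

open Cfsg.Lie

variable {F : Type*} [Field F]

/-! ### Unimodular Cartan matrices -/

/-- `B` is a right inverse of the matrix of Cartan integers. -/
def cartInvOK (D : ChevalleyDatum) (B : List (List ℤ)) : Bool :=
  (List.range D.rank).all fun j => (List.range D.rank).all fun m =>
    ((List.range D.rank).map fun i => D.cartan j (D.simple i) * (B.getD i []).getD m 0).sum ==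
      (if j = m then 1 else 0)

theorem zpow_sum_fin (a : F) (ha : a ≠ 0) (s : Finset ℕ) (f : ℕ → ℤ) :
    ∏ i ∈ s, a ^ f i = a ^ ∑ i ∈ s, f i := by
  classical
  induction s using Finset.induction_on with
  | empty => simp
  | insert i s hi ih => rw [Finset.prod_insert hi, Finset.sum_insert hi, ih, zpow_add₀ ha]

theorem list_sum_range_fin (f : ℕ → ℤ) (n : ℕ) : ((List.range n).map f).sum = ∑ i ∈ Finset.range n, f i := by
  induction n with
  | zero => rfl
  | succ n ih =>
    rw [List.range_succ, List.map_append, List.sum_append, ih, Finset.sum_range_succ]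
    simp

/-- With a unimodular Cartan matrix the parameters of `h(c)` are monomials in its diagonal entries. -/
theorem c_of_dOf (D : ChevalleyDatum) (B : List (List ℤ)) (hB : cartInvOK D B = true) (c : ℕ → F)
    (hc : ∀ i, i < D.rank → c i ≠ 0) (m : ℕ) (hm : m < D.rank) :
    c m = ∏ i ∈ Finset.range D.rank, dOf D c (D.simple i) ^ ((B.getD i []).getD m 0) := by
  unfold dOf
  have h1 : ∀ i ∈ Finset.range D.rank,
      (∏ j ∈ Finset.range D.rank, c j ^ D.cartan j (D.simple i)) ^ ((B.getD i []).getD m 0) =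
        ∏ j ∈ Finset.range D.rank, c j ^ (D.cartan j (D.simple i) * (B.getD i []).getD m 0) := by
    intro i _
    rw [← Finset.prod_zpow]
    apply Finset.prod_congr rfl
    intro j _
    rw [zpow_mul]
  rw [Finset.prod_congr rfl h1, Finset.prod_comm]
  have h2 : ∀ j ∈ Finset.range D.rank,
      ∏ i ∈ Finset.range D.rank, c j ^ (D.cartan j (D.simple i) * (B.getD i []).getD m 0) =
        c j ^ (if j = m then (1 : ℤ) else 0) := by
    intro j hj
    rw [Finset.mem_range] at hj
    rw [zpow_sum_fin (c j) (hc j hj)]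
    congr 1
    unfold cartInvOK at hB
    rw [List.all_eq_true] at hB
    have h3 := hB j (List.mem_range.mpr hj)
    rw [List.all_eq_true] at h3
    have h4 := h3 m (List.mem_range.mpr hm)
    have h5 := eq_of_beq h4
    rw [← h5, list_sum_range_fin]
  rw [Finset.prod_congr rfl h2, Finset.prod_eq_single m]
  · simp
  · intro j _ hjm
    simp [hjm]
  · intro hm'
    exact absurd (Finset.mem_range.mpr hm) hm'

theorem cartInv_G2 : cartInvOK chevG2 [[2, 3], [1, 2]] = true := by decide +kernel

theorem cartInv_F4 : cartInvOK chevF4 [[2, 3, 4, 2], [3, 6, 8, 4], [2, 4, 6, 3], [1, 2, 3, 2]] = true := by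
  decide +kernel

theorem cartInv_E8 : cartInvOK chevE8 [[4, 5, 7, 10, 8, 6, 4, 2], [5, 8, 10, 15, 12, 9, 6, 3],
    [7, 10, 14, 20, 16, 12, 8, 4], [10, 15, 20, 30, 24, 18, 12, 6], [8, 12, 16, 24, 20, 15, 10, 5],
    [6, 9, 12, 18, 15, 12, 8, 4], [4, 6, 8, 12, 10, 8, 6, 3], [2, 3, 4, 6, 5, 4, 3, 2]] = true := by
  decide +kernel

/-- For a unimodular Cartan matrix, the elements fixed by a field endomorphism are generated by the root elements
with fixed parameter. -/
theorem fix_eq_unimod (D : ChevalleyDatum) (hD : Std7 D) (B : List (List ℤ)) (hB : cartInvOK D B = true)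
    (σ : F →+* F) (g : GL D.Idx F) (hg : g ∈ D.group F) (hfix : glMap D σ g = g) : g ∈ fixL D σ := by
  obtain ⟨l₁, hl₁, h, hh, hhfix, l₂, hl₂, rfl⟩ := fix_decomp D hD σ g hg hfix
  refine mul_mem (mul_mem hl₁ ?_) hl₂
  obtain ⟨c, hc, hv⟩ := diagonalSubgroup_le_hsGroup D hD hh
  have hd : ∀ s, s < D.nroots → σ (dOf D c s) = dOf D c s := by
    intro s hs
    have h1 : ((glMap D σ h : GL D.Idx F) : Matrix D.Idx D.Idx F) = (h : Matrix D.Idx D.Idx F) := by rw [hhfix]
    rw [glMap_val, hv, hProd_diag D hD c hc, Matrix.diagonal_map (map_zero σ)] at h1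
    have h2 := congrFun (congrFun h1 (Sum.inr ⟨s, hs⟩)) (Sum.inr ⟨s, hs⟩)
    rw [Matrix.diagonal_apply_eq, Matrix.diagonal_apply_eq] at h2
    exact h2
  apply hProd_mem_fixL D hD σ c ?_ h hv
  intro m hm
  have e := c_of_dOf D B hB c hc m hm
  have e' : σ (c m) = σ (∏ i ∈ Finset.range D.rank, dOf D c (D.simple i) ^ ((B.getD i []).getD m 0)) :=
    congrArg σ e
  rw [e', map_prod, e]
  apply Finset.prod_congr rfl
  intro i hi
  rw [map_zpow₀, hd _ (std_simple_lt D hD i (Finset.mem_range.mp hi))]

/-- The fixed points of a field automorphism form the Chevalley group over the fixed field, provided they are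
generated by the root elements with fixed parameter. -/
theorem fix_iso_gen (D : ChevalleyDatum) (hD : Std7 D) (σ : F →+* F)
    (hfixeq : ∀ g ∈ D.group F, glMap D σ g = g → g ∈ fixL D σ) (φ : MulAut ↥(D.group F))
    (hφ : ∀ g : ↥(D.group F), ((φ g : ↥(D.group F)) : GL D.Idx F) = glMap D σ g) :
    Nonempty (↥((MulEquiv.toMonoidHom φ).eqLocus (MonoidHom.id ↥(D.group F))) ≃*
      ↥(D.group ↥(fixSubfield σ))) := by
  let ι : ↥(fixSubfield σ) →+* F := (fixSubfield σ).subtype
  have hι : ∀ t : ↥(fixSubfield σ), σ (ι t) = ι t := fun t => t.2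
  have hgrp : ∀ g ∈ D.group ↥(fixSubfield σ), glMap2 D ι g ∈ D.group F := by
    intro g hg
    have key : (D.group ↥(fixSubfield σ)).map (glMap2 D ι) ≤ D.group F := by
      unfold ChevalleyDatum.group
      rw [MonoidHom.map_closure, Subgroup.closure_le]
      rintro _ ⟨g, ⟨r, t, hg⟩, rfl⟩
      apply Subgroup.subset_closure
      refine ⟨r, ι t, ?_⟩
      rw [glMap2_val, hg]
      exact xMat_map_hom D ι r t
    exact key (Subgroup.mem_map_of_mem _ hg)
  let Ψ : ↥(D.group ↥(fixSubfield σ)) →* ↥(D.group F) :=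
    ((glMap2 D ι).comp (D.group ↥(fixSubfield σ)).subtype).codRestrict (D.group F) (fun g => hgrp g.1 g.2)
  have hΨ : ∀ g, ((Ψ g : ↥(D.group F)) : GL D.Idx F) = glMap2 D ι g.1 := fun g => rfl
  have hinj : Function.Injective Ψ := by
    intro g g' h
    apply Subtype.ext
    apply glMap2_injective D ι
    rw [← hΨ, ← hΨ, h]
  have hrange : Ψ.range = (MulEquiv.toMonoidHom φ).eqLocus (MonoidHom.id ↥(D.group F)) := by
    ext y
    constructor
    · rintro ⟨g, rfl⟩
      show φ (Ψ g) = Ψ g
      apply Subtype.ext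
      rw [hφ, hΨ]
      apply Units.ext
      ext i j
      rw [glMap_val, Matrix.map_apply, glMap2_val, Matrix.map_apply]
      exact hι _
    · intro hy
      have hy' : φ y = y := hy
      have hfix : glMap D σ (y : GL D.Idx F) = y := by rw [← hφ, hy']
      have hmem := hfixeq y.1 y.2 hfix
      have hle : fixL D σ ≤ (D.group ↥(fixSubfield σ)).map (glMap2 D ι) := by
        unfold fixL
        rw [Subgroup.closure_le]
        rintro g ⟨s, t, ht, hg⟩
        by_cases hs : s < D.nroots
        · refine ⟨xGL D hD ↥(fixSubfield σ) s hs ⟨t, ht⟩, xGL_mem_group D hD ↥(fixSubfield σ) s hs _, ?_⟩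
          apply Units.ext
          rw [glMap2_val, hg]
          show (D.x ↥(fixSubfield σ) s ⟨t, ht⟩).map ι = D.x F s t
          rw [x_map2]
          rfl
        · have e : g = 1 := by
            apply Units.ext
            rw [hg]
            unfold ChevalleyDatum.x
            rw [dif_neg hs]
            rfl
          rw [SetLike.mem_coe, e]
          exact one_mem _
      obtain ⟨g0, hg0, e0⟩ := hle hmem
      exact ⟨⟨g0, hg0⟩, Subtype.ext e0⟩
  exact ⟨((MonoidHom.ofInjective hinj).trans (MulEquiv.subgroupCongr hrange)).symm⟩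

/-- The degree of a finite field over the fixed field of an automorphism of order `r`. -/
theorem fix_card_gal [Fintype F] (σ : RingAut F) (r : ℕ) (hr : orderOf σ = r) :
    Nat.card F = Nat.card ↥(fixSubfield (σ : F →+* F)) ^ r := by
  classical
  haveI : Finite (RingAut F) := Finite.of_injective (fun e : RingAut F => (e : F → F)) DFunLike.coe_injective
  haveI : Fintype ↥(Subgroup.zpowers σ) := Fintype.ofFinite _
  have h1 := FixedPoints.finrank_eq_card ↥(Subgroup.zpowers σ) F
  have hG : Fintype.card ↥(Subgroup.zpowers σ) = r := by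
    rw [Fintype.card_eq_nat_card, Nat.card_zpowers, hr]
  haveI : Fintype ↥(FixedPoints.subfield ↥(Subgroup.zpowers σ) F) := Fintype.ofFinite _
  have h2 := Module.card_eq_pow_finrank (K := ↥(FixedPoints.subfield ↥(Subgroup.zpowers σ) F)) (V := F)
  have heq : ∀ x : F, x ∈ FixedPoints.subfield ↥(Subgroup.zpowers σ) F ↔ x ∈ fixSubfield (σ : F →+* F) := by
    intro x
    constructor
    · intro hx
      exact hx ⟨σ, Subgroup.mem_zpowers σ⟩
    · intro hx g
      have hle : Subgroup.zpowers σ ≤ MulAction.stabilizer (RingAut F) x := by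
        rw [Subgroup.zpowers_le]
        exact hx
      exact hle g.2
  rw [h1, hG] at h2
  rw [Nat.card_eq_fintype_card, h2, ← Nat.card_eq_fintype_card,
    Nat.card_congr (Equiv.subtypeEquivRight heq)]

/-- Fixed points of a field automorphism of prime order of a Chevalley group with unimodular Cartan matrix. -/
theorem fieldAut_prime [Fintype F] (D : ChevalleyDatum) (hD : Std7 D) (B : List (List ℤ))
    (hB : cartInvOK D B = true) (φ : MulAut ↥(D.group F)) (hφ : D.IsFieldAut φ) (r : ℕ) (hr : r.Prime)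
    (ho : orderOf φ = r) :
    ∃ (F₀ : Type) (_ : Field F₀) (_ : Fintype F₀), Fintype.card F = Fintype.card F₀ ^ r ∧
      Nonempty (↥((MulEquiv.toMonoidHom φ).eqLocus (MonoidHom.id ↥(D.group F))) ≃* ↥(D.group F₀)) := by
  classical
  obtain ⟨σ, hσ⟩ := hφ
  have hφσ : ∀ g : ↥(D.group F), ((φ g : ↥(D.group F)) : GL D.Idx F) = glMap D (σ : F →+* F) g :=
    fieldAut_eq D φ (σ : F →+* F) hσ
  have hr0 : 0 < D.nroots := by
    have h1 := rank_pos_all D hD
    have h2 := std_simple_lt D hD 0 h1
    omega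
  have hpow : ∀ n : ℕ, ∀ g : ↥(D.group F),
      (((φ ^ n) g : ↥(D.group F)) : GL D.Idx F) = glMap D (((σ : RingAut F) ^ n : RingAut F) : F →+* F) g := by
    intro n
    induction n with
    | zero =>
      intro g
      rw [pow_zero, pow_zero]
      apply Units.ext
      ext i j
      rfl
    | succ n ih =>
      intro g
      rw [pow_succ, MulAut.mul_apply, ih, hφσ]
      apply Units.ext
      ext i j
      rw [glMap_val, glMap_val, Matrix.map_apply, Matrix.map_apply, pow_succ]
      rfl
  have hσr : (σ : RingAut F) ^ r = 1 := by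
    apply RingEquiv.ext
    intro t
    have h3 : (φ ^ r) ⟨xGL D hD F 0 hr0 t, xGL_mem_group D hD F 0 hr0 t⟩ =
        ⟨xGL D hD F 0 hr0 t, xGL_mem_group D hD F 0 hr0 t⟩ := by
      rw [← ho, pow_orderOf_eq_one]
      rfl
    have h4 : (((φ ^ r) ⟨xGL D hD F 0 hr0 t, xGL_mem_group D hD F 0 hr0 t⟩ : ↥(D.group F)) : GL D.Idx F) =
        xGL D hD F 0 hr0 t := by rw [h3]
    rw [hpow, glMap_xGL] at h4
    exact xGL_inj D hD 0 hr0 _ _ h4
  have hσ1 : (σ : RingAut F) ≠ 1 := by
    intro h
    have h5 : φ = 1 := by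
      ext g : 1
      apply Subtype.ext
      rw [hφσ]
      apply Units.ext
      ext i j
      rw [glMap_val, Matrix.map_apply, h]
      rfl
    rw [h5, orderOf_one] at ho
    exact hr.one_lt.ne' ho.symm
  have hord : orderOf (σ : RingAut F) = r := by
    have hdvd := orderOf_dvd_of_pow_eq_one hσr
    rcases (Nat.dvd_prime hr).mp hdvd with h | h
    · exact absurd (orderOf_eq_one_iff.mp h) hσ1
    · exact h
  obtain ⟨e⟩ := fix_iso_gen D hD (σ : F →+* F)
    (fun g hg hfix => fix_eq_unimod D hD B hB (σ : F →+* F) g hg hfix) φ hφσ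
  have hfin : Fintype (Shrink.{0} ↥(fixSubfield (σ : F →+* F))) := Fintype.ofFinite _
  refine ⟨Shrink.{0} ↥(fixSubfield (σ : F →+* F)), inferInstance, hfin, ?_,
    ⟨e.trans (groupRingEquiv D (Shrink.ringEquiv _ :
      Shrink.{0} ↥(fixSubfield (σ : F →+* F)) ≃+* ↥(fixSubfield (σ : F →+* F)))).symm⟩⟩
  rw [← Nat.card_eq_fintype_card, ← Nat.card_eq_fintype_card,
    Nat.card_congr (equivShrink _ :
      ↥(fixSubfield (σ : F →+* F)) ≃ Shrink.{0} ↥(fixSubfield (σ : F →+* F))).symm]
  exact fix_card_gal σ r hord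

end Cfsg.Agent.Helper8
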