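import Cfsg.Agent.Helper8.ReachChk

set_option autoImplicit false

namespace Cfsg.Agent.Helper8

open Cfsg.Lie
open scoped Matrix

variable {F : Type*} [Field F]

/-! ### Generation by the fundamental root elements -/

/-- The root elements of the fundamental roots and their negatives. -/
def simpleGens (D : ChevalleyDatum) (F : Type*) [Field F] : Set (GL D.Idx F) :=
  {g | ∃ (i : ℕ) (t : F), i < D.rank ∧ ((g : Matrix D.Idx D.Idx F) = D.x F (D.simple i) t ∨
      (g : Matrix D.Idx D.Idx F) = D.x F (D.neg (D.simple i)) t)}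

theorem nGL_eq_xprod (D : ChevalleyDatum) (hD : Std7 D) (r : ℕ) (hr : r < D.nroots) :
    nGL D F r = xGL D hD F r hr 1 * xGL D hD F (D.neg r) (std_neg_lt D hD r hr) (-1) * xGL D hD F r hr 1 := by
  apply Units.ext
  rw [nGL_val D hD F r hr]
  show D.nMat F r 1 = D.x F r 1 * D.x F (D.neg r) (-1) * D.x F r 1
  simp [ChevalleyDatum.nMat, ChevalleyDatum.nWord, ChevalleyDatum.wordMat, mul_assoc]

theorem xGL_simple_mem (D : ChevalleyDatum) (hD : Std7 D) (i : ℕ) (hi : i < D.rank) (t : F) :
    xGL D hD F (D.simple i) (std_simple_lt D hD i hi) t ∈ Subgroup.closure (simpleGens D F) :=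
  Subgroup.subset_closure ⟨i, t, hi, Or.inl rfl⟩

theorem xGL_negsimple_mem (D : ChevalleyDatum) (hD : Std7 D) (i : ℕ) (hi : i < D.rank) (t : F) :
    xGL D hD F (D.neg (D.simple i)) (std_neg_lt D hD _ (std_simple_lt D hD i hi)) t ∈
      Subgroup.closure (simpleGens D F) :=
  Subgroup.subset_closure ⟨i, t, hi, Or.inr rfl⟩

theorem nProdGL_mem_simple (D : ChevalleyDatum) (hD : Std7 D) (l : List ℕ) (hl : ∀ i ∈ l, i < D.rank) :
    nProdGL D F l ∈ Subgroup.closure (simpleGens D F) := by
  unfold nProdGL
  apply Subgroup.list_prod_mem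
  intro g hg
  rw [List.mem_map] at hg
  obtain ⟨i, hi, rfl⟩ := hg
  rw [nGL_eq_xprod D hD _ (std_simple_lt D hD i (hl i hi))]
  exact mul_mem (mul_mem (xGL_simple_mem D hD i (hl i hi) 1) (xGL_negsimple_mem D hD i (hl i hi) (-1)))
    (xGL_simple_mem D hD i (hl i hi) 1)

/-- The Chevalley group is generated by the root elements of the fundamental roots and their negatives. -/
theorem group_eq_closure_simple (D : ChevalleyDatum) (hD : Std7 D) :
    D.group F = Subgroup.closure (simpleGens D F) := by
  apply le_antisymm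
  · unfold ChevalleyDatum.group
    rw [Subgroup.closure_le]
    rintro g ⟨r, t, hg⟩
    obtain ⟨j, hj, l, hl, e⟩ := exists_reach D hD r.val r.isLt
    obtain ⟨ε, hε, hcomm⟩ := nProd_x_comm D hD l hl (D.simple j) (std_simple_lt D hD j hj) F
    have hεε : (ε : F) * ((ε : F) * t) = t := by
      rcases hε with rfl | rfl <;> simp
    have hg' : g = nProdGL D F l * xGL D hD F (D.simple j) (std_simple_lt D hD j hj) ((ε : F) * t) *
        (nProdGL D F l)⁻¹ := by
      rw [eq_mul_inv_iff_mul_eq]
      apply Units.ext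
      rw [Units.val_mul, Units.val_mul, nProdGL_val D hD F l hl, hg]
      show D.xMat F r t * nProd D F l = nProd D F l * D.x F (D.simple j) ((ε : F) * t)
      rw [hcomm, e, hεε, ChevalleyDatum.x, dif_pos r.isLt]
    rw [hg']
    have hn := nProdGL_mem_simple D hD l hl (F := F)
    exact mul_mem (mul_mem hn (xGL_simple_mem D hD j hj _)) (inv_mem hn)
  · rw [Subgroup.closure_le]
    rintro g ⟨i, t, hi, hg | hg⟩
    · have : g = xGL D hD F (D.simple i) (std_simple_lt D hD i hi) t := Units.ext hg
      rw [this]; exact xGL_mem_group D hD F _ _ t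
    · have : g = xGL D hD F (D.neg (D.simple i)) (std_neg_lt D hD _ (std_simple_lt D hD i hi)) t := Units.ext hg
      rw [this]; exact xGL_mem_group D hD F _ _ t

/-! ### Signed permutations of the Chevalley basis -/

theorem ga_sum_map (c : ℤ) (t : F) (l : List (ℕ × ℤ)) :
    ((l.map (fun km : ℕ × ℤ => (km.1, c * km.2))).map fun km : ℕ × ℤ => ((km.2 : ℤ) : F) * t ^ km.1).sum =
      (c : F) * (l.map fun km : ℕ × ℤ => ((km.2 : ℤ) : F) * t ^ km.1).sum := by
  induction l with
  | nil => simp
  | cons a l ih =>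
    simp only [List.map_cons, List.sum_cons] at ih ⊢
    rw [ih]; push_cast; ring

/-- The entries of `x_{π r}(t)` in terms of those of `x_r(t)`, for a signed permutation of the Chevalley basis
compatible with the tables at the root `r`. -/
theorem ga_entry (D : ChevalleyDatum) (ρF : Fin D.rank → Fin D.rank) (πF : Fin D.nroots → Fin D.nroots)
    (ε : Fin D.nroots → ℤ) (hρ : Function.Injective ρF) (hπ : Function.Injective πF)
    (hε : ∀ s, ε s * ε s = 1) (r nr : Fin D.nroots)
    (hnr : nr.val = D.negIdx.getD r.val 0)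
    (hnr' : (πF nr).val = D.negIdx.getD (πF r).val 0)
    (h1 : ε r = 1) (h2 : ε nr = 1)
    (hcart : ∀ i : Fin D.rank, (D.cartanSR.getD (ρF i).val #[]).getD (πF r).val 0 =
      (D.cartanSR.getD i.val #[]).getD r.val 0)
    (hcor : ∀ i : Fin D.rank, (D.coroot.getD (πF r).val #[]).getD (ρF i).val 0 =
      (D.coroot.getD r.val #[]).getD i.val 0)
    (hch : ∀ s u : Fin D.nroots, s ≠ r → s ≠ nr → D.chainCoeff (πF r).val (πF s).val (πF u).val =
        (D.chainCoeff r.val s.val u.val).map (fun km : ℕ × ℤ => (km.1, ε s * ε u * km.2)))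
    (t : F) (a b : D.Idx) :
    D.xMat F (πF r) t (Sum.map ρF πF a) (Sum.map ρF πF b) =
      Sum.elim (fun _ => (1 : F)) (fun s => ((ε s : ℤ) : F)) a *
        Sum.elim (fun _ => (1 : F)) (fun s => ((ε s : ℤ) : F)) b * D.xMat F r t a b := by
  have hεF : ∀ s, ((ε s : ℤ) : F) * ((ε s : ℤ) : F) = 1 := fun s => by
    rw [← Int.cast_mul, hε, Int.cast_one]
  have hneg_iff : ∀ s : Fin D.nroots,
      (πF s).val = D.negIdx.getD (πF r).val 0 ↔ s.val = D.negIdx.getD r.val 0 := by
    intro s
    rw [← hnr, ← hnr']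
    constructor
    · intro h; exact congrArg Fin.val (hπ (Fin.ext h))
    · intro h; rw [Fin.ext h]
  rcases b with i | s
  · rcases a with i' | u
    · simp only [ChevalleyDatum.xMat, Matrix.of_apply, Sum.map_inl, Sum.elim_inl, hρ.eq_iff, one_mul]
    · simp only [ChevalleyDatum.xMat, Matrix.of_apply, Sum.map_inl, Sum.map_inr, Sum.elim_inl, Sum.elim_inr,
        hπ.eq_iff, mul_one]
      by_cases hu : u = r
      · subst hu; rw [if_pos rfl, if_pos rfl, h1, hcart]; simp
      · rw [if_neg hu, if_neg hu, mul_zero]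
  · by_cases hs : s = r
    · subst hs
      rcases a with i' | u
      · simp [ChevalleyDatum.xMat]
      · by_cases hu : u = s
        · subst hu; simp [ChevalleyDatum.xMat, hεF]
        · simp [ChevalleyDatum.xMat, hu, hπ.eq_iff]
    · by_cases hsn : s.val = D.negIdx.getD r.val 0
      · have hsnr : s = nr := Fin.ext (hsn.trans hnr.symm)
        have hsn' := (hneg_iff s).mpr hsn
        rcases a with i' | u
        · simp only [ChevalleyDatum.xMat, Matrix.of_apply, Sum.map_inl, Sum.map_inr, Sum.elim_inl, Sum.elim_inr,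
            hπ.eq_iff, if_neg hs, if_pos hsn, if_pos hsn', one_mul]
          rw [hcor, hsnr, h2]; simp
        · simp only [ChevalleyDatum.xMat, Matrix.of_apply, Sum.map_inr, Sum.elim_inr,
            hπ.eq_iff, if_neg hs, if_pos hsn, if_pos hsn']
          by_cases hu : u = s
          · subst hu; simp [hεF]
          · rw [if_neg hu]
            by_cases hur : u = r
            · subst hur; rw [if_pos rfl, h1, hsnr, h2]; simp
            · rw [if_neg hur, mul_zero]
      · have hsn' : ¬ (πF s).val = D.negIdx.getD (πF r).val 0 := fun h => hsn ((hneg_iff s).mp h)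
        have hsnr : s ≠ nr := fun h => hsn (by rw [h]; exact hnr)
        rcases a with i' | u
        · simp only [ChevalleyDatum.xMat, Matrix.of_apply, Sum.map_inl, Sum.map_inr, hπ.eq_iff, if_neg hs,
            if_neg hsn, if_neg hsn', mul_zero]
        · simp only [ChevalleyDatum.xMat, Matrix.of_apply, Sum.map_inr, Sum.elim_inr, hπ.eq_iff, if_neg hs,
            if_neg hsn, if_neg hsn']
          rw [hch s u hs hsnr, ga_sum_map]
          by_cases hu : u = s
          · subst hu
            rw [if_pos rfl, hε, hεF]; simp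
          · rw [if_neg hu]; push_cast; ring

/-- A signed permutation matrix. -/
def gaMat {ι : Type*} [DecidableEq ι] (σ : ι → ι) (e : ι → F) : Matrix ι ι F :=
  Matrix.of fun a b => if a = σ b then e b else 0

theorem gaMat_transpose_mul {ι : Type*} [Fintype ι] [DecidableEq ι] (σ : ι → ι) (e : ι → F)
    (hσ : Function.Injective σ) (he : ∀ b, e b * e b = 1) : (gaMat σ e)ᵀ * gaMat σ e = 1 := by
  ext a b
  rw [Matrix.mul_apply]
  simp only [Matrix.transpose_apply, gaMat, Matrix.of_apply]
  rw [Finset.sum_eq_single (σ a)]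
  · rw [if_pos rfl]
    by_cases hab : a = b
    · subst hab; rw [if_pos rfl, Matrix.one_apply_eq, he]
    · rw [if_neg (fun h => hab (hσ h)), Matrix.one_apply_ne hab, mul_zero]
  · intro c _ hc; rw [if_neg hc, zero_mul]
  · intro h; exact absurd (Finset.mem_univ _) h

theorem gaMat_conj {ι : Type*} [Fintype ι] [DecidableEq ι] (σ : ι → ι) (e : ι → F) (M : Matrix ι ι F) (a b : ι) :
    ((gaMat σ e)ᵀ * M * gaMat σ e) a b = e a * M (σ a) (σ b) * e b := by
  rw [Matrix.mul_apply, Finset.sum_eq_single (σ b)]
  · rw [Matrix.mul_apply, Finset.sum_eq_single (σ a)]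
    · simp [gaMat]
    · intro c _ hc; simp [gaMat, hc]
    · intro h; exact absurd (Finset.mem_univ _) h
  · intro c _ hc; simp [gaMat, hc]
  · intro h; exact absurd (Finset.mem_univ _) h

end Cfsg.Agent.Helper8
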