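import Cfsg.Agent.Helper8.GA1

set_option autoImplicit false

namespace Cfsg.Agent.Helper8

open Cfsg.Lie
open scoped Matrix

variable {F : Type*} [Field F]

/-- The data of a graph automorphism: a permutation of the fundamental indices, the induced permutation of the
roots, their inverses, and the signs `ε_r` with `e_r ↦ ε_r e_{π r}`. -/
structure GAData where
  rho : List ℕ
  rhoInv : List ℕ
  pi : List ℕ
  piInv : List ℕ
  eps : List ℤ

namespace GAData

def r (G : GAData) (i : ℕ) : ℕ := G.rho.getD i 0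
def rI (G : GAData) (i : ℕ) : ℕ := G.rhoInv.getD i 0
def p (G : GAData) (s : ℕ) : ℕ := G.pi.getD s 0
def pI (G : GAData) (s : ℕ) : ℕ := G.piInv.getD s 0
def e (G : GAData) (s : ℕ) : ℤ := G.eps.getD s 1

def rF (G : GAData) (D : ChevalleyDatum) (i : Fin D.rank) : Fin D.rank :=
  if h : G.r i.val < D.rank then ⟨G.r i.val, h⟩ else i

def pF (G : GAData) (D : ChevalleyDatum) (s : Fin D.nroots) : Fin D.nroots :=
  if h : G.p s.val < D.nroots then ⟨G.p s.val, h⟩ else s

end GAData

def gaPermChk (D : ChevalleyDatum) (G : GAData) : Bool :=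
  allF (fun i => decide (G.r i < D.rank) && Nat.beq (G.rI (G.r i)) i && decide (G.rI i < D.rank) &&
    Nat.beq (G.r (G.rI i)) i) (List.range D.rank) &&
  allF (fun s => decide (G.p s < D.nroots) && Nat.beq (G.pI (G.p s)) s &&
    (decide (G.e s = 1) || decide (G.e s = -1))) (List.range D.nroots)

def gaRootChk (D : ChevalleyDatum) (G : GAData) (r : ℕ) : Bool :=
  decide (G.e r = 1) && decide (G.e (D.neg r) = 1) && Nat.beq (G.p (D.neg r)) (D.neg (G.p r)) &&
  allF (fun j => decide (D.cartan (G.r j) (G.p r) = D.cartan j r) &&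
    decide ((D.coroot.getD (G.p r) #[]).getD (G.r j) 0 = (D.coroot.getD r #[]).getD j 0)) (List.range D.rank) &&
  allF (fun s => Nat.beq s r || Nat.beq s (D.neg r) || allF (fun u =>
    decide (D.chainCoeff (G.p r) (G.p s) (G.p u) =
      (D.chainCoeff r s u).map (fun km : ℕ × ℤ => (km.1, G.e s * G.e u * km.2))))
      (List.range D.nroots)) (List.range D.nroots)

def gaSimpleChk (D : ChevalleyDatum) (G : GAData) (i : ℕ) : Bool :=
  Nat.beq (G.p (D.simple i)) (D.simple (G.r i)) && gaRootChk D G (D.simple i) &&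
    gaRootChk D G (D.neg (D.simple i))

structure GAOK (D : ChevalleyDatum) (G : GAData) : Prop where
  rho_lt : ∀ i, i < D.rank → G.r i < D.rank
  rho_inv : ∀ i, i < D.rank → G.rI (G.r i) = i
  rhoInv_lt : ∀ i, i < D.rank → G.rI i < D.rank
  rho_rhoInv : ∀ i, i < D.rank → G.r (G.rI i) = i
  pi_lt : ∀ s, s < D.nroots → G.p s < D.nroots
  pi_inv : ∀ s, s < D.nroots → G.pI (G.p s) = s
  eps_sq : ∀ s, s < D.nroots → G.e s * G.e s = 1

theorem gaOK_of_chk (D : ChevalleyDatum) (G : GAData) (h : gaPermChk D G = true) : GAOK D G := by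
  unfold gaPermChk at h
  rw [Bool.and_eq_true] at h
  have h1 := fun i (hi : i < D.rank) => allF_mem _ _ h.1 i (List.mem_range.mpr hi)
  have h2 := fun s (hs : s < D.nroots) => allF_mem _ _ h.2 s (List.mem_range.mpr hs)
  simp only [Bool.and_eq_true, Bool.or_eq_true, decide_eq_true_eq] at h1 h2
  refine ⟨fun i hi => (h1 i hi).1.1.1, fun i hi => Nat.eq_of_beq_eq_true (h1 i hi).1.1.2,
    fun i hi => (h1 i hi).1.2, fun i hi => Nat.eq_of_beq_eq_true (h1 i hi).2,
    fun s hs => (h2 s hs).1.1, fun s hs => Nat.eq_of_beq_eq_true (h2 s hs).1.2, fun s hs => ?_⟩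
  rcases (h2 s hs).2 with e | e <;> rw [e] <;> norm_num

theorem GAOK.rF_val {D : ChevalleyDatum} {G : GAData} (hG : GAOK D G) (i : Fin D.rank) :
    (G.rF D i).val = G.r i.val := by
  unfold GAData.rF
  rw [dif_pos (hG.rho_lt i.val i.isLt)]

theorem GAOK.pF_val {D : ChevalleyDatum} {G : GAData} (hG : GAOK D G) (s : Fin D.nroots) :
    (G.pF D s).val = G.p s.val := by
  unfold GAData.pF
  rw [dif_pos (hG.pi_lt s.val s.isLt)]

theorem GAOK.rF_inj {D : ChevalleyDatum} {G : GAData} (hG : GAOK D G) : Function.Injective (G.rF D) := by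
  intro i j h
  have h' := congrArg Fin.val h
  rw [hG.rF_val, hG.rF_val] at h'
  apply Fin.ext
  rw [← hG.rho_inv i.val i.isLt, ← hG.rho_inv j.val j.isLt, h']

theorem GAOK.pF_inj {D : ChevalleyDatum} {G : GAData} (hG : GAOK D G) : Function.Injective (G.pF D) := by
  intro i j h
  have h' := congrArg Fin.val h
  rw [hG.pF_val, hG.pF_val] at h'
  apply Fin.ext
  rw [← hG.pi_inv i.val i.isLt, ← hG.pi_inv j.val j.isLt, h']

/-- The permutation of the basis. -/
def gaSig (D : ChevalleyDatum) (G : GAData) : D.Idx → D.Idx := Sum.map (G.rF D) (G.pF D)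

/-- The signs on the basis. -/
def gaEps (D : ChevalleyDatum) (G : GAData) (F : Type*) [Field F] : D.Idx → F :=
  Sum.elim (fun _ => (1 : F)) (fun s => ((G.e s.val : ℤ) : F))

theorem GAOK.sig_inj {D : ChevalleyDatum} {G : GAData} (hG : GAOK D G) : Function.Injective (gaSig D G) :=
  Function.Injective.sumMap hG.rF_inj hG.pF_inj

theorem GAOK.eps_mul {D : ChevalleyDatum} {G : GAData} (hG : GAOK D G) (a : D.Idx) :
    gaEps D G F a * gaEps D G F a = 1 := by
  rcases a with i | s
  · simp [gaEps]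
  · simp only [gaEps, Sum.elim_inr]
    rw [← Int.cast_mul, hG.eps_sq s.val s.isLt, Int.cast_one]

/-- The matrix of the graph automorphism of the Lie algebra. -/
def gaP (D : ChevalleyDatum) (G : GAData) (F : Type*) [Field F] : Matrix D.Idx D.Idx F :=
  gaMat (gaSig D G) (gaEps D G F)

theorem GAOK.transpose_mul {D : ChevalleyDatum} {G : GAData} (hG : GAOK D G) : (gaP D G F)ᵀ * gaP D G F = 1 :=
  gaMat_transpose_mul _ _ hG.sig_inj (fun a => hG.eps_mul a)

theorem GAOK.mul_transpose {D : ChevalleyDatum} {G : GAData} (hG : GAOK D G) : gaP D G F * (gaP D G F)ᵀ = 1 :=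
  mul_eq_one_comm.mp hG.transpose_mul

/-- The graph automorphism as an invertible matrix. -/
def gaGL (D : ChevalleyDatum) (G : GAData) (hG : GAOK D G) (F : Type*) [Field F] : GL D.Idx F :=
  ⟨gaP D G F, (gaP D G F)ᵀ, hG.mul_transpose, hG.transpose_mul⟩

/-- Conjugation by the graph automorphism maps `x_r(t)` to `x_{π r}(t)` for the roots `r` passing the check. -/
theorem ga_conj (D : ChevalleyDatum) (hD : Std7 D) (G : GAData) (hG : GAOK D G) (r : ℕ) (hr : r < D.nroots)
    (hchk : gaRootChk D G r = true) (t : F) :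
    gaP D G F * D.x F r t * (gaP D G F)ᵀ = D.x F (G.p r) t := by
  unfold gaRootChk at hchk
  simp only [Bool.and_eq_true, decide_eq_true_eq] at hchk
  obtain ⟨⟨⟨⟨h1, h2⟩, h3⟩, h4⟩, h5⟩ := hchk
  have h3 := Nat.eq_of_beq_eq_true h3
  have h4 := fun j (hj : j < D.rank) => allF_mem _ _ h4 j (List.mem_range.mpr hj)
  have h5 := fun s (hs : s < D.nroots) => allF_mem _ _ h5 s (List.mem_range.mpr hs)
  simp only [Bool.and_eq_true, decide_eq_true_eq] at h4
  have hnr := std_neg_lt D hD r hr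
  have hpr : (G.pF D ⟨r, hr⟩) = ⟨G.p r, hG.pi_lt r hr⟩ := Fin.ext (hG.pF_val _)
  have key : (gaP D G F)ᵀ * D.xMat F (G.pF D ⟨r, hr⟩) t * gaP D G F = D.xMat F ⟨r, hr⟩ t := by
    ext a b
    unfold gaP
    rw [gaMat_conj]
    have hent := ga_entry D (G.rF D) (G.pF D) (fun s => G.e s.val) hG.rF_inj hG.pF_inj
      (fun s => hG.eps_sq s.val s.isLt) ⟨r, hr⟩ ⟨D.neg r, hnr⟩ rfl
      (by rw [hG.pF_val, hG.pF_val]; exact h3) h1 h2
      (fun i => by rw [hG.rF_val, hG.pF_val]; exact (h4 i.val i.isLt).1)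
      (fun i => by rw [hG.rF_val, hG.pF_val]; exact (h4 i.val i.isLt).2)
      (fun s u hs hsn => by
        rw [hG.pF_val, hG.pF_val, hG.pF_val]
        have h := h5 s.val s.isLt
        rw [Bool.or_eq_true, Bool.or_eq_true] at h
        rcases h with (h | h) | h
        · exact absurd (Fin.ext (Nat.eq_of_beq_eq_true h)) hs
        · exact absurd (Fin.ext (Nat.eq_of_beq_eq_true h)) hsn
        · exact of_decide_eq_true (allF_mem _ _ h u.val (List.mem_range.mpr u.isLt)))
      t a b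
    have hent' : D.xMat F (G.pF D ⟨r, hr⟩) t (gaSig D G a) (gaSig D G b) =
        gaEps D G F a * gaEps D G F b * D.xMat F ⟨r, hr⟩ t a b := hent
    rw [hent']
    have ea := hG.eps_mul (F := F) a
    have eb := hG.eps_mul (F := F) b
    calc gaEps D G F a * (gaEps D G F a * gaEps D G F b * D.xMat F ⟨r, hr⟩ t a b) * gaEps D G F b
        = (gaEps D G F a * gaEps D G F a) * (gaEps D G F b * gaEps D G F b) * D.xMat F ⟨r, hr⟩ t a b := by ring
      _ = D.xMat F ⟨r, hr⟩ t a b := by rw [ea, eb, one_mul, one_mul]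
  rw [ChevalleyDatum.x, dif_pos hr, ChevalleyDatum.x, dif_pos (hG.pi_lt r hr), ← key, ← hpr]
  calc gaP D G F * ((gaP D G F)ᵀ * D.xMat F (G.pF D ⟨r, hr⟩) t * gaP D G F) * (gaP D G F)ᵀ
      = (gaP D G F * (gaP D G F)ᵀ) * D.xMat F (G.pF D ⟨r, hr⟩) t * (gaP D G F * (gaP D G F)ᵀ) := by
        simp only [mul_assoc]
    _ = D.xMat F (G.pF D ⟨r, hr⟩) t := by rw [hG.mul_transpose, one_mul, mul_one]

theorem ga_conj_simple (D : ChevalleyDatum) (hD : Std7 D) (G : GAData) (hG : GAOK D G) (i : ℕ) (hi : i < D.rank)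
    (hchk : gaSimpleChk D G i = true) (t : F) :
    gaP D G F * D.x F (D.simple i) t * (gaP D G F)ᵀ = D.x F (D.simple (G.r i)) t ∧
    gaP D G F * D.x F (D.neg (D.simple i)) t * (gaP D G F)ᵀ = D.x F (D.neg (D.simple (G.r i))) t := by
  unfold gaSimpleChk at hchk
  simp only [Bool.and_eq_true] at hchk
  obtain ⟨⟨h1, h2⟩, h3⟩ := hchk
  have h1 := Nat.eq_of_beq_eq_true h1
  have hs := std_simple_lt D hD i hi
  have hneg : G.p (D.neg (D.simple i)) = D.neg (G.p (D.simple i)) := by
    have h2' := h2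
    unfold gaRootChk at h2'
    simp only [Bool.and_eq_true] at h2'
    exact Nat.eq_of_beq_eq_true h2'.1.1.2
  constructor
  · rw [ga_conj D hD G hG _ hs h2 t, h1]
  · rw [ga_conj D hD G hG _ (std_neg_lt D hD _ hs) h3 t, hneg, h1]

/-- The graph automorphism of the Chevalley group. -/
theorem ga_exists (D : ChevalleyDatum) (hD : Std7 D) (G : GAData) (hperm : gaPermChk D G = true)
    (hroot : ∀ i, i < D.rank → gaSimpleChk D G i = true) (F : Type*) [Field F] :
    ∃ α : ↥(D.group F) ≃* ↥(D.group F), ∀ (g : ↥(D.group F)) (i : ℕ) (t : F), i < D.rank →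
      (((g : GL D.Idx F) : Matrix D.Idx D.Idx F) = D.x F (D.simple i) t →
        ((α g : GL D.Idx F) : Matrix D.Idx D.Idx F) = D.x F (D.simple (G.rho.getD i 0)) t) ∧
      (((g : GL D.Idx F) : Matrix D.Idx D.Idx F) = D.x F (D.neg (D.simple i)) t →
        ((α g : GL D.Idx F) : Matrix D.Idx D.Idx F) = D.x F (D.neg (D.simple (G.rho.getD i 0))) t) := by
  have hG := gaOK_of_chk D G hperm
  have hval : ∀ g : GL D.Idx F, ((MulAut.conj (gaGL D G hG F) g : GL D.Idx F) : Matrix D.Idx D.Idx F) =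
      gaP D G F * (g : Matrix D.Idx D.Idx F) * (gaP D G F)ᵀ := fun g => rfl
  have hmap : (D.group F).map (MulAut.conj (gaGL D G hG F)).toMonoidHom = D.group F := by
    rw [group_eq_closure_simple D hD, MonoidHom.map_closure]
    apply le_antisymm
    · rw [Subgroup.closure_le]
      rintro _ ⟨g, ⟨i, t, hi, hg | hg⟩, rfl⟩
      · refine Subgroup.subset_closure ⟨G.r i, t, hG.rho_lt i hi, Or.inl ?_⟩
        show ((MulAut.conj (gaGL D G hG F) g : GL D.Idx F) : Matrix D.Idx D.Idx F) = _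
        rw [hval, hg]
        exact (ga_conj_simple D hD G hG i hi (hroot i hi) t).1
      · refine Subgroup.subset_closure ⟨G.r i, t, hG.rho_lt i hi, Or.inr ?_⟩
        show ((MulAut.conj (gaGL D G hG F) g : GL D.Idx F) : Matrix D.Idx D.Idx F) = _
        rw [hval, hg]
        exact (ga_conj_simple D hD G hG i hi (hroot i hi) t).2
    · apply Subgroup.closure_mono
      rintro g ⟨j, t, hj, hg | hg⟩
      · have hi := hG.rhoInv_lt j hj
        refine ⟨xGL D hD F (D.simple (G.rI j)) (std_simple_lt D hD _ hi) t, ⟨G.rI j, t, hi, Or.inl rfl⟩, ?_⟩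
        apply Units.ext
        show ((MulAut.conj (gaGL D G hG F) _ : GL D.Idx F) : Matrix D.Idx D.Idx F) = _
        rw [hval, hg]
        show gaP D G F * D.x F (D.simple (G.rI j)) t * (gaP D G F)ᵀ = _
        rw [(ga_conj_simple D hD G hG _ hi (hroot _ hi) t).1, hG.rho_rhoInv j hj]
      · have hi := hG.rhoInv_lt j hj
        refine ⟨xGL D hD F (D.neg (D.simple (G.rI j))) (std_neg_lt D hD _ (std_simple_lt D hD _ hi)) t,
          ⟨G.rI j, t, hi, Or.inr rfl⟩, ?_⟩
        apply Units.ext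
        show ((MulAut.conj (gaGL D G hG F) _ : GL D.Idx F) : Matrix D.Idx D.Idx F) = _
        rw [hval, hg]
        show gaP D G F * D.x F (D.neg (D.simple (G.rI j))) t * (gaP D G F)ᵀ = _
        rw [(ga_conj_simple D hD G hG _ hi (hroot _ hi) t).2, hG.rho_rhoInv j hj]
  refine ⟨((MulAut.conj (gaGL D G hG F)).subgroupMap (D.group F)).trans (MulEquiv.subgroupCongr hmap), ?_⟩
  intro g i t hi
  have hα : ((((MulAut.conj (gaGL D G hG F)).subgroupMap (D.group F)).trans (MulEquiv.subgroupCongr hmap) g :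
      ↥(D.group F)) : GL D.Idx F) = MulAut.conj (gaGL D G hG F) (g : GL D.Idx F) := rfl
  constructor
  · intro hg
    rw [hα, hval, hg]
    exact (ga_conj_simple D hD G hG i hi (hroot i hi) t).1
  · intro hg
    rw [hα, hval, hg]
    exact (ga_conj_simple D hD G hG i hi (hroot i hi) t).2

end Cfsg.Agent.Helper8
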