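import Cfsg.Agent.Helper8.ReachChk

set_option autoImplicit false

namespace Cfsg.Agent.Helper8

open Cfsg.Lie

variable {F : Type*} [Field F]

theorem nProdGL_mem_monomial (D : ChevalleyDatum) (hD : Std7 D) (l : List ℕ) (hl : ∀ i ∈ l, i < D.rank) :
    nProdGL D F l ∈ D.monomialSubgroup F := by
  unfold nProdGL
  apply Subgroup.list_prod_mem
  intro g hg
  rw [List.mem_map] at hg
  obtain ⟨i, hi, rfl⟩ := hg
  exact nGL_mem D hD F _ (std_simple_lt D hD i (hl i hi))

/-- If every fundamental root is the image under a word of fundamental reflections of a fundamental root whose root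
subgroup lies in `Q`, and `Q` contains the monomial subgroup, then `Q` contains the Chevalley group. -/
theorem group_le_of_reach (D : ChevalleyDatum) (hD : Std7 D) (Q : Subgroup (GL D.Idx F))
    (hN : D.monomialSubgroup F ≤ Q)
    (hS : ∀ k, k < D.rank → ∃ (l : List ℕ) (m : ℕ), (∀ a ∈ l, a < D.rank) ∧ m < D.rank ∧
      D.rootSubgroup F (D.simple m) ≤ Q ∧ reflWord D l (D.simple m) = D.simple k) :
    D.group F ≤ Q := by
  unfold ChevalleyDatum.group
  rw [Subgroup.closure_le]
  rintro g ⟨r, t, hg⟩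
  obtain ⟨j, hj, l, hl, e⟩ := exists_reach D hD r.val r.isLt
  obtain ⟨l', m, hl', hm, hmQ, e'⟩ := hS j hj
  have hll : ∀ a ∈ l ++ l', a < D.rank := by
    intro a ha
    rcases List.mem_append.mp ha with ha | ha
    · exact hl a ha
    · exact hl' a ha
  have hr : reflWord D (l ++ l') (D.simple m) = r.val := by
    rw [reflWord_append, e', e]
  obtain ⟨ε, hε, hcomm⟩ := nProd_x_comm D hD (l ++ l') hll (D.simple m) (std_simple_lt D hD m hm) F
  have hεε : (ε : F) * ((ε : F) * t) = t := by
    rcases hε with rfl | rfl <;> simp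
  have hg' : g = nProdGL D F (l ++ l') * xGL D hD F (D.simple m) (std_simple_lt D hD m hm) ((ε : F) * t) *
      (nProdGL D F (l ++ l'))⁻¹ := by
    rw [eq_mul_inv_iff_mul_eq]
    apply Units.ext
    rw [Units.val_mul, Units.val_mul, nProdGL_val D hD F _ hll, hg]
    show D.xMat F r t * nProd D F (l ++ l') = nProd D F (l ++ l') * D.x F (D.simple m) ((ε : F) * t)
    rw [hcomm, hr, hεε, ChevalleyDatum.x, dif_pos r.isLt]
  rw [hg']
  have hn := hN (nProdGL_mem_monomial D hD (l ++ l') hll (F := F))
  refine mul_mem (mul_mem hn (hmQ ?_)) (inv_mem hn)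
  exact Subgroup.subset_closure ⟨_, rfl⟩

end Cfsg.Agent.Helper8
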