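import Cfsg.Agent.Helper8.GenN
import Cfsg.Agent.S1025

set_option autoImplicit false

namespace Cfsg.Agent.Helper8

open Cfsg.Lie

variable {F : Type*} [Field F]

/-- The root subgroup of a `W`-image of a root lies in `Q` when `Q` contains `N` and the root subgroup of the root. -/
theorem rootSubgroup_le_of_word (D : ChevalleyDatum) (hD : Std7 D) (Q : Subgroup (GL D.Idx F))
    (hN : D.monomialSubgroup F ≤ Q) (m : ℕ) (hm : m < D.nroots) (hmQ : D.rootSubgroup F m ≤ Q) (l : List ℕ)
    (hl : ∀ a ∈ l, a < D.rank) : D.rootSubgroup F (reflWord D l m) ≤ Q := by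
  unfold ChevalleyDatum.rootSubgroup
  rw [Subgroup.closure_le]
  rintro g ⟨t, hg⟩
  obtain ⟨ε, hε, hcomm⟩ := nProd_x_comm D hD l hl m hm F
  have hεε : (ε : F) * ((ε : F) * t) = t := by
    rcases hε with rfl | rfl <;> simp
  have hg' : g = nProdGL D F l * xGL D hD F m hm ((ε : F) * t) * (nProdGL D F l)⁻¹ := by
    rw [eq_mul_inv_iff_mul_eq]
    apply Units.ext
    rw [Units.val_mul, Units.val_mul, nProdGL_val D hD F _ hl, hg]
    show D.x F (reflWord D l m) t * nProd D F l = nProd D F l * D.x F m ((ε : F) * t)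
    rw [hcomm, hεε]
  rw [hg']
  have hn := hN (nProdGL_mem_monomial D hD l hl (F := F))
  refine mul_mem (mul_mem hn (hmQ ?_)) (inv_mem hn)
  exact Subgroup.subset_closure ⟨_, rfl⟩

/-- If `[x_s(u), x_r(t)] = x_b(-c t u)` with `c` invertible, the root subgroup of `b` lies in `⟨X_r, X_s⟩`. -/
theorem rootSubgroup_le_of_comm (D : ChevalleyDatum) (hD : Std7 D) (Q : Subgroup (GL D.Idx F)) (r s b : ℕ) (c : ℤ)
    (hr : r < D.nroots) (hs : s < D.nroots) (hrs : s ≠ r) (hneg : s ≠ D.neg r)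
    (hct : D.commTerms r s = [(b, c, 1, 1)]) (hc : (c : F) ≠ 0)
    (hrQ : D.rootSubgroup F r ≤ Q) (hsQ : D.rootSubgroup F s ≤ Q) : D.rootSubgroup F b ≤ Q := by
  unfold ChevalleyDatum.rootSubgroup
  rw [Subgroup.closure_le]
  rintro g ⟨v, hg⟩
  have h := Cfsg.Agent.S1025.result D hD r s hr hs hrs hneg (1 : F) (-v / (c : F))
  have hw : D.wordMat F (D.commWord F r s 1 (-v / (c : F))) = D.x F b v := by
    unfold ChevalleyDatum.commWord
    rw [hct]
    simp only [List.map_cons, List.map_nil, ChevalleyDatum.wordMat, List.prod_cons, List.prod_nil, mul_one]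
    congr 1
    field_simp
  rw [hw] at h
  have hxr : xGL D hD F r hr 1 ∈ Q := hrQ (Subgroup.subset_closure ⟨_, rfl⟩)
  have hxs : xGL D hD F s hs (-v / (c : F)) ∈ Q := hsQ (Subgroup.subset_closure ⟨_, rfl⟩)
  have hg' : g = (xGL D hD F r hr 1 * xGL D hD F s hs (-v / (c : F)))⁻¹ *
      (xGL D hD F s hs (-v / (c : F)) * xGL D hD F r hr 1) := by
    rw [eq_inv_mul_iff_mul_eq]
    apply Units.ext
    rw [Units.val_mul, Units.val_mul, Units.val_mul, hg]
    exact h.symm
  rw [hg']
  exact mul_mem (inv_mem (mul_mem hxr hxs)) (mul_mem hxs hxr)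

/-- Generation by `N` and one fundamental root subgroup when all fundamental roots are conjugate. -/
theorem group_le_of_words (D : ChevalleyDatum) (hD : Std7 D) (Q : Subgroup (GL D.Idx F))
    (hN : D.monomialSubgroup F ≤ Q) (i : ℕ) (hi : i < D.rank) (hiQ : D.rootSubgroup F (D.simple i) ≤ Q)
    (ws : ℕ → List ℕ)
    (hws : ∀ k, k < D.rank → (∀ a ∈ ws k, a < D.rank) ∧ reflWord D (ws k) (D.simple 0) = D.simple k) :
    D.group F ≤ Q := by
  apply group_le_of_reach D hD Q hN
  intro k hk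
  have h0 := std_simple_lt D hD 0 (rank_pos_all D hD)
  refine ⟨ws k ++ (ws i).reverse, i, ?_, hi, hiQ, ?_⟩
  · intro a ha
    rcases List.mem_append.mp ha with ha | ha
    · exact (hws k hk).1 a ha
    · exact (hws i hi).1 a (List.mem_reverse.mp ha)
  · rw [reflWord_append]
    have e : reflWord D (ws i).reverse (D.simple i) = D.simple 0 := by
      rw [← (hws i hi).2]
      exact reflWord_reverse' D hD (ws i) (hws i hi).1 (D.simple 0) h0
    rw [e, (hws k hk).2]

theorem cast_ne_zero_of_ringChar_ne (p : ℕ) (hp : p.Prime) (h : ringChar F ≠ p) : ((p : ℕ) : F) ≠ 0 := by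
  intro h0
  rw [ringChar.spec] at h0
  rcases (Nat.dvd_prime hp).mp h0 with h1 | h1
  · exact CharP.ringChar_ne_one h1
  · exact h h1

end Cfsg.Agent.Helper8
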