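import Cfsg.Agent.Helper8.GenN2
import Cfsg.Prelude.Def_ChevAutomorphisms

set_option autoImplicit false

namespace Cfsg.Agent.Helper8

open Cfsg.Lie

variable {F : Type*} [Field F]

/-! ### Simply laced types: all fundamental roots are conjugate -/

def wordsD4 : ℕ → List ℕ := fun k => ([[], [0, 1], [1, 2, 0, 1], [1, 3, 0, 1]] : List (List ℕ)).getD k []

def wordsE6 : ℕ → List ℕ := fun k =>
  ([[], [3, 2, 1, 3, 0, 2], [0, 2], [2, 3, 0, 2], [3, 4, 2, 3, 0, 2], [4, 5, 3, 4, 2, 3, 0, 2]] : List (List ℕ)).getD k []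

def wordsE7 : ℕ → List ℕ := fun k =>
  ([[], [3, 2, 1, 3, 0, 2], [0, 2], [2, 3, 0, 2], [3, 4, 2, 3, 0, 2], [4, 5, 3, 4, 2, 3, 0, 2],
    [5, 6, 4, 5, 3, 4, 2, 3, 0, 2]] : List (List ℕ)).getD k []

def wordsE8 : ℕ → List ℕ := fun k =>
  ([[], [3, 2, 1, 3, 0, 2], [0, 2], [2, 3, 0, 2], [3, 4, 2, 3, 0, 2], [4, 5, 3, 4, 2, 3, 0, 2],
    [5, 6, 4, 5, 3, 4, 2, 3, 0, 2], [6, 7, 5, 6, 4, 5, 3, 4, 2, 3, 0, 2]] : List (List ℕ)).getD k []

def wordsChk (D : ChevalleyDatum) (ws : ℕ → List ℕ) (k : ℕ) : Bool :=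
  allF (fun a => Nat.blt a D.rank) (ws k) && Nat.beq (reflWord D (ws k) (D.simple 0)) (D.simple k)

theorem wordsChk_sound (D : ChevalleyDatum) (ws : ℕ → List ℕ) (k : ℕ) (h : wordsChk D ws k = true) :
    (∀ a ∈ ws k, a < D.rank) ∧ reflWord D (ws k) (D.simple 0) = D.simple k := by
  unfold wordsChk at h
  rw [Bool.and_eq_true] at h
  refine ⟨fun a ha => ?_, Nat.eq_of_beq_eq_true h.2⟩
  have := allF_mem _ _ h.1 a ha
  simpa [Nat.blt_eq] using this

theorem words_D4 : ∀ k, 0 ≤ k → k < 0 + 4 → wordsChk chevD4 wordsD4 k = true :=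
  range_all (wordsChk chevD4 wordsD4) 0 4 (by decide +kernel)

theorem words_E6 : ∀ k, 0 ≤ k → k < 0 + 6 → wordsChk chevE6 wordsE6 k = true :=
  range_all (wordsChk chevE6 wordsE6) 0 6 (by decide +kernel)

theorem words_E7 : ∀ k, 0 ≤ k → k < 0 + 7 → wordsChk chevE7 wordsE7 k = true :=
  range_all (wordsChk chevE7 wordsE7) 0 7 (by decide +kernel)

theorem words_E8 : ∀ k, 0 ≤ k → k < 0 + 8 → wordsChk chevE8 wordsE8 k = true :=
  range_all (wordsChk chevE8 wordsE8) 0 8 (by decide +kernel)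

theorem gen_D4 (i : ℕ) (hi : i < chevD4.rank) :
    chevD4.group F ≤ chevD4.monomialSubgroup F ⊔ chevD4.rootSubgroup F (chevD4.simple i) :=
  group_le_of_words chevD4 (by simp [Std7]) _ le_sup_left i hi le_sup_right wordsD4
    (fun k hk => wordsChk_sound _ _ k (words_D4 k (Nat.zero_le k) (by rw [Nat.zero_add]; exact hk)))

theorem gen_E6 (i : ℕ) (hi : i < chevE6.rank) :
    chevE6.group F ≤ chevE6.monomialSubgroup F ⊔ chevE6.rootSubgroup F (chevE6.simple i) :=
  group_le_of_words chevE6 (by simp [Std7]) _ le_sup_left i hi le_sup_right wordsE6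
    (fun k hk => wordsChk_sound _ _ k (words_E6 k (Nat.zero_le k) (by rw [Nat.zero_add]; exact hk)))

theorem gen_E7 (i : ℕ) (hi : i < chevE7.rank) :
    chevE7.group F ≤ chevE7.monomialSubgroup F ⊔ chevE7.rootSubgroup F (chevE7.simple i) :=
  group_le_of_words chevE7 (by simp [Std7]) _ le_sup_left i hi le_sup_right wordsE7
    (fun k hk => wordsChk_sound _ _ k (words_E7 k (Nat.zero_le k) (by rw [Nat.zero_add]; exact hk)))

theorem gen_E8 (i : ℕ) (hi : i < chevE8.rank) :
    chevE8.group F ≤ chevE8.monomialSubgroup F ⊔ chevE8.rootSubgroup F (chevE8.simple i) :=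
  group_le_of_words chevE8 (by simp [Std7]) _ le_sup_left i hi le_sup_right wordsE8
    (fun k hk => wordsChk_sound _ _ k (words_E8 k (Nat.zero_le k) (by rw [Nat.zero_add]; exact hk)))

/-! ### Two root lengths -/

theorem gen_B2 (h2 : ringChar F ≠ 2) (i : ℕ) (hi : i < chevB2.rank)
    (hshort : chevB2.isLong (chevB2.simple i) = false) :
    chevB2.group F ≤ chevB2.monomialSubgroup F ⊔ chevB2.rootSubgroup F (chevB2.simple i) := by
  have hD : Std7 chevB2 := by simp [Std7]
  have hi0 : ∀ i : Fin chevB2.rank, chevB2.isLong (chevB2.simple i.val) = false → i.val = 0 := by decide +kernel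
  obtain rfl : i = 0 := hi0 ⟨i, hi⟩ hshort
  have hN : chevB2.monomialSubgroup F ≤ chevB2.monomialSubgroup F ⊔ chevB2.rootSubgroup F (chevB2.simple 0) :=
    le_sup_left
  have h0 : chevB2.rootSubgroup F (chevB2.simple 0) ≤
      chevB2.monomialSubgroup F ⊔ chevB2.rootSubgroup F (chevB2.simple 0) := le_sup_right
  have hc : ((-2 : ℤ) : F) ≠ 0 := by
    have := cast_ne_zero_of_ringChar_ne (F := F) 2 Nat.prime_two h2
    push_cast at this ⊢
    simpa using this
  have hr : chevB2.rootSubgroup F 2 ≤ _ :=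
    rootSubgroup_le_of_word chevB2 hD _ hN (chevB2.simple 0) (by decide) h0 [0] (by decide)
  have hs : chevB2.rootSubgroup F 6 ≤ _ :=
    rootSubgroup_le_of_word chevB2 hD _ hN (chevB2.simple 0) (by decide) h0 [1] (by decide)
  have h1 : chevB2.rootSubgroup F (chevB2.simple 1) ≤ _ :=
    rootSubgroup_le_of_comm chevB2 hD _ 2 6 4 (-2) (by decide) (by decide) (by decide) (by decide)
      (by decide +kernel) hc hr hs
  apply group_le_of_reach chevB2 hD _ hN
  intro k hk
  have hk2 : k < 2 := hk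
  interval_cases k
  · exact ⟨[], 0, by simp, by decide, h0, rfl⟩
  · exact ⟨[], 1, by simp, by decide, h1, rfl⟩

theorem gen_G2 (h3 : ringChar F ≠ 3) (i : ℕ) (hi : i < chevG2.rank)
    (hshort : chevG2.isLong (chevG2.simple i) = false) :
    chevG2.group F ≤ chevG2.monomialSubgroup F ⊔ chevG2.rootSubgroup F (chevG2.simple i) := by
  have hD : Std7 chevG2 := by simp [Std7]
  have hi0 : ∀ i : Fin chevG2.rank, chevG2.isLong (chevG2.simple i.val) = false → i.val = 0 := by decide +kernel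
  obtain rfl : i = 0 := hi0 ⟨i, hi⟩ hshort
  have hN : chevG2.monomialSubgroup F ≤ chevG2.monomialSubgroup F ⊔ chevG2.rootSubgroup F (chevG2.simple 0) :=
    le_sup_left
  have h0 : chevG2.rootSubgroup F (chevG2.simple 0) ≤
      chevG2.monomialSubgroup F ⊔ chevG2.rootSubgroup F (chevG2.simple 0) := le_sup_right
  have hc : ((-3 : ℤ) : F) ≠ 0 := by
    have := cast_ne_zero_of_ringChar_ne (F := F) 3 Nat.prime_three h3
    push_cast at this ⊢
    simpa using this
  have hr : chevG2.rootSubgroup F 4 ≤ _ :=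
    rootSubgroup_le_of_word chevG2 hD _ hN (chevG2.simple 0) (by decide) h0 [0] (by decide)
  have hs : chevG2.rootSubgroup F 8 ≤ _ :=
    rootSubgroup_le_of_word chevG2 hD _ hN (chevG2.simple 0) (by decide) h0 [1] (by decide)
  have h1 : chevG2.rootSubgroup F (chevG2.simple 1) ≤ _ :=
    rootSubgroup_le_of_comm chevG2 hD _ 4 8 6 (-3) (by decide) (by decide) (by decide) (by decide)
      (by decide +kernel) hc hr hs
  apply group_le_of_reach chevG2 hD _ hN
  intro k hk
  have hk2 : k < 2 := hk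
  interval_cases k
  · exact ⟨[], 0, by simp, by decide, h0, rfl⟩
  · exact ⟨[], 1, by simp, by decide, h1, rfl⟩

theorem gen_F4 (h2 : ringChar F ≠ 2) (i : ℕ) (hi : i < chevF4.rank)
    (hshort : chevF4.isLong (chevF4.simple i) = false) :
    chevF4.group F ≤ chevF4.monomialSubgroup F ⊔ chevF4.rootSubgroup F (chevF4.simple i) := by
  have hD : Std7 chevF4 := by simp [Std7]
  have hi0 : ∀ i : Fin chevF4.rank, chevF4.isLong (chevF4.simple i.val) = false → i.val = 0 ∨ i.val = 1 := by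
    decide +kernel
  have hN : chevF4.monomialSubgroup F ≤ chevF4.monomialSubgroup F ⊔ chevF4.rootSubgroup F (chevF4.simple i) :=
    le_sup_left
  have hiQ : chevF4.rootSubgroup F (chevF4.simple i) ≤
      chevF4.monomialSubgroup F ⊔ chevF4.rootSubgroup F (chevF4.simple i) := le_sup_right
  have hp0 : chevF4.rootSubgroup F (chevF4.simple 0) ≤
      chevF4.monomialSubgroup F ⊔ chevF4.rootSubgroup F (chevF4.simple i) := by
    rcases hi0 ⟨i, hi⟩ hshort with h | h
    · have h' : i = 0 := h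
      rw [h'] at hiQ ⊢
      exact hiQ
    · have h' : i = 1 := h
      rw [h'] at hiQ hN ⊢
      exact rootSubgroup_le_of_word chevF4 hD _ hN (chevF4.simple 1) (by decide) hiQ [1, 0] (by decide)
  have hp1 : chevF4.rootSubgroup F (chevF4.simple 1) ≤
      chevF4.monomialSubgroup F ⊔ chevF4.rootSubgroup F (chevF4.simple i) := by
    rcases hi0 ⟨i, hi⟩ hshort with h | h
    · have h' : i = 0 := h
      rw [h'] at hiQ hN ⊢
      exact rootSubgroup_le_of_word chevF4 hD _ hN (chevF4.simple 0) (by decide) hiQ [0, 1] (by decide)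
    · have h' : i = 1 := h
      rw [h'] at hiQ ⊢
      exact hiQ
  have hc : ((-2 : ℤ) : F) ≠ 0 := by
    have := cast_ne_zero_of_ringChar_ne (F := F) 2 Nat.prime_two h2
    push_cast at this ⊢
    simpa using this
  have hr : chevF4.rootSubgroup F 20 ≤ _ :=
    rootSubgroup_le_of_word chevF4 hD _ hN (chevF4.simple 1) (by decide) hp1 [1] (by decide)
  have hs : chevF4.rootSubgroup F 28 ≤ _ :=
    rootSubgroup_le_of_word chevF4 hD _ hN (chevF4.simple 1) (by decide) hp1 [2] (by decide)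
  have hp2 : chevF4.rootSubgroup F (chevF4.simple 2) ≤ _ :=
    rootSubgroup_le_of_comm chevF4 hD _ 20 28 25 (-2) (by decide) (by decide) (by decide) (by decide)
      (by decide +kernel) hc hr hs
  have hr' : chevF4.rootSubgroup F 19 ≤ _ :=
    rootSubgroup_le_of_word chevF4 hD _ hN (chevF4.simple 1) (by decide) hp1 [2, 1] (by decide)
  have hs' : chevF4.rootSubgroup F 29 ≤ _ :=
    rootSubgroup_le_of_word chevF4 hD _ hN (chevF4.simple 1) (by decide) hp1 [3, 2] (by decide)
  have hp3 : chevF4.rootSubgroup F (chevF4.simple 3) ≤ _ :=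
    rootSubgroup_le_of_comm chevF4 hD _ 19 29 24 (-2) (by decide) (by decide) (by decide) (by decide)
      (by decide +kernel) hc hr' hs'
  apply group_le_of_reach chevF4 hD _ hN
  intro k hk
  have hk4 : k < 4 := hk
  interval_cases k
  · exact ⟨[], 0, by simp, by decide, hp0, rfl⟩
  · exact ⟨[], 1, by simp, by decide, hp1, rfl⟩
  · exact ⟨[], 2, by simp, by decide, hp2, rfl⟩
  · exact ⟨[], 3, by simp, by decide, hp3, rfl⟩

end Cfsg.Agent.Helper8
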