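import Cfsg.Agent.Helper8.Par1

set_option autoImplicit false

namespace Cfsg.Agent.Helper8

open Cfsg.Lie

/-! ### Properties of the scaled root coordinates -/

theorem rc_eq (D : ChevalleyDatum) (i s : ℕ) :
    rc D i s = ∑ k ∈ Finset.range D.rank, gzT (adjOf D) i k * D.cartan k s := by
  unfold rc rcT
  rw [sumTo_eq]

theorem detOf_pos (D : ChevalleyDatum) (hD : Std7 D) : 0 < detOf D := by
  have h := rcSimple_all D hD 0 (rank_pos_all D hD)
  unfold rcSimpleChk at h
  rw [Bool.and_eq_true] at h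
  exact of_decide_eq_true h.2

theorem rc_simple (D : ChevalleyDatum) (hD : Std7 D) (i j : ℕ) (hi : i < D.rank) (hj : j < D.rank) :
    rc D i (D.simple j) = if i = j then detOf D else 0 := by
  have h := rcSimple_all D hD j hj
  unfold rcSimpleChk at h
  rw [Bool.and_eq_true] at h
  have h1 := of_decide_eq_true (allF_mem _ _ h.1 i (List.mem_range.mpr hi))
  rw [h1, boolRec_beq]

theorem rc_sign (D : ChevalleyDatum) (hD : Std7 D) (s : ℕ) (hs : s < D.nroots) (i : ℕ) (hi : i < D.rank) :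
    (0 < rc D i s ↔ 0 < corootC D s i) ∧ (rc D i s < 0 ↔ corootC D s i < 0) := by
  have h := allF_mem _ _ (rcSign_all D hD s hs) i (List.mem_range.mpr hi)
  simp only [Bool.and_eq_true, Bool.or_eq_true, Bool.not_eq_true', decide_eq_true_eq, decide_eq_false_iff_not] at h
  obtain ⟨h1, h2⟩ := h
  constructor
  · rcases h1 with ⟨a, b⟩ | ⟨a, b⟩
    · exact ⟨fun _ => b, fun _ => a⟩
    · exact ⟨fun x => absurd x a, fun x => absurd x b⟩
  · rcases h2 with ⟨a, b⟩ | ⟨a, b⟩
    · exact ⟨fun _ => b, fun _ => a⟩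
    · exact ⟨fun x => absurd x a, fun x => absurd x b⟩

theorem rc_eq_zero_iff (D : ChevalleyDatum) (hD : Std7 D) (s : ℕ) (hs : s < D.nroots) (i : ℕ) (hi : i < D.rank) :
    rc D i s = 0 ↔ corootC D s i = 0 := by
  obtain ⟨h1, h2⟩ := rc_sign D hD s hs i hi
  constructor
  · intro h
    by_contra hne
    rcases lt_or_gt_of_ne hne with h3 | h3
    · have := h2.mpr h3
      omega
    · have := h1.mpr h3
      omega
  · intro h
    by_contra hne
    rcases lt_or_gt_of_ne hne with h3 | h3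
    · have := h2.mp h3
      omega
    · have := h1.mp h3
      omega

theorem desc_ex (D : ChevalleyDatum) (hD : Std7 D) (r : ℕ) (hr : D.IsPosRoot r)
    (hns : ∀ k, k < D.rank → r ≠ D.simple k) :
    ∃ j, j < D.rank ∧ 0 < D.cartan j r ∧ 0 < corootC D r j := by
  have h := desc_all D hD r hr.1
  unfold descChk at h
  rw [Bool.or_eq_true, Bool.or_eq_true] at h
  rcases h with h | h | h
  · rw [decide_eq_true hr] at h
    exact absurd h (by decide)
  · obtain ⟨k, hk, hk2⟩ := anyF_mem _ _ h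
    exact absurd (Nat.eq_of_beq_eq_true hk2) (hns k (List.mem_range.mp hk))
  · obtain ⟨j, hj, hj2⟩ := anyF_mem _ _ h
    rw [Bool.and_eq_true] at hj2
    exact ⟨j, List.mem_range.mp hj, of_decide_eq_true hj2.1, of_decide_eq_true hj2.2⟩

theorem rc_neg (D : ChevalleyDatum) (hD : Std7 D) (i s : ℕ) (hs : s < D.nroots) : rc D i (D.neg s) = - rc D i s := by
  rw [rc_eq, rc_eq, ← Finset.sum_neg_distrib]
  apply Finset.sum_congr rfl
  intro k hk
  rw [(cartan_add_all D hD k (Finset.mem_range.mp hk) s hs).1]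
  ring

theorem rc_chain (D : ChevalleyDatum) (hD : Std7 D) (i s : ℕ) (hs : s < D.nroots) (s' u : ℕ) (km : ℕ × ℤ)
    (h : km ∈ D.chainCoeff s s' u) : rc D i u = (km.1 : ℤ) * rc D i s + rc D i s' := by
  rw [rc_eq, rc_eq, rc_eq, Finset.mul_sum, ← Finset.sum_add_distrib]
  apply Finset.sum_congr rfl
  intro k hk
  rw [(cartan_add_all D hD k (Finset.mem_range.mp hk) s hs).2 s' u km h]
  ring

theorem rc_refl (D : ChevalleyDatum) (hD : Std7 D) (m j : ℕ) (hj : j < D.rank) (s : ℕ) (hs : s < D.nroots) :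
    rc D m (D.reflectRoot j s) = rc D m s - D.cartan j s * rc D m (D.simple j) := by
  rw [rc_eq, rc_eq, rc_eq, Finset.mul_sum, ← Finset.sum_sub_distrib]
  apply Finset.sum_congr rfl
  intro k hk
  rw [std_cartan_refl D hD j hj k (Finset.mem_range.mp hk) s hs]
  ring

theorem rc_nonneg (D : ChevalleyDatum) (hD : Std7 D) (s : ℕ) (hs : D.IsPosRoot s) (i : ℕ) (hi : i < D.rank) :
    0 ≤ rc D i s := by
  by_contra h
  have h1 := (rc_sign D hD s hs.1 i hi).2.mp (not_le.mp h)
  have h2 := corootC_nonneg D s hs i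
  omega

theorem rc_nonpos (D : ChevalleyDatum) (hD : Std7 D) (s : ℕ) (hs : D.IsNegRoot s) (i : ℕ) (hi : i < D.rank) :
    rc D i s ≤ 0 := by
  by_contra h
  have h1 := (rc_sign D hD s hs.1 i hi).1.mp (not_le.mp h)
  have h2 := corootC_nonpos D s hs i
  omega

theorem inRootSub_iff (D : ChevalleyDatum) (hD : Std7 D) (J : Set ℕ) (r : ℕ) :
    D.InRootSub J r ↔ r < D.nroots ∧ ∀ i, i < D.rank → i ∉ J → rc D i r = 0 := by
  unfold ChevalleyDatum.InRootSub
  constructor
  · rintro ⟨hr, h⟩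
    refine ⟨hr, fun i hi hiJ => ?_⟩
    rw [rc_eq_zero_iff D hD r hr i hi, corootC_lt D r i hi]
    exact h i hi hiJ
  · rintro ⟨hr, h⟩
    refine ⟨hr, fun i hi hiJ => ?_⟩
    rw [← corootC_lt D r i hi, ← rc_eq_zero_iff D hD r hr i hi]
    exact h i hi hiJ

/-! ### The level of a root with respect to a set of fundamental roots -/

open Classical in
/-- The level of the root `s`: the sum of its (scaled) coordinates on the fundamental roots outside `J`. -/
noncomputable def lvJ (D : ChevalleyDatum) (J : Set ℕ) (s : ℕ) : ℤ :=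
  ∑ i ∈ Finset.range D.rank, if i ∈ J then 0 else rc D i s

theorem lvJ_neg (D : ChevalleyDatum) (hD : Std7 D) (J : Set ℕ) (s : ℕ) (hs : s < D.nroots) :
    lvJ D J (D.neg s) = - lvJ D J s := by
  unfold lvJ
  rw [← Finset.sum_neg_distrib]
  apply Finset.sum_congr rfl
  intro i _
  split_ifs
  · simp
  · exact rc_neg D hD i s hs

theorem lvJ_chain (D : ChevalleyDatum) (hD : Std7 D) (J : Set ℕ) (s : ℕ) (hs : s < D.nroots) (s' u : ℕ)
    (km : ℕ × ℤ) (h : km ∈ D.chainCoeff s s' u) : lvJ D J u = (km.1 : ℤ) * lvJ D J s + lvJ D J s' := by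
  unfold lvJ
  rw [Finset.mul_sum, ← Finset.sum_add_distrib]
  apply Finset.sum_congr rfl
  intro i _
  split_ifs
  · simp
  · exact rc_chain D hD i s hs s' u km h

theorem lvJ_refl (D : ChevalleyDatum) (hD : Std7 D) (J : Set ℕ) (j : ℕ) (hj : j < D.rank) (hjJ : j ∈ J) (s : ℕ)
    (hs : s < D.nroots) : lvJ D J (D.reflectRoot j s) = lvJ D J s := by
  unfold lvJ
  apply Finset.sum_congr rfl
  intro i hi
  split_ifs with h
  · rfl
  · have hij : i ≠ j := fun e => h (e ▸ hjJ)
    rw [rc_refl D hD i j hj s hs, rc_simple D hD i j (Finset.mem_range.mp hi) hj, if_neg hij, mul_zero, sub_zero]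

theorem lvJ_inJ (D : ChevalleyDatum) (hD : Std7 D) (J : Set ℕ) (r : ℕ) (h : D.InRootSub J r) : lvJ D J r = 0 := by
  obtain ⟨hr, h0⟩ := (inRootSub_iff D hD J r).mp h
  unfold lvJ
  apply Finset.sum_eq_zero
  intro i hi
  split_ifs with hiJ
  · rfl
  · exact h0 i (Finset.mem_range.mp hi) hiJ

theorem lvJ_nonneg (D : ChevalleyDatum) (hD : Std7 D) (J : Set ℕ) (r : ℕ) (hr : D.IsPosRoot r) : 0 ≤ lvJ D J r := by
  unfold lvJ
  apply Finset.sum_nonneg
  intro i hi
  split_ifs
  · exact le_refl _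
  · exact rc_nonneg D hD r hr i (Finset.mem_range.mp hi)

theorem lvJ_nonpos (D : ChevalleyDatum) (hD : Std7 D) (J : Set ℕ) (r : ℕ) (hr : D.IsNegRoot r) : lvJ D J r ≤ 0 := by
  unfold lvJ
  apply Finset.sum_nonpos
  intro i hi
  split_ifs
  · exact le_refl _
  · exact rc_nonpos D hD r hr i (Finset.mem_range.mp hi)

theorem lvJ_pos (D : ChevalleyDatum) (hD : Std7 D) (J : Set ℕ) (r : ℕ) (hr : D.IsPosRoot r)
    (hnJ : ¬ D.InRootSub J r) : 0 < lvJ D J r := by
  rw [inRootSub_iff D hD J r] at hnJ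
  push Not at hnJ
  obtain ⟨i, hi, hiJ, hne⟩ := hnJ hr.1
  unfold lvJ
  apply Finset.sum_pos'
  · intro k hk
    split_ifs
    · exact le_refl _
    · exact rc_nonneg D hD r hr k (Finset.mem_range.mp hk)
  · refine ⟨i, Finset.mem_range.mpr hi, ?_⟩
    rw [if_neg hiJ]
    exact lt_of_le_of_ne (rc_nonneg D hD r hr i hi) (Ne.symm hne)

theorem inJ_of_lvJ_zero (D : ChevalleyDatum) (hD : Std7 D) (J : Set ℕ) (r : ℕ) (hr : r < D.nroots)
    (h : lvJ D J r = 0) : D.InRootSub J r := by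
  rcases pos_or_neg D hD r hr with hp | hn
  · by_contra hnJ
    have := lvJ_pos D hD J r hp hnJ
    omega
  · have hp := (neg_swap D hD r hr).2 hn
    have hnl := std_neg_lt D hD r hr
    have h1 : lvJ D J (D.neg r) = 0 := by rw [lvJ_neg D hD J r hr, h, neg_zero]
    have h2 : D.InRootSub J (D.neg r) := by
      by_contra hnJ
      have := lvJ_pos D hD J _ hp hnJ
      omega
    rw [inRootSub_iff D hD J] at h2 ⊢
    refine ⟨hr, fun i hi hiJ => ?_⟩
    have h3 := h2.2 i hi hiJ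
    rw [rc_neg D hD i r hr] at h3
    omega

theorem pos_of_lvJ_pos (D : ChevalleyDatum) (hD : Std7 D) (J : Set ℕ) (r : ℕ) (hr : r < D.nroots)
    (h : 0 < lvJ D J r) : D.IsPosRoot r ∧ ¬ D.InRootSub J r := by
  constructor
  · rcases pos_or_neg D hD r hr with hp | hn
    · exact hp
    · have := lvJ_nonpos D hD J r hn
      omega
  · intro hJ
    have := lvJ_inJ D hD J r hJ
    omega

theorem inRootSub_simple (D : ChevalleyDatum) (hD : Std7 D) (J : Set ℕ) (j : ℕ) (hj : j < D.rank) (hjJ : j ∈ J) :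
    D.InRootSub J (D.simple j) := by
  rw [inRootSub_iff D hD J]
  refine ⟨std_simple_lt D hD j hj, fun i hi hiJ => ?_⟩
  have hij : i ≠ j := fun e => hiJ (e ▸ hjJ)
  rw [rc_simple D hD i j hi hj, if_neg hij]

theorem not_inRootSub_simple (D : ChevalleyDatum) (hD : Std7 D) (J : Set ℕ) (j : ℕ) (hj : j < D.rank) (hjJ : j ∉ J) :
    ¬ D.InRootSub J (D.simple j) := by
  rw [inRootSub_iff D hD J]
  rintro ⟨-, h⟩
  have h1 := h j hj hjJ
  rw [rc_simple D hD j j hj hj, if_pos rfl] at h1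
  have := detOf_pos D hD
  omega

theorem inRootSub_neg (D : ChevalleyDatum) (hD : Std7 D) (J : Set ℕ) (r : ℕ) (h : D.InRootSub J r) :
    D.InRootSub J (D.neg r) := by
  apply inJ_of_lvJ_zero D hD J _ (std_neg_lt D hD r h.1)
  rw [lvJ_neg D hD J r h.1, lvJ_inJ D hD J r h, neg_zero]

theorem inRootSub_refl (D : ChevalleyDatum) (hD : Std7 D) (J : Set ℕ) (j : ℕ) (hj : j < D.rank) (hjJ : j ∈ J) (r : ℕ)
    (h : D.InRootSub J r) : D.InRootSub J (D.reflectRoot j r) := by
  apply inJ_of_lvJ_zero D hD J _ (reflectRoot_invol D hD j hj r h.1).1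
  rw [lvJ_refl D hD J j hj hjJ r h.1, lvJ_inJ D hD J r h]

end Cfsg.Agent.Helper8
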