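import Cfsg.Agent.Helper8.Par2

set_option autoImplicit false

namespace Cfsg.Agent.Helper8

open Cfsg.Lie

/-! ### `-(-r) = r` -/

def negNegChk (D : ChevalleyDatum) (r : ℕ) : Bool := Nat.beq (D.neg (D.neg r)) r

set_option maxRecDepth 100000 in
theorem negNeg_G2 : ∀ r, 0 ≤ r → r < 12 → negNegChk chevG2 r = true :=
  range_all (negNegChk chevG2) 0 12 (by decide +kernel)

set_option maxRecDepth 100000 in
theorem negNeg_B2 : ∀ r, 0 ≤ r → r < 8 → negNegChk chevB2 r = true :=
  range_all (negNegChk chevB2) 0 8 (by decide +kernel)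

set_option maxRecDepth 100000 in
theorem negNeg_D4 : ∀ r, 0 ≤ r → r < 24 → negNegChk chevD4 r = true :=
  range_all (negNegChk chevD4) 0 24 (by decide +kernel)

set_option maxRecDepth 100000 in
theorem negNeg_F4 : ∀ r, 0 ≤ r → r < 48 → negNegChk chevF4 r = true :=
  range_all (negNegChk chevF4) 0 48 (by decide +kernel)

set_option maxRecDepth 100000 in
theorem negNeg_E6 : ∀ r, 0 ≤ r → r < 72 → negNegChk chevE6 r = true :=
  range_all (negNegChk chevE6) 0 72 (by decide +kernel)

set_option maxRecDepth 100000 in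
theorem negNeg_E7 : ∀ r, 0 ≤ r → r < 126 → negNegChk chevE7 r = true :=
  range_all (negNegChk chevE7) 0 126 (by decide +kernel)

set_option maxRecDepth 100000 in
theorem negNeg_E8 : ∀ r, 0 ≤ r → r < 240 → negNegChk chevE8 r = true :=
  range_all (negNegChk chevE8) 0 240 (by decide +kernel)

theorem neg_neg_all (D : ChevalleyDatum) (hD : Std7 D) (r : ℕ) (hr : r < D.nroots) : D.neg (D.neg r) = r := by
  apply Nat.eq_of_beq_eq_true
  simp only [Std7, List.mem_cons, List.mem_nil_iff, or_false] at hD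
  rcases hD with rfl | rfl | rfl | rfl | rfl | rfl | rfl
  · exact negNeg_G2 r (Nat.zero_le _) hr
  · exact negNeg_B2 r (Nat.zero_le _) hr
  · exact negNeg_D4 r (Nat.zero_le _) hr
  · exact negNeg_F4 r (Nat.zero_le _) hr
  · exact negNeg_E6 r (Nat.zero_le _) hr
  · exact negNeg_E7 r (Nat.zero_le _) hr
  · exact negNeg_E8 r (Nat.zero_le _) hr

/-! ### The roots of `Φ_J` are images of fundamental roots of `J` under words in `J` -/

/-- The sum of the scaled coordinates. -/
def rcSum (D : ChevalleyDatum) (r : ℕ) : ℤ := ∑ i ∈ Finset.range D.rank, rc D i r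

theorem rcSum_nonneg (D : ChevalleyDatum) (hD : Std7 D) (r : ℕ) (hr : D.IsPosRoot r) : 0 ≤ rcSum D r :=
  Finset.sum_nonneg (fun i hi => rc_nonneg D hD r hr i (Finset.mem_range.mp hi))

theorem rcSum_refl (D : ChevalleyDatum) (hD : Std7 D) (j : ℕ) (hj : j < D.rank) (r : ℕ) (hr : r < D.nroots) :
    rcSum D (D.reflectRoot j r) = rcSum D r - D.cartan j r * detOf D := by
  unfold rcSum
  have e : ∀ i ∈ Finset.range D.rank, rc D i (D.reflectRoot j r) =
      rc D i r - D.cartan j r * (if i = j then detOf D else 0) := by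
    intro i hi
    rw [rc_refl D hD i j hj r hr, rc_simple D hD i j (Finset.mem_range.mp hi) hj]
  rw [Finset.sum_congr rfl e, Finset.sum_sub_distrib, ← Finset.mul_sum, Finset.sum_ite_eq' (Finset.range D.rank) j,
    if_pos (Finset.mem_range.mpr hj)]

theorem root_word (D : ChevalleyDatum) (hD : Std7 D) (J : Set ℕ) : ∀ (m : ℕ) (r : ℕ), (rcSum D r).toNat = m →
    D.IsPosRoot r → D.InRootSub J r →
    ∃ (l : List ℕ) (k : ℕ), (∀ a ∈ l, a < D.rank ∧ a ∈ J) ∧ k < D.rank ∧ k ∈ J ∧ r = reflWord D l (D.simple k) := by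
  intro m
  induction m using Nat.strong_induction_on with
  | _ m ih =>
  intro r hm hr hJ
  by_cases hs : ∃ k, k < D.rank ∧ r = D.simple k
  · obtain ⟨k, hk, rfl⟩ := hs
    have hkJ : k ∈ J := by
      by_contra hkJ
      exact not_inRootSub_simple D hD J k hk hkJ hJ
    exact ⟨[], k, fun a ha => absurd ha (by simp), hk, hkJ, rfl⟩
  · push Not at hs
    obtain ⟨j, hj, hcart, hcc⟩ := desc_ex D hD r hr hs
    have hjJ : j ∈ J := by
      by_contra hjJ
      have h1 := hJ.2 j hj hjJ
      rw [← corootC_lt D r j hj] at h1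
      omega
    have hpos' := (wPos_sound D j (wPos_all D hD j hj) r hr (hs j hj)).1
    have hJ' := inRootSub_refl D hD J j hj hjJ r hJ
    have hsum := rcSum_refl D hD j hj r hr.1
    have hd := detOf_pos D hD
    have h0 := rcSum_nonneg D hD r hr
    have h0' := rcSum_nonneg D hD _ hpos'
    have hlt : (rcSum D (D.reflectRoot j r)).toNat < m := by
      have : 0 < D.cartan j r * detOf D := mul_pos hcart hd
      omega
    obtain ⟨l, k, hl, hk, hkJ, e⟩ := ih _ hlt _ rfl hpos' hJ'
    refine ⟨j :: l, k, ?_, hk, hkJ, ?_⟩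
    · intro a ha
      rcases List.mem_cons.mp ha with rfl | ha
      · exact ⟨hj, hjJ⟩
      · exact hl a ha
    · rw [reflWord_cons, ← e, (reflectRoot_invol D hD j hj r hr.1).2]

/-- Every root of `Φ_J` is the image of a fundamental root of `J` under a word in the letters of `J`. -/
theorem root_word' (D : ChevalleyDatum) (hD : Std7 D) (J : Set ℕ) (r : ℕ) (hJ : D.InRootSub J r) :
    ∃ (l : List ℕ) (k : ℕ), (∀ a ∈ l, a < D.rank ∧ a ∈ J) ∧ k < D.rank ∧ k ∈ J ∧ r = reflWord D l (D.simple k) := by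
  rcases pos_or_neg D hD r hJ.1 with hp | hn
  · exact root_word D hD J _ r rfl hp hJ
  · have hp := (neg_swap D hD r hJ.1).2 hn
    obtain ⟨l, k, hl, hk, hkJ, e⟩ := root_word D hD J _ _ rfl hp (inRootSub_neg D hD J r hJ)
    refine ⟨l ++ [k], k, ?_, hk, hkJ, ?_⟩
    · intro a ha
      rcases List.mem_append.mp ha with ha | ha
      · exact hl a ha
      · rw [List.mem_singleton] at ha
        rw [ha]
        exact ⟨hk, hkJ⟩
    · rw [reflWord_append, reflWord_single, reflectRoot_simple,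
        reflWord_neg D hD l (fun a ha => (hl a ha).1) _ (std_simple_lt D hD k hk), ← e, neg_neg_all D hD r hJ.1]

/-! ### The parabolic subgroup -/

variable {F : Type*} [Field F]

theorem borel_le_parabolic (D : ChevalleyDatum) (J : Set ℕ) : D.borelSubgroup F ≤ D.parabolicSubgroup F J := by
  unfold ChevalleyDatum.parabolicSubgroup
  exact le_sup_left

theorem nGL_mem_parabolic (D : ChevalleyDatum) (hD : Std7 D) (J : Set ℕ) (j : ℕ) (hj : j < D.rank) (hjJ : j ∈ J) :
    nGL D F (D.simple j) ∈ D.parabolicSubgroup F J := by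
  unfold ChevalleyDatum.parabolicSubgroup
  apply Subgroup.mem_sup_right
  apply Subgroup.subset_closure
  exact ⟨j, hjJ, hj, nGL_val D hD F _ (std_simple_lt D hD j hj)⟩

theorem nProdGL_mem_parabolic (D : ChevalleyDatum) (hD : Std7 D) (J : Set ℕ) (l : List ℕ)
    (hl : ∀ a ∈ l, a < D.rank ∧ a ∈ J) : nProdGL D F l ∈ D.parabolicSubgroup F J := by
  unfold nProdGL
  apply Subgroup.list_prod_mem
  intro g hg
  rw [List.mem_map] at hg
  obtain ⟨i, hi, rfl⟩ := hg
  exact nGL_mem_parabolic D hD J i (hl i hi).1 (hl i hi).2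

theorem xGL_pos_mem_borel (D : ChevalleyDatum) (hD : Std7 D) (r : ℕ) (hr : D.IsPosRoot r) (t : F) :
    xGL D hD F r hr.1 t ∈ D.borelSubgroup F := by
  unfold ChevalleyDatum.borelSubgroup
  apply Subgroup.mem_sup_left
  exact Subgroup.subset_closure ⟨r, t, hr, rfl⟩

/-- The root elements of `Φ_J` lie in `P_J`. -/
theorem xGL_mem_parabolic (D : ChevalleyDatum) (hD : Std7 D) (J : Set ℕ) (r : ℕ) (hJ : D.InRootSub J r) (t : F) :
    xGL D hD F r hJ.1 t ∈ D.parabolicSubgroup F J := by
  obtain ⟨l, k, hl, hk, hkJ, e⟩ := root_word' D hD J r hJ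
  have hlr : ∀ a ∈ l, a < D.rank := fun a ha => (hl a ha).1
  have hp := std_simple_lt D hD k hk
  obtain ⟨c, hc0, hc⟩ := word_act1 D hD l hlr (D.simple k) hp (F := F)
  have h1 : nProdGL D F l * xGL D hD F (D.simple k) hp (c⁻¹ * t) * (nProdGL D F l)⁻¹ ∈ D.parabolicSubgroup F J := by
    have hn := nProdGL_mem_parabolic D hD J l hl (F := F)
    exact mul_mem (mul_mem hn (borel_le_parabolic D J (xGL_pos_mem_borel D hD _ (simple_pos D hD k hk) _))) (inv_mem hn)
  rw [hc] at h1
  have e2 : xGL D hD F r hJ.1 t =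
      xGL D hD F (reflWord D l (D.simple k)) (reflWord_lt D hD l hlr (D.simple k) hp) (c * (c⁻¹ * t)) := by
    apply Units.ext
    show D.x F r t = D.x F (reflWord D l (D.simple k)) (c * (c⁻¹ * t))
    rw [← e, ← mul_assoc, mul_inv_cancel₀ hc0, one_mul]
  rw [e2]
  exact h1

/-- `P_J = ⟨H, X_r : r ∈ Φ⁺ ∪ Φ_J⟩`. -/
theorem parabolic_eq (D : ChevalleyDatum) (hD : Std7 D) (J : Set ℕ) :
    D.parabolicSubgroup F J = D.diagonalSubgroup F ⊔
      Subgroup.closure {g : GL D.Idx F | ∃ (r : ℕ) (t : F), (D.IsPosRoot r ∨ D.InRootSub J r) ∧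
        (g : Matrix D.Idx D.Idx F) = D.x F r t} := by
  apply le_antisymm
  · unfold ChevalleyDatum.parabolicSubgroup ChevalleyDatum.borelSubgroup
    refine sup_le (sup_le ?_ le_sup_left) ?_
    · refine le_trans ?_ le_sup_right
      unfold ChevalleyDatum.posUnipotent
      apply Subgroup.closure_mono
      rintro g ⟨r, t, hr, hg⟩
      exact ⟨r, t, Or.inl hr, hg⟩
    · refine le_trans ?_ le_sup_right
      rw [Subgroup.closure_le]
      rintro g ⟨j, hjJ, hj, hg⟩
      have hp := std_simple_lt D hD j hj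
      have hg' : g = nGL D F (D.simple j) := Units.ext (by rw [hg, nGL_val D hD F _ hp])
      rw [hg', nGL_eq_prod D hD _ hp]
      have h1 : ∀ a : F, xGL D hD F (D.simple j) hp a ∈ Subgroup.closure {g : GL D.Idx F | ∃ (r : ℕ) (t : F),
          (D.IsPosRoot r ∨ D.InRootSub J r) ∧ (g : Matrix D.Idx D.Idx F) = D.x F r t} :=
        fun a => Subgroup.subset_closure ⟨_, a, Or.inl (simple_pos D hD j hj), rfl⟩
      have h2 : ∀ a : F, xGL D hD F (D.neg (D.simple j)) (std_neg_lt D hD _ hp) a ∈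
          Subgroup.closure {g : GL D.Idx F | ∃ (r : ℕ) (t : F),
          (D.IsPosRoot r ∨ D.InRootSub J r) ∧ (g : Matrix D.Idx D.Idx F) = D.x F r t} :=
        fun a => Subgroup.subset_closure
          ⟨_, a, Or.inr (inRootSub_neg D hD J _ (inRootSub_simple D hD J j hj hjJ)), rfl⟩
      exact mul_mem (mul_mem (h1 1) (h2 (-1))) (h1 1)
  · refine sup_le (le_trans (diagonal_le_borel D) (borel_le_parabolic D J)) ?_
    rw [Subgroup.closure_le]
    rintro g ⟨r, t, hr, hg⟩
    rcases hr with hr | hr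
    · have hg' : g = xGL D hD F r hr.1 t := Units.ext hg
      rw [hg']
      exact borel_le_parabolic D J (xGL_pos_mem_borel D hD r hr t)
    · have hg' : g = xGL D hD F r hr.1 t := Units.ext hg
      rw [hg']
      exact xGL_mem_parabolic D hD J r hr t

end Cfsg.Agent.Helper8
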