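import Cfsg.Agent.Helper8.Par3

set_option autoImplicit false

namespace Cfsg.Agent.Helper8

open Cfsg.Lie

/-! ### The level of the terms of the commutator formula -/

theorem chainRoot_coeff (D : ChevalleyDatum) (r s i k : ℕ) (h : D.chainRoot r s i = some k) (hi : 1 ≤ i) :
    ∃ m : ℤ, (i, m) ∈ D.chainCoeff r s k := by
  unfold ChevalleyDatum.chainRoot at h
  rw [Option.map_eq_some_iff] at h
  obtain ⟨p, hp, rfl⟩ := h
  unfold ChevalleyDatum.chainEntry at hp
  split at hp
  · simp at hp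
  · rename_i e he
    have hmem := List.mem_of_find?_eq_some he
    have hes : e.1 = s := by simpa using List.find?_some he
    refine ⟨p.2, ?_⟩
    unfold ChevalleyDatum.chainCoeff
    simp only [List.mem_flatMap, List.mem_filter, List.mem_map, decide_eq_true_eq]
    refine ⟨e, ⟨hmem, hes⟩, (p, i - 1), ⟨?_, rfl⟩, ?_⟩
    · rw [List.mem_zipIdx_iff_getElem?]
      exact hp
    · show (i - 1 + 1, p.2) = (i, p.2)
      rw [Nat.sub_add_cancel hi]

theorem chainRoot_lv (D : ChevalleyDatum) (hD : Std7 D) (J : Set ℕ) (r s i k : ℕ) (hr : r < D.nroots)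
    (h : D.chainRoot r s i = some k) (hi : 1 ≤ i) : lvJ D J k = (i : ℤ) * lvJ D J r + lvJ D J s := by
  obtain ⟨m, hm⟩ := chainRoot_coeff D r s i k h hi
  exact lvJ_chain D hD J r hr s k (i, m) hm

theorem chainRoot_lt (D : ChevalleyDatum) (hD : Std7 D) (r s i k : ℕ) (hr : r < D.nroots) (hs : s < D.nroots)
    (h : D.chainRoot r s i = some k) : k < D.nroots := by
  obtain ⟨q, hq, rfl⟩ := chainRoot_mem D r s i k h
  exact (chainEntry_refl D hD 0 (rank_pos_all D hD) r s hr hs).2 q hq

/-- The level is additive on the terms of the commutator formula. -/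
theorem commTerms_lv (D : ChevalleyDatum) (hD : Std7 D) (J : Set ℕ) (r s : ℕ) (hr : r < D.nroots)
    (hs : s < D.nroots) : ∀ c ∈ D.commTerms r s, c.1 < D.nroots ∧
      ∃ i j : ℕ, 1 ≤ i ∧ 1 ≤ j ∧ lvJ D J c.1 = (i : ℤ) * lvJ D J r + (j : ℤ) * lvJ D J s := by
  intro c hc
  unfold ChevalleyDatum.commTerms at hc
  simp only [List.mem_filterMap, List.mem_cons, List.mem_nil_iff, or_false, Option.map_eq_some_iff] at hc
  obtain ⟨cand, hcand, k, hk, rfl⟩ := hc
  rcases hcand with rfl | rfl | rfl | rfl | rfl | rfl | rfl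
  · refine ⟨chainRoot_lt D hD r s 1 k hr hs hk, 1, 1, le_refl _, le_refl _, ?_⟩
    rw [chainRoot_lv D hD J r s 1 k hr hk (le_refl _)]
    push_cast
    ring
  · refine ⟨chainRoot_lt D hD r s 2 k hr hs hk, 2, 1, by norm_num, le_refl _, ?_⟩
    rw [chainRoot_lv D hD J r s 2 k hr hk (by norm_num)]
    push_cast
    ring
  · refine ⟨chainRoot_lt D hD s r 2 k hs hr hk, 1, 2, le_refl _, by norm_num, ?_⟩
    rw [chainRoot_lv D hD J s r 2 k hs hk (by norm_num)]
    push_cast
    ring
  · refine ⟨chainRoot_lt D hD r s 3 k hr hs hk, 3, 1, by norm_num, le_refl _, ?_⟩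
    rw [chainRoot_lv D hD J r s 3 k hr hk (by norm_num)]
    push_cast
    ring
  · refine ⟨chainRoot_lt D hD s r 3 k hs hr hk, 1, 3, le_refl _, by norm_num, ?_⟩
    rw [chainRoot_lv D hD J s r 3 k hs hk (by norm_num)]
    push_cast
    ring
  · simp only [Option.bind_eq_some_iff] at hk
    obtain ⟨k', hk', hk2⟩ := hk
    have hk'lt := chainRoot_lt D hD r s 3 k' hr hs hk'
    refine ⟨chainRoot_lt D hD k' s 1 k hk'lt hs hk2, 3, 2, by norm_num, by norm_num, ?_⟩
    rw [chainRoot_lv D hD J k' s 1 k hk'lt hk2 (le_refl _), chainRoot_lv D hD J r s 3 k' hr hk' (by norm_num)]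
    push_cast
    ring
  · simp only [Option.bind_eq_some_iff] at hk
    obtain ⟨k', hk', hk2⟩ := hk
    have hk'lt := chainRoot_lt D hD s r 3 k' hs hr hk'
    refine ⟨chainRoot_lt D hD k' r 1 k hk'lt hr hk2, 2, 3, by norm_num, by norm_num, ?_⟩
    rw [chainRoot_lv D hD J k' r 1 k hk'lt hk2 (le_refl _), chainRoot_lv D hD J s r 3 k' hs hk' (by norm_num)]
    push_cast
    ring

/-! ### Normalisers of generated subgroups -/

theorem conj_mem_closure {G : Type*} [Group G] (S : Set G) (g : G)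
    (h : ∀ s ∈ S, g * s * g⁻¹ ∈ Subgroup.closure S) :
    ∀ x ∈ Subgroup.closure S, g * x * g⁻¹ ∈ Subgroup.closure S := by
  intro x hx
  induction hx using Subgroup.closure_induction with
  | mem s hs => exact h s hs
  | one => simp
  | mul a b _ _ iha ihb =>
    have e : g * (a * b) * g⁻¹ = (g * a * g⁻¹) * (g * b * g⁻¹) := by group
    rw [e]
    exact mul_mem iha ihb
  | inv a _ iha =>
    have e : g * a⁻¹ * g⁻¹ = (g * a * g⁻¹)⁻¹ := by group
    rw [e]
    exact inv_mem iha

theorem mem_normalizer_closure {G : Type*} [Group G] (S : Set G) (g : G)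
    (h1 : ∀ s ∈ S, g * s * g⁻¹ ∈ Subgroup.closure S) (h2 : ∀ s ∈ S, g⁻¹ * s * g ∈ Subgroup.closure S) :
    g ∈ Subgroup.normalizer (Subgroup.closure S : Set G) := by
  rw [Subgroup.mem_normalizer_iff]
  intro x
  constructor
  · exact conj_mem_closure S g h1 x
  · intro hx
    have h3 := conj_mem_closure S g⁻¹ (fun s hs => by rw [inv_inv]; exact h2 s hs) _ hx
    rw [inv_inv] at h3
    have e : g⁻¹ * (g * x * g⁻¹) * g = x := by group
    rwa [e] at h3

/-! ### `P_J` normalises `U_J` -/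

variable {F : Type*} [Field F]

theorem xGL_mem_radical (D : ChevalleyDatum) (hD : Std7 D) (J : Set ℕ) (r : ℕ) (hr : D.IsPosRoot r)
    (hJ : ¬ D.InRootSub J r) (t : F) : xGL D hD F r hr.1 t ∈ D.unipotentRadical F J :=
  Subgroup.subset_closure ⟨r, t, hr, hJ, rfl⟩

theorem xGL_mem_radical_of_lv (D : ChevalleyDatum) (hD : Std7 D) (J : Set ℕ) (r : ℕ) (hr : r < D.nroots)
    (h : 0 < lvJ D J r) (t : F) : xGL D hD F r hr t ∈ D.unipotentRadical F J :=
  xGL_mem_radical D hD J r (pos_of_lvJ_pos D hD J r hr h).1 (pos_of_lvJ_pos D hD J r hr h).2 t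

theorem wordMat_mem_radical (D : ChevalleyDatum) (hD : Std7 D) (J : Set ℕ) (w : List (ℕ × F))
    (h : ∀ p ∈ w, p.1 < D.nroots ∧ 0 < lvJ D J p.1) :
    ∃ g ∈ D.unipotentRadical F J, (g : Matrix D.Idx D.Idx F) = D.wordMat F w := by
  induction w with
  | nil => exact ⟨1, one_mem _, rfl⟩
  | cons p w ih =>
    obtain ⟨g, hg, hv⟩ := ih (fun q hq => h q (List.mem_cons_of_mem _ hq))
    obtain ⟨hp, hlv⟩ := h p List.mem_cons_self
    refine ⟨xGL D hD F p.1 hp p.2 * g, mul_mem (xGL_mem_radical_of_lv D hD J p.1 hp hlv p.2) hg, ?_⟩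
    rw [wordMat_cons, Units.val_mul, hv]
    rfl

theorem xGL_inv (D : ChevalleyDatum) (hD : Std7 D) (r : ℕ) (hr : r < D.nroots) (t : F) :
    (xGL D hD F r hr t)⁻¹ = xGL D hD F r hr (-t) := by
  apply Units.ext
  show D.x F r (-t) = D.x F r (-t)
  rfl

/-- Conjugation of a root element of `U_J` by a positive root element. -/
theorem radical_conj_x (D : ChevalleyDatum) (hD : Std7 D) (J : Set ℕ) (r : ℕ) (hr : D.IsPosRoot r) (u : F) (s : ℕ)
    (hs : D.IsPosRoot s) (hsJ : ¬ D.InRootSub J s) (t : F) :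
    (xGL D hD F r hr.1 u)⁻¹ * xGL D hD F s hs.1 t * xGL D hD F r hr.1 u ∈ D.unipotentRadical F J := by
  by_cases hrs : s = r
  · subst hrs
    have e : (xGL D hD F s hr.1 u)⁻¹ * xGL D hD F s hs.1 t * xGL D hD F s hr.1 u = xGL D hD F s hs.1 t := by
      rw [xGL_inv]
      apply Units.ext
      show D.x F s (-u) * D.x F s t * D.x F s u = D.x F s t
      rw [Cfsg.Agent.S1023.result D hD s hs.1, Cfsg.Agent.S1023.result D hD s hs.1]
      congr 1
      ring
    rw [e]
    exact xGL_mem_radical D hD J s hs hsJ t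
  · have hneg : s ≠ D.neg r := by
      intro e
      exact pos_neg_excl D hD s hs (e ▸ (neg_swap D hD r hr.1).1 hr)
    have hcomm := comm_all D hD r s hr.1 hs.1 hrs hneg (F := F) u t
    have hlvs := lvJ_pos D hD J s hs hsJ
    have hlvr := lvJ_nonneg D hD J r hr
    obtain ⟨g, hg, hv⟩ := wordMat_mem_radical D hD J (D.commWord F r s u t) (F := F) (by
      intro p hp
      unfold ChevalleyDatum.commWord at hp
      rw [List.mem_map] at hp
      obtain ⟨c, hc, rfl⟩ := hp
      obtain ⟨hlt, i, j, hi, hj, e⟩ := commTerms_lv D hD J r s hr.1 hs.1 c hc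
      refine ⟨hlt, ?_⟩
      show 0 < lvJ D J c.1
      rw [e]
      have h1 : (0 : ℤ) ≤ (i : ℤ) * lvJ D J r := mul_nonneg (by positivity) hlvr
      have h2 : (0 : ℤ) < (j : ℤ) * lvJ D J s := mul_pos (by exact_mod_cast hj) hlvs
      omega)
    have e : xGL D hD F s hs.1 t * xGL D hD F r hr.1 u = xGL D hD F r hr.1 u * (xGL D hD F s hs.1 t * g) := by
      apply Units.ext
      rw [Units.val_mul, Units.val_mul, Units.val_mul, hv, ← mul_assoc]
      exact hcomm
    have e2 : (xGL D hD F r hr.1 u)⁻¹ * xGL D hD F s hs.1 t * xGL D hD F r hr.1 u = xGL D hD F s hs.1 t * g := by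
      rw [mul_assoc, e, inv_mul_cancel_left]
    rw [e2]
    exact mul_mem (xGL_mem_radical D hD J s hs hsJ t) hg

theorem x_mem_normalizer_radical (D : ChevalleyDatum) (hD : Std7 D) (J : Set ℕ) (r : ℕ) (hr : D.IsPosRoot r) (u : F) :
    xGL D hD F r hr.1 u ∈ Subgroup.normalizer (D.unipotentRadical F J : Set (GL D.Idx F)) := by
  unfold ChevalleyDatum.unipotentRadical
  apply mem_normalizer_closure
  · rintro g ⟨s, t, hs, hsJ, hg⟩
    have hg' : g = xGL D hD F s hs.1 t := Units.ext hg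
    have h := radical_conj_x D hD J r hr (-u) s hs hsJ t
    rw [← xGL_inv, inv_inv] at h
    rw [hg']
    exact h
  · rintro g ⟨s, t, hs, hsJ, hg⟩
    have hg' : g = xGL D hD F s hs.1 t := Units.ext hg
    rw [hg']
    exact radical_conj_x D hD J r hr u s hs hsJ t

theorem diag_mem_normalizer_radical (D : ChevalleyDatum) (hD : Std7 D) (J : Set ℕ) (h : GL D.Idx F)
    (hh : h ∈ D.diagonalSubgroup F) : h ∈ Subgroup.normalizer (D.unipotentRadical F J : Set (GL D.Idx F)) := by
  have key : ∀ h' : GL D.Idx F, h' ∈ D.diagonalSubgroup F → ∀ (s : ℕ) (hs : D.IsPosRoot s), ¬ D.InRootSub J s →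
      ∀ t : F, h' * xGL D hD F s hs.1 t * h'⁻¹ ∈ D.unipotentRadical F J := by
    intro h' hh' s hs hsJ t
    obtain ⟨c, hc, hv⟩ := diagonalSubgroup_le_hsGroup D hD hh'
    have e : h' * xGL D hD F s hs.1 t = xGL D hD F s hs.1 (dOf D c s * t) * h' := by
      apply Units.ext
      rw [Units.val_mul, Units.val_mul, hv]
      exact hProd_x_comm D hD c hc s hs.1 t
    rw [e, mul_inv_cancel_right]
    exact xGL_mem_radical D hD J s hs hsJ _
  unfold ChevalleyDatum.unipotentRadical
  apply mem_normalizer_closure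
  · rintro g ⟨s, t, hs, hsJ, hg⟩
    have hg' : g = xGL D hD F s hs.1 t := Units.ext hg
    rw [hg']
    exact key h hh s hs hsJ t
  · rintro g ⟨s, t, hs, hsJ, hg⟩
    have hg' : g = xGL D hD F s hs.1 t := Units.ext hg
    rw [hg']
    have := key h⁻¹ (inv_mem hh) s hs hsJ t
    rwa [inv_inv] at this

theorem n_mem_normalizer_radical (D : ChevalleyDatum) (hD : Std7 D) (J : Set ℕ) (j : ℕ) (hj : j < D.rank)
    (hjJ : j ∈ J) : nGL D F (D.simple j) ∈ Subgroup.normalizer (D.unipotentRadical F J : Set (GL D.Idx F)) := by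
  have hp := std_simple_lt D hD j hj
  have hrefl : ∀ (s : ℕ) (hs : D.IsPosRoot s), ¬ D.InRootSub J s →
      0 < lvJ D J (D.reflectRoot j s) := by
    intro s hs hsJ
    rw [lvJ_refl D hD J j hj hjJ s hs.1]
    exact lvJ_pos D hD J s hs hsJ
  unfold ChevalleyDatum.unipotentRadical
  apply mem_normalizer_closure
  · rintro g ⟨s, t, hs, hsJ, hg⟩
    have hg' : g = xGL D hD F s hs.1 t := Units.ext hg
    rw [hg']
    have hlt := (reflectRoot_invol D hD j hj s hs.1).1
    have e : nGL D F (D.simple j) * xGL D hD F s hs.1 t =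
        xGL D hD F (D.reflectRoot j s) hlt (((etaOf D j s : ℤ) : F) * t) * nGL D F (D.simple j) := by
      apply Units.ext
      rw [Units.val_mul, Units.val_mul, nGL_val D hD F _ hp]
      exact nconj_all D hD j hj s hs.1 t
    rw [e, mul_inv_cancel_right]
    exact xGL_mem_radical_of_lv D hD J _ hlt (hrefl s hs hsJ) _
  · rintro g ⟨s, t, hs, hsJ, hg⟩
    have hg' : g = xGL D hD F s hs.1 t := Units.ext hg
    rw [hg']
    have hlt := (reflectRoot_invol D hD j hj s hs.1).1
    obtain ⟨σ, hσ⟩ := nact_n D hD j hj (F := F)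
    -- use the explicit formula instead of the abstract action
    have h1 := nconj_all D hD j hj _ hlt (((etaOf D j (D.reflectRoot j s) : ℤ) : F) * t) (F := F)
    rw [(reflectRoot_invol D hD j hj s hs.1).2] at h1
    have hηη : ((etaOf D j (D.reflectRoot j s) : ℤ) : F) * (((etaOf D j (D.reflectRoot j s) : ℤ) : F) * t) = t := by
      rcases etaOf_cases D j (D.reflectRoot j s) with h2 | h2 <;> simp [h2]
    rw [hηη] at h1
    have e : nGL D F (D.simple j) * xGL D hD F (D.reflectRoot j s) hlt (((etaOf D j (D.reflectRoot j s) : ℤ) : F) * t) =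
        xGL D hD F s hs.1 t * nGL D F (D.simple j) := by
      apply Units.ext
      rw [Units.val_mul, Units.val_mul, nGL_val D hD F _ hp]
      exact h1
    have e2 : (nGL D F (D.simple j))⁻¹ * xGL D hD F s hs.1 t * nGL D F (D.simple j) =
        xGL D hD F (D.reflectRoot j s) hlt (((etaOf D j (D.reflectRoot j s) : ℤ) : F) * t) := by
      rw [mul_assoc, ← e, inv_mul_cancel_left]
    rw [e2]
    exact xGL_mem_radical_of_lv D hD J _ hlt (hrefl s hs hsJ) _

/-- `P_J` normalises `U_J`. -/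
theorem parabolic_le_normalizer (D : ChevalleyDatum) (hD : Std7 D) (J : Set ℕ) :
    D.parabolicSubgroup F J ≤ Subgroup.normalizer (D.unipotentRadical F J : Set (GL D.Idx F)) := by
  unfold ChevalleyDatum.parabolicSubgroup ChevalleyDatum.borelSubgroup
  refine sup_le (sup_le ?_ ?_) ?_
  · unfold ChevalleyDatum.posUnipotent
    rw [Subgroup.closure_le]
    rintro g ⟨r, t, hr, hg⟩
    have hg' : g = xGL D hD F r hr.1 t := Units.ext hg
    rw [hg']
    exact x_mem_normalizer_radical D hD J r hr t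
  · intro h hh
    exact diag_mem_normalizer_radical D hD J h hh
  · rw [Subgroup.closure_le]
    rintro g ⟨j, hjJ, hj, hg⟩
    have hg' : g = nGL D F (D.simple j) := Units.ext (by rw [hg, nGL_val D hD F _ (std_simple_lt D hD j hj)])
    rw [hg']
    exact n_mem_normalizer_radical D hD J j hj hjJ

end Cfsg.Agent.Helper8
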