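import Cfsg.Agent.Helper8.Par4

set_option autoImplicit false

namespace Cfsg.Agent.Helper8

open Cfsg.Lie

variable {F : Type*} [Field F]

/-! ### The level grading of the adjoint module -/

/-- The level of a basis vector: `0` on the Cartan part, the level of the root on `e_s`. -/
noncomputable def lvI (D : ChevalleyDatum) (J : Set ℕ) : D.Idx → ℤ :=
  Sum.elim (fun _ => 0) (fun s => lvJ D J s.val)

/-- A non-zero entry of `x_r(t) - 1` raises the level by a positive multiple of the level of `r`. -/
theorem x_entry (D : ChevalleyDatum) (hD : Std7 D) (J : Set ℕ) (r : ℕ) (hrn : r < D.nroots) (t : F) (a b : D.Idx)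
    (hab : (D.x F r t - 1) a b ≠ 0) :
    ∃ k : ℕ, 1 ≤ k ∧ lvI D J a = lvI D J b + (k : ℤ) * lvJ D J r := by
  rw [ChevalleyDatum.x, dif_pos hrn] at hab
  rw [Matrix.sub_apply] at hab
  rcases b with i | s
  · rcases a with i' | u
    · exfalso; apply hab
      simp only [ChevalleyDatum.xMat, Matrix.of_apply]
      by_cases hii : i' = i
      · subst hii; simp
      · have : (Sum.inl i' : D.Idx) ≠ Sum.inl i := fun hh => hii (Sum.inl.inj hh)
        simp [hii, Matrix.one_apply_ne this]
    · simp only [ChevalleyDatum.xMat, Matrix.of_apply] at hab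
      have hne : (Sum.inr u : D.Idx) ≠ Sum.inl i := fun hh => by cases hh
      rw [Matrix.one_apply_ne hne, sub_zero] at hab
      by_cases hu : u = ⟨r, hrn⟩
      · subst hu
        refine ⟨1, le_refl _, ?_⟩
        simp only [lvI, Sum.elim_inl, Sum.elim_inr]
        push_cast
        ring
      · simp [hu] at hab
  · by_cases hs : s = ⟨r, hrn⟩
    · exfalso; apply hab
      subst hs
      rcases a with i' | u
      · have hne : (Sum.inl i' : D.Idx) ≠ Sum.inr ⟨r, hrn⟩ := fun hh => by cases hh
        simp [ChevalleyDatum.xMat, Matrix.one_apply_ne hne]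
      · by_cases hu : u = ⟨r, hrn⟩
        · subst hu; simp [ChevalleyDatum.xMat]
        · have hne : (Sum.inr u : D.Idx) ≠ Sum.inr ⟨r, hrn⟩ := fun hh => hu (Sum.inr.inj hh)
          simp [ChevalleyDatum.xMat, hu, Matrix.one_apply_ne hne]
    · by_cases hneg : s.val = D.negIdx.getD r 0
      · have hsneg : s.val = D.neg r := hneg
        rcases a with i' | u
        · refine ⟨1, le_refl _, ?_⟩
          simp only [lvI, Sum.elim_inl, Sum.elim_inr]
          rw [hsneg, lvJ_neg D hD J r hrn]
          push_cast
          ring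
        · have hneg' : (s : ℕ) = D.negIdx.getD (↑(⟨r, hrn⟩ : Fin D.nroots)) 0 := hneg
          simp only [ChevalleyDatum.xMat, Matrix.of_apply, if_neg hs, if_pos hneg'] at hab
          by_cases hu : u = s
          · exfalso; apply hab; subst hu; simp
          · have hne : (Sum.inr u : D.Idx) ≠ Sum.inr s := fun hh => hu (Sum.inr.inj hh)
            rw [Matrix.one_apply_ne hne, sub_zero, if_neg hu] at hab
            by_cases hu2 : u = ⟨r, hrn⟩
            · subst hu2
              refine ⟨2, by norm_num, ?_⟩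
              simp only [lvI, Sum.elim_inr]
              rw [hsneg, lvJ_neg D hD J r hrn]
              push_cast
              ring
            · simp [hu2] at hab
      · have hneg' : ¬ (s : ℕ) = D.negIdx.getD (↑(⟨r, hrn⟩ : Fin D.nroots)) 0 := hneg
        rcases a with i' | u
        · exfalso; apply hab
          have hne : (Sum.inl i' : D.Idx) ≠ Sum.inr s := fun hh => by cases hh
          simp only [ChevalleyDatum.xMat, Matrix.of_apply, if_neg hs, if_neg hneg', Matrix.one_apply_ne hne, sub_zero]
        · simp only [ChevalleyDatum.xMat, Matrix.of_apply, if_neg hs, if_neg hneg'] at hab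
          have hsum : ((D.chainCoeff r s.val u.val).map fun km => ((km.2 : ℤ) : F) * t ^ km.1).sum ≠ 0 := by
            intro h0
            apply hab
            rw [h0, add_zero]
            by_cases hu : u = s
            · subst hu; simp
            · have hne : (Sum.inr u : D.Idx) ≠ Sum.inr s := fun hh => hu (Sum.inr.inj hh)
              simp [hu, Matrix.one_apply_ne hne]
          have hne : D.chainCoeff r s.val u.val ≠ [] := by
            intro h0; apply hsum; rw [h0]; simp
          obtain ⟨km, hkm⟩ := List.exists_mem_of_ne_nil _ hne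
          obtain ⟨e, he1, he2, q, hq1, hq2, hq3⟩ := chainCoeff_mem D r s.val u.val km hkm
          refine ⟨km.1, by rw [hq3]; exact Nat.le_add_left 1 _, ?_⟩
          simp only [lvI, Sum.elim_inr]
          rw [lvJ_chain D hD J r hrn s.val u.val km hkm]
          ring

/-- The entries of `x_r(t)` for a root `r` of level `0` preserve the level. -/
theorem x_entry_zero (D : ChevalleyDatum) (hD : Std7 D) (J : Set ℕ) (r : ℕ) (hrn : r < D.nroots)
    (hlv : lvJ D J r = 0) (t : F) (a b : D.Idx) (hab : D.x F r t a b ≠ 0) : lvI D J a = lvI D J b := by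
  by_cases e : a = b
  · rw [e]
  · have h1 : (D.x F r t - 1) a b ≠ 0 := by
      rw [Matrix.sub_apply, Matrix.one_apply_ne e, sub_zero]
      exact hab
    obtain ⟨k, -, hk⟩ := x_entry D hD J r hrn t a b h1
    rw [hk, hlv, mul_zero, add_zero]

/-! ### Block diagonal matrices -/

/-- The invertible matrices which, with their inverses, preserve the grading `f`. -/
def bdGroup {ι : Type*} [Fintype ι] [DecidableEq ι] (f : ι → ℤ) (F : Type*) [Field F] : Subgroup (GL ι F) where
  carrier := {g | (∀ a b, (g : Matrix ι ι F) a b ≠ 0 → f a = f b) ∧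
    (∀ a b, ((g⁻¹ : GL ι F) : Matrix ι ι F) a b ≠ 0 → f a = f b)}
  one_mem' := by
    have h : ∀ a b, ((1 : GL ι F) : Matrix ι ι F) a b ≠ 0 → f a = f b := by
      intro a b hab
      by_cases e : a = b
      · rw [e]
      · exact absurd (by rw [Units.val_one, Matrix.one_apply_ne e]) hab
    exact ⟨h, by rw [inv_one]; exact h⟩
  mul_mem' := by
    rintro g h ⟨hg, hg'⟩ ⟨hh, hh'⟩
    constructor
    · intro a b hab
      rw [Units.val_mul, Matrix.mul_apply] at hab
      obtain ⟨c, -, hc⟩ := Finset.exists_ne_zero_of_sum_ne_zero hab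
      exact (hg a c (left_ne_zero_of_mul hc)).trans (hh c b (right_ne_zero_of_mul hc))
    · intro a b hab
      rw [mul_inv_rev, Units.val_mul, Matrix.mul_apply] at hab
      obtain ⟨c, -, hc⟩ := Finset.exists_ne_zero_of_sum_ne_zero hab
      exact (hh' a c (left_ne_zero_of_mul hc)).trans (hg' c b (right_ne_zero_of_mul hc))
  inv_mem' := by
    rintro g ⟨hg, hg'⟩
    exact ⟨hg', by rw [inv_inv]; exact hg⟩

theorem diag_entry (D : ChevalleyDatum) (hD : Std7 D) (h : GL D.Idx F) (hh : h ∈ D.diagonalSubgroup F) (a b : D.Idx)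
    (hab : (h : Matrix D.Idx D.Idx F) a b ≠ 0) : a = b := by
  obtain ⟨c, hc, hv⟩ := diagonalSubgroup_le_hsGroup D hD hh
  rw [hv, hProd_diag D hD c hc] at hab
  by_contra e
  exact hab (Matrix.diagonal_apply_ne _ e)

theorem levi_le_bdGroup (D : ChevalleyDatum) (hD : Std7 D) (J : Set ℕ) :
    D.leviSubgroup F J ≤ bdGroup (lvI D J) F := by
  unfold ChevalleyDatum.leviSubgroup
  refine sup_le ?_ ?_
  · intro h hh
    exact ⟨fun a b hab => by rw [diag_entry D hD h hh a b hab],
      fun a b hab => by rw [diag_entry D hD h⁻¹ (inv_mem hh) a b hab]⟩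
  · rw [Subgroup.closure_le]
    rintro g ⟨r, t, hr, hg⟩
    have hg' : g = xGL D hD F r hr.1 t := Units.ext hg
    have hlv := lvJ_inJ D hD J r hr
    constructor
    · intro a b hab
      rw [hg] at hab
      exact x_entry_zero D hD J r hr.1 hlv t a b hab
    · intro a b hab
      rw [hg', xGL_inv] at hab
      exact x_entry_zero D hD J r hr.1 hlv (-t) a b hab

/-! ### Block unitriangular matrices -/

/-- A bound for the levels. -/
noncomputable def lvBound (D : ChevalleyDatum) (J : Set ℕ) : ℤ := ∑ a : D.Idx, |lvI D J a|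

theorem lvBound_le (D : ChevalleyDatum) (J : Set ℕ) (a : D.Idx) : |lvI D J a| ≤ lvBound D J := by
  unfold lvBound
  exact Finset.single_le_sum (f := fun a => |lvI D J a|) (fun i _ => abs_nonneg _) (Finset.mem_univ a)

/-- The level, shifted to the natural numbers. -/
noncomputable def lvN (D : ChevalleyDatum) (J : Set ℕ) (a : D.Idx) : ℕ := (lvI D J a + lvBound D J).toNat

theorem lvN_lt (D : ChevalleyDatum) (J : Set ℕ) (a b : D.Idx) (h : lvI D J b + 1 ≤ lvI D J a) :
    lvN D J b + 1 ≤ lvN D J a := by
  unfold lvN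
  have h1 := lvBound_le D J a
  have h2 := lvBound_le D J b
  rw [abs_le] at h1 h2
  omega

theorem lvN_eq (D : ChevalleyDatum) (J : Set ℕ) (a b : D.Idx) (h : lvI D J a = lvI D J b) : lvN D J a = lvN D J b := by
  unfold lvN
  rw [h]

theorem radical_le_utGroup (D : ChevalleyDatum) (hD : Std7 D) (J : Set ℕ) :
    D.unipotentRadical F J ≤ utGroup (lvN D J) F 0 := by
  unfold ChevalleyDatum.unipotentRadical
  rw [Subgroup.closure_le]
  rintro g ⟨r, t, hr, hrJ, hg⟩
  show Deg (lvN D J) (0 + 1) ((g : Matrix D.Idx D.Idx F) - 1)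
  rw [hg]
  intro a b hab
  obtain ⟨k, hk, e⟩ := x_entry D hD J r hr.1 t a b hab
  have hlv := lvJ_pos D hD J r hr hrJ
  apply lvN_lt
  rw [e]
  have : (1 : ℤ) ≤ (k : ℤ) * lvJ D J r := by
    have hk' : (1 : ℤ) ≤ (k : ℤ) := by exact_mod_cast hk
    nlinarith
  omega

/-- `U_J ∩ L_J = 1`. -/
theorem radical_inf_levi (D : ChevalleyDatum) (hD : Std7 D) (J : Set ℕ) :
    D.unipotentRadical F J ⊓ D.leviSubgroup F J = ⊥ := by
  rw [eq_bot_iff]
  rintro g ⟨hgU, hgL⟩
  have h1 : Deg (lvN D J) (0 + 1) ((g : Matrix D.Idx D.Idx F) - 1) := radical_le_utGroup D hD J hgU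
  have h2 := (levi_le_bdGroup D hD J hgL).1
  rw [Subgroup.mem_bot]
  apply Units.ext
  ext a b
  rw [Units.val_one]
  by_cases e : a = b
  · subst e
    by_contra hne
    have h3 : ((g : Matrix D.Idx D.Idx F) - 1) a a ≠ 0 := by
      rw [Matrix.sub_apply]
      exact sub_ne_zero.mpr hne
    have := h1 a a h3
    omega
  · rw [Matrix.one_apply_ne e]
    by_contra hne
    have h3 : ((g : Matrix D.Idx D.Idx F) - 1) a b ≠ 0 := by
      rw [Matrix.sub_apply, Matrix.one_apply_ne e, sub_zero]
      exact hne
    have h4 := h1 a b h3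
    have h5 := lvN_eq D J a b (h2 a b hne)
    omega

/-- `U_J L_J = P_J`. -/
theorem radical_sup_levi (D : ChevalleyDatum) (hD : Std7 D) (J : Set ℕ) :
    D.unipotentRadical F J ⊔ D.leviSubgroup F J = D.parabolicSubgroup F J := by
  apply le_antisymm
  · refine sup_le ?_ ?_
    · unfold ChevalleyDatum.unipotentRadical
      rw [Subgroup.closure_le]
      rintro g ⟨r, t, hr, -, hg⟩
      have hg' : g = xGL D hD F r hr.1 t := Units.ext hg
      rw [hg']
      exact borel_le_parabolic D J (xGL_pos_mem_borel D hD r hr t)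
    · unfold ChevalleyDatum.leviSubgroup
      refine sup_le (le_trans (diagonal_le_borel D) (borel_le_parabolic D J)) ?_
      rw [Subgroup.closure_le]
      rintro g ⟨r, t, hr, hg⟩
      have hg' : g = xGL D hD F r hr.1 t := Units.ext hg
      rw [hg']
      exact xGL_mem_parabolic D hD J r hr t
  · rw [parabolic_eq D hD J]
    refine sup_le ?_ ?_
    · refine le_trans ?_ le_sup_right
      unfold ChevalleyDatum.leviSubgroup
      exact le_sup_left
    · rw [Subgroup.closure_le]
      rintro g ⟨r, t, hr, hg⟩
      by_cases hJ : D.InRootSub J r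
      · apply Subgroup.mem_sup_right
        unfold ChevalleyDatum.leviSubgroup
        apply Subgroup.mem_sup_right
        exact Subgroup.subset_closure ⟨r, t, hJ, hg⟩
      · rcases hr with hr | hr
        · apply Subgroup.mem_sup_left
          exact Subgroup.subset_closure ⟨r, t, hr, hJ, hg⟩
        · exact absurd hr hJ

end Cfsg.Agent.Helper8
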