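import Cfsg.Agent.Helper8.Tits1

set_option autoImplicit false

namespace Cfsg.Agent.Helper8

open Cfsg.Lie

variable {F : Type*} [Field F]

/-! ### Connectedness of the Dynkin diagram -/

/-- Adjacency of the fundamental roots `p_i`, `p_j`: `w_j w_i (p_j)` is a positive root. -/
def adjChk (D : ChevalleyDatum) (i j : ℕ) : Bool :=
  Nat.blt j D.rank && decide (D.IsPosRoot (D.reflectRoot j (D.reflectRoot i (D.simple j))))

/-- `a, l₁, l₂, …` is a walk in the adjacency graph. -/
def walkOK (D : ChevalleyDatum) : ℕ → List ℕ → Bool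
  | _, [] => true
  | a, b :: t => adjChk D a b && walkOK D b t

theorem walk_sound (D : ChevalleyDatum) (J : ℕ → Prop) (hJ : ∀ i j, J i → adjChk D i j = true → J j) :
    ∀ (l : List ℕ) (a : ℕ), walkOK D a l = true → J a → ∀ y ∈ l, J y
  | [], _, _, _ => by simp
  | b :: t, a, hw, ha => by
    rw [walkOK, Bool.and_eq_true] at hw
    have hb := hJ a b ha hw.1
    intro y hy
    rcases List.mem_cons.mp hy with rfl | hy
    · exact hb
    · exact walk_sound D J hJ t b hw.2 hb y hy

theorem walkOK_suffix (D : ChevalleyDatum) :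
    ∀ (l1 : List ℕ) (a y : ℕ) (l2 : List ℕ), walkOK D a (l1 ++ y :: l2) = true → walkOK D y l2 = true
  | [], a, y, l2, h => by
    rw [List.nil_append, walkOK, Bool.and_eq_true] at h
    exact h.2
  | b :: t, a, y, l2, h => by
    rw [List.cons_append, walkOK, Bool.and_eq_true] at h
    exact walkOK_suffix D t b y l2 h.2

/-- A set of nodes closed under adjacency and containing a node of a closed walk through all nodes is everything. -/
theorem conn_sound (D : ChevalleyDatum) (a : ℕ) (l : List ℕ) (hw : walkOK D a (l ++ a :: l) = true)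
    (hall : ∀ i, i < D.rank → i ∈ a :: l) (J : ℕ → Prop) (hJ : ∀ i j, J i → adjChk D i j = true → J j)
    (i0 : ℕ) (hi0 : i0 < D.rank) (h0 : J i0) : ∀ j, j < D.rank → J j := by
  have key : ∀ y ∈ a :: l, J y := by
    rcases List.mem_cons.mp (hall i0 hi0) with rfl | hmem
    · intro y hy
      refine walk_sound D J hJ _ _ hw h0 y ?_
      rw [List.mem_append]
      exact Or.inr hy
    · obtain ⟨l1, l2, rfl⟩ := List.append_of_mem hmem
      have hw' : walkOK D i0 (l2 ++ a :: (l1 ++ i0 :: l2)) = true := by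
        have e : (l1 ++ i0 :: l2) ++ a :: (l1 ++ i0 :: l2) = l1 ++ i0 :: (l2 ++ a :: (l1 ++ i0 :: l2)) := by simp
        rw [e] at hw
        exact walkOK_suffix D l1 a i0 _ hw
      intro y hy
      refine walk_sound D J hJ _ _ hw' h0 y ?_
      rw [List.mem_append]
      exact Or.inr hy
  intro j hj
  exact key j (hall j hj)

theorem conn_all (D : ChevalleyDatum) (hD : Std7 D) :
    ∃ (a : ℕ) (l : List ℕ), walkOK D a (l ++ a :: l) = true ∧ ∀ i, i < D.rank → i ∈ a :: l := by
  simp only [Std7, List.mem_cons, List.mem_nil_iff, or_false] at hD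
  rcases hD with rfl | rfl | rfl | rfl | rfl | rfl | rfl
  · exact ⟨0, [1], by decide +kernel, by decide⟩
  · exact ⟨0, [1], by decide +kernel, by decide⟩
  · exact ⟨0, [1, 2, 1, 3, 1], by decide +kernel, by decide⟩
  · exact ⟨0, [1, 2, 3, 2, 1], by decide +kernel, by decide⟩
  · exact ⟨0, [2, 3, 1, 3, 4, 5, 4, 3, 2], by decide +kernel, by decide⟩
  · exact ⟨0, [2, 3, 1, 3, 4, 5, 6, 5, 4, 3, 2], by decide +kernel, by decide⟩
  · exact ⟨0, [2, 3, 1, 3, 4, 5, 6, 7, 6, 5, 4, 3, 2], by decide +kernel, by decide⟩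

/-! ### Subgroups containing `B` -/

/-- If `P = K B ⊇ B` with `K` normalized by `n_j`, and `P` contains `n_i` with `p_i`, `p_j` adjacent, then `P`
contains `n_j`. -/
theorem tits_step (D : ChevalleyDatum) (hD : Std7 D) (K P : Subgroup (GL D.Idx F)) (hBP : D.borelSubgroup F ≤ P)
    (hKP : K ≤ P) (hP : ∀ g ∈ P, ∃ k ∈ K, ∃ b ∈ D.borelSubgroup F, g = k * b)
    (i j : ℕ) (hi : i < D.rank) (hj : j < D.rank)
    (hK : ∀ k ∈ K, nGL D F (D.simple j) * k * (nGL D F (D.simple j))⁻¹ ∈ K)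
    (hadj : D.IsPosRoot (D.reflectRoot j (D.reflectRoot i (D.simple j))))
    (hni : nGL D F (D.simple i) ∈ P) : nGL D F (D.simple j) ∈ P := by
  have hpi := std_simple_lt D hD i hi
  have hpj := std_simple_lt D hD j hj
  have hnpj := std_neg_lt D hD _ hpj
  have hUP : D.posUnipotent F ≤ P := le_trans (pos_le_borel D) hBP
  have hγ : D.rootSubgroup F (D.reflectRoot j (D.reflectRoot i (D.simple j))) ≤ P :=
    le_trans (rootSubgroup_le_pos D _ hadj) hUP
  have hri := (reflectRoot_invol D hD i hi _ hpj).1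
  have c1 : ∀ g ∈ D.rootSubgroup F (D.simple j), nGL D F (D.simple j) * (nGL D F (D.simple i) * g * (nGL D F (D.simple i))⁻¹) * (nGL D F (D.simple j))⁻¹ ∈ P := by
    intro g hg
    exact hγ (conj_simple_root D hD j hj _ hri _ (conj_simple_root D hD i hi _ hpj g hg).1).1
  have c2 : ∀ g ∈ D.rootSubgroup F (D.neg (D.simple j)),
      nGL D F (D.simple j) * ((nGL D F (D.simple i))⁻¹ * ((nGL D F (D.simple j))⁻¹ * g * nGL D F (D.simple j)) * nGL D F (D.simple i)) * (nGL D F (D.simple j))⁻¹ ∈ P := by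
    intro g hg
    have h1 := (conj_simple_root D hD j hj _ hnpj g hg).2
    have e : D.reflectRoot j (D.neg (D.simple j)) = D.simple j := by
      have h2 := (reflectRoot_invol D hD j hj _ hpj).2
      rwa [reflectRoot_simple] at h2
    rw [e] at h1
    exact hγ (conj_simple_root D hD j hj _ hri _ (conj_simple_root D hD i hi _ hpj _ h1).2).1
  have hm : nGL D F (D.simple j) * nGL D F (D.simple i) * (nGL D F (D.simple j))⁻¹ ∈ P := by
    obtain ⟨k, hk, b, hb, e⟩ := hP _ hni
    obtain ⟨u, hu, h, hh, huh⟩ := mem_borel D hD b⁻¹ (inv_mem hb)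
    obtain ⟨u', hu', t, hut⟩ := mem_pos_decomp D hD j hj u⁻¹ (inv_mem hu)
    have hk' : k = nGL D F (D.simple i) * ((xGL D hD F (D.simple j) hpj t)⁻¹ * u'⁻¹ * h) := by
      have e1 : k = nGL D F (D.simple i) * b⁻¹ := by rw [e]; group
      have e2 : u = (xGL D hD F (D.simple j) hpj t)⁻¹ * u'⁻¹ := by
        have e3 : u = (u⁻¹)⁻¹ := by group
        rw [e3, hut]
        group
      rw [e1, ← huh, e2]
    have hm' : nGL D F (D.simple j) * k * (nGL D F (D.simple j))⁻¹ ∈ P := hKP (hK k hk)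
    have hb2 : nGL D F (D.simple j) * (nGL D F (D.simple i) * (xGL D hD F (D.simple j) hpj t)⁻¹ * (nGL D F (D.simple i))⁻¹) * (nGL D F (D.simple j))⁻¹ ∈ P :=
      c1 _ (inv_mem (xGL_mem_rootSubgroup D hD _ hpj t))
    have hb3 : nGL D F (D.simple j) * u'⁻¹ * (nGL D F (D.simple j))⁻¹ ∈ P :=
      hBP (upGrp_le_borel D j (upGrp_conj D hD j hj (wPos_all D hD j hj) _ (inv_mem hu')))
    have hb4 : nGL D F (D.simple j) * h * (nGL D F (D.simple j))⁻¹ ∈ P :=
      hBP (diagonal_le_borel D (diag_conj_mem D hD _ h (nGL_mem D hD F _ hpj) hh))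
    have e3 : nGL D F (D.simple j) * nGL D F (D.simple i) * (nGL D F (D.simple j))⁻¹ = (nGL D F (D.simple j) * (nGL D F (D.simple i) * (xGL D hD F (D.simple j) hpj t)⁻¹ * (nGL D F (D.simple i))⁻¹) * (nGL D F (D.simple j))⁻¹)⁻¹ * (nGL D F (D.simple j) * k * (nGL D F (D.simple j))⁻¹) *
        ((nGL D F (D.simple j) * u'⁻¹ * (nGL D F (D.simple j))⁻¹) * (nGL D F (D.simple j) * h * (nGL D F (D.simple j))⁻¹))⁻¹ := by
      rw [hk']
      group
    rw [e3]
    exact mul_mem (mul_mem (inv_mem hb2) hm') (inv_mem (mul_mem hb3 hb4))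
  have hx : ∀ a : F, xGL D hD F (D.neg (D.simple j)) hnpj a ∈ P := by
    intro a
    have h1 := c2 _ (xGL_mem_rootSubgroup D hD _ hnpj a)
    have e : xGL D hD F (D.neg (D.simple j)) hnpj a = (nGL D F (D.simple j) * nGL D F (D.simple i) * (nGL D F (D.simple j))⁻¹) *
        (nGL D F (D.simple j) * ((nGL D F (D.simple i))⁻¹ * ((nGL D F (D.simple j))⁻¹ * xGL D hD F (D.neg (D.simple j)) hnpj a * nGL D F (D.simple j)) * nGL D F (D.simple i)) * (nGL D F (D.simple j))⁻¹) * (nGL D F (D.simple j) * nGL D F (D.simple i) * (nGL D F (D.simple j))⁻¹)⁻¹ := by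
      group
    rw [e]
    exact mul_mem (mul_mem hm h1) (inv_mem hm)
  rw [nGL_eq_prod D hD _ hpj]
  have h1 : xGL D hD F (D.simple j) hpj 1 ∈ P := hUP (Subgroup.subset_closure ⟨_, _, simple_pos D hD j hj, rfl⟩)
  exact mul_mem (mul_mem h1 (hx (-1))) h1

/-- `K B` for a subgroup `K` normalized by `B`. -/
def kbGrp {G : Type*} [Group G] (K B : Subgroup G) (h : ∀ b ∈ B, ∀ k ∈ K, b * k * b⁻¹ ∈ K) : Subgroup G where
  carrier := {g | ∃ k ∈ K, ∃ b ∈ B, g = k * b}
  one_mem' := ⟨1, one_mem _, 1, one_mem _, by simp⟩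
  mul_mem' := by
    rintro _ _ ⟨k, hk, b, hb, rfl⟩ ⟨k', hk', b', hb', rfl⟩
    exact ⟨k * (b * k' * b⁻¹), mul_mem hk (h b hb k' hk'), b * b', mul_mem hb hb', by group⟩
  inv_mem' := by
    rintro _ ⟨k, hk, b, hb, rfl⟩
    exact ⟨b⁻¹ * k⁻¹ * b⁻¹⁻¹, h b⁻¹ (inv_mem hb) k⁻¹ (inv_mem hk), b⁻¹, inv_mem hb, by group⟩

/-- A subgroup of `G` normalized by `G` lies in `B` or satisfies `G = K B`. -/
theorem tits_dichotomy (D : ChevalleyDatum) (hD : Std7 D) (K : Subgroup (GL D.Idx F)) (hKG : K ≤ D.group F)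
    (hK : ∀ g ∈ D.group F, ∀ k ∈ K, g * k * g⁻¹ ∈ K) :
    K ≤ D.borelSubgroup F ∨ ∀ g ∈ D.group F, ∃ k ∈ K, ∃ b ∈ D.borelSubgroup F, g = k * b := by
  obtain ⟨hBG, hNG, hsup⟩ := Cfsg.Agent.S1043.result D hD (F := F)
  have hKB : ∀ b ∈ D.borelSubgroup F, ∀ k ∈ K, b * k * b⁻¹ ∈ K := fun b hb k hk => hK b (hBG hb) k hk
  have hBP : D.borelSubgroup F ≤ kbGrp K (D.borelSubgroup F) hKB := fun b hb => ⟨1, one_mem _, b, hb, by simp⟩
  have hKP : K ≤ kbGrp K (D.borelSubgroup F) hKB := fun k hk => ⟨k, hk, 1, one_mem _, by simp⟩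
  by_cases hex : ∃ i, i < D.rank ∧ nGL D F (D.simple i) ∈ kbGrp K (D.borelSubgroup F) hKB
  · right
    obtain ⟨i0, hi0, hn0⟩ := hex
    obtain ⟨a, l, hw, hall⟩ := conn_all D hD
    have hJ : ∀ i j, (i < D.rank ∧ nGL D F (D.simple i) ∈ kbGrp K (D.borelSubgroup F) hKB) → adjChk D i j = true → (j < D.rank ∧ nGL D F (D.simple j) ∈ kbGrp K (D.borelSubgroup F) hKB) := by
      rintro i j ⟨hi, hni⟩ hadj
      unfold adjChk at hadj
      rw [Bool.and_eq_true] at hadj
      have hj : j < D.rank := by simpa [Nat.blt_eq] using hadj.1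
      refine ⟨hj, tits_step D hD K _ hBP hKP (fun g hg => hg) i j hi hj ?_ (of_decide_eq_true hadj.2) hni⟩
      intro k hk
      exact hK _ (hNG (nGL_mem D hD F _ (std_simple_lt D hD j hj))) k hk
    have hallJ := conn_sound D a l hw hall _ hJ i0 hi0 ⟨hi0, hn0⟩
    have hGP : D.group F ≤ kbGrp K (D.borelSubgroup F) hKB := by
      rw [← hsup, ← bn_closure_sup D hD]
      refine sup_le hBP (sup_le ?_ (le_trans (diagonal_le_borel D) hBP))
      rw [Subgroup.closure_le]
      rintro g ⟨i, hi, hg⟩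
      have e : g = nGL D F (D.simple i) := Units.ext (by rw [hg, nGL_val D hD F _ (std_simple_lt D hD i hi)])
      rw [e]
      exact (hallJ i hi).2
    intro g hg
    exact hGP hg
  · left
    intro k hk
    obtain ⟨b, hb, n, hn, b', hb', e⟩ := group_eq_bnb D hD k (hKG hk)
    have hnP : n ∈ kbGrp K (D.borelSubgroup F) hKB := by
      have e' : n = b⁻¹ * k * b'⁻¹ := by rw [e]; group
      rw [e']
      exact mul_mem (mul_mem (inv_mem (hBP hb)) (hKP hk)) (inv_mem (hBP hb'))
    have hnH : n ∈ D.diagonalSubgroup F := by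
      by_contra hnH
      exact hex (tits_base D hD _ hBP n hn hnP hnH)
    rw [e]
    exact mul_mem (mul_mem hb (diagonal_le_borel D hnH)) hb'

/-- Tits' simplicity criterion for the Chevalley groups: a perfect `G` in which `B` has trivial core is simple. -/
theorem chev_simple (D : ChevalleyDatum) (hD : Std7 D) (hperf : commutator ↥(D.group F) = ⊤)
    (hcore : ((D.borelSubgroup F).subgroupOf (D.group F)).normalCore = ⊥) :
    IsSimpleGroup ↥(D.group F) ∧ ¬ IsMulCommutative ↥(D.group F) := by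
  obtain ⟨hBG, hNG, hsup⟩ := Cfsg.Agent.S1043.result D hD (F := F)
  have hp := std_simple_lt D hD 0 (rank_pos_all D hD)
  haveI hnt : Nontrivial ↥(D.group F) := by
    refine ⟨⟨⟨xGL D hD F _ hp 1, xGL_mem_group D hD F _ hp 1⟩, 1, ?_⟩⟩
    intro h
    have h1 : xGL D hD F _ hp (1 : F) = 1 := congrArg Subtype.val h
    have h2 : D.x F (D.simple 0) 1 = 1 := congrArg Units.val h1
    exact one_ne_zero ((Cfsg.Agent.S1024.result D hD _ hp _).mp h2)
  constructor
  · refine ⟨fun K' hK' => ?_⟩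
    have hKG : K'.map (D.group F).subtype ≤ D.group F := Subgroup.map_subtype_le K'
    have hK : ∀ g ∈ D.group F, ∀ k ∈ K'.map (D.group F).subtype, g * k * g⁻¹ ∈ K'.map (D.group F).subtype := by
      rintro g hg _ ⟨k, hk, rfl⟩
      exact ⟨⟨g, hg⟩ * k * ⟨g, hg⟩⁻¹, hK'.conj_mem k hk ⟨g, hg⟩, rfl⟩
    rcases tits_dichotomy D hD _ hKG hK with h1 | h1
    · left
      rw [eq_bot_iff, ← hcore]
      haveI := hK'
      rw [Subgroup.normal_le_normalCore]
      intro x hx
      rw [Subgroup.mem_subgroupOf]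
      exact h1 ⟨x, hx, rfl⟩
    · right
      by_contra hne
      haveI := hK'
      haveI : Nontrivial (↥(D.group F) ⧸ K') := by
        rw [← not_subsingleton_iff_nontrivial]
        exact fun hs => hne (QuotientGroup.subgroup_eq_top_of_subsingleton K' hs)
      haveI : Group.IsSolvable ↥(D.borelSubgroup F) := borel_solvable D hD
      have hsurj : Function.Surjective ((QuotientGroup.mk' K').comp (Subgroup.inclusion hBG)) := by
        intro q
        induction q using QuotientGroup.induction_on with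
        | H g =>
          obtain ⟨_, ⟨k, hk, rfl⟩, b, hb, e⟩ := h1 g.1 g.2
          refine ⟨⟨b, hb⟩, ?_⟩
          have e' : g = k * Subgroup.inclusion hBG ⟨b, hb⟩ := Subtype.ext e
          have hk1 : QuotientGroup.mk' K' k = 1 := (QuotientGroup.eq_one_iff k).mpr hk
          show QuotientGroup.mk' K' (Subgroup.inclusion hBG ⟨b, hb⟩) = QuotientGroup.mk' K' g
          rw [e', map_mul, hk1, one_mul]
      haveI : Group.IsSolvable (↥(D.group F) ⧸ K') := Group.isSolvable_of_surjective hsurj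
      have hlt := Group.IsSolvable.commutator_lt_top_of_nontrivial (↥(D.group F) ⧸ K')
      have htop : commutator (↥(D.group F) ⧸ K') = ⊤ := by
        have h2 := map_commutator_eq _ (QuotientGroup.mk' K')
        rw [hperf, ← MonoidHom.range_eq_map, MonoidHom.range_eq_top.mpr (QuotientGroup.mk'_surjective K')] at h2
        rw [commutator_def]
        exact h2.symm
      exact (ne_of_lt hlt) htop
  · intro hcomm
    have h1 := (commutator_eq_bot_iff ↥(D.group F)).mpr hcomm
    rw [hperf] at h1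
    exact top_ne_bot h1

end Cfsg.Agent.Helper8
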