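import Cfsg.Agent.Helper8.Par5
import Cfsg.Agent.Helper8.Tits2

set_option autoImplicit false

namespace Cfsg.Agent.Helper8

open Cfsg.Lie

variable {F : Type*} [Field F]

/-! ### Subgroups containing `B` are generated by `B` and the `n_p` they contain -/

theorem posUnipotent_le_borel' (D : ChevalleyDatum) : D.posUnipotent F ≤ D.borelSubgroup F := by
  unfold ChevalleyDatum.borelSubgroup
  exact le_sup_left

/-- The monomial elements of a subgroup containing `B` lie in the subgroup generated by `B` and its `n_p`. -/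
theorem mono_in_gen (D : ChevalleyDatum) (hD : Std7 D) (Q : Subgroup (GL D.Idx F)) (hBQ : D.borelSubgroup F ≤ Q) :
    ∀ k : ℕ, ∀ n : GL D.Idx F, n ∈ Q → IsWordLen D F n k →
      n ∈ D.borelSubgroup F ⊔ Subgroup.closure {g : GL D.Idx F | ∃ j, j < D.rank ∧ nGL D F (D.simple j) ∈ Q ∧
        g = nGL D F (D.simple j)} := by
  intro k
  induction k using Nat.strong_induction_on with
  | _ k ih =>
  rintro n hnQ ⟨l, hlen, hl, h, hh, rfl⟩
  by_cases hnH : nProdGL D F l * h ∈ D.diagonalSubgroup F
  · exact Subgroup.mem_sup_left (diagonal_le_borel D hnH)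
  · have hnN : nProdGL D F l * h ∈ D.monomialSubgroup F := by
      refine mul_mem (nProdGL_mem D hD F l hl) ?_
      unfold ChevalleyDatum.monomialSubgroup
      exact Subgroup.mem_sup_left hh
    have hex : ∃ i, i < D.rank ∧ ToNeg D F (nProdGL D F l * h) (D.simple i) := by
      by_contra hno
      push Not at hno
      exact hnH (mem_diag_of_no_simple D hD _ hnN hno)
    obtain ⟨i, hi, htoneg⟩ := hex
    have hp := std_simple_lt D hD i hi
    have hmem : D.simple i ∈ negRootsOf D F (nProdGL D F l * h) := ⟨simple_pos D hD i hi, htoneg⟩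
    rw [negRootsOf_word D hD l hl h hh] at hmem
    have hneg : D.IsNegRoot (reflWord D l (D.simple i)) := hmem.2
    have hhQ : h ∈ Q := hBQ (diagonal_le_borel D hh)
    have hlQ : nProdGL D F l ∈ Q := by
      have e : nProdGL D F l = nProdGL D F l * h * h⁻¹ := by group
      rw [e]
      exact mul_mem hnQ (inv_mem hhQ)
    -- `n_i ∈ Q`
    have hnegp := std_neg_lt D hD _ hp
    have hposimg : D.IsPosRoot (reflWord D l (D.neg (D.simple i))) := by
      rw [reflWord_neg D hD l hl _ hp]
      exact (neg_swap D hD _ (reflWord_lt D hD l hl _ hp)).2 hneg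
    obtain ⟨c, hc0, hc⟩ := word_act1 D hD l hl (D.neg (D.simple i)) hnegp (F := F)
    have hxneg : ∀ a : F, xGL D hD F (D.neg (D.simple i)) hnegp a ∈ Q := by
      intro a
      have h1 : xGL D hD F (reflWord D l (D.neg (D.simple i))) (reflWord_lt D hD l hl _ hnegp) (c * a) ∈ Q :=
        hBQ (xGL_pos_mem_borel D hD _ hposimg _)
      rw [← hc a] at h1
      have e : xGL D hD F (D.neg (D.simple i)) hnegp a = (nProdGL D F l)⁻¹ *
          (nProdGL D F l * xGL D hD F (D.neg (D.simple i)) hnegp a * (nProdGL D F l)⁻¹) * nProdGL D F l := by group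
      rw [e]
      exact mul_mem (mul_mem (inv_mem hlQ) h1) hlQ
    have hxpos : ∀ a : F, xGL D hD F (D.simple i) hp a ∈ Q :=
      fun a => hBQ (xGL_pos_mem_borel D hD _ (simple_pos D hD i hi) a)
    have hniQ : nGL D F (D.simple i) ∈ Q := by
      rw [nGL_eq_prod D hD _ hp]
      exact mul_mem (mul_mem (hxpos 1) (hxneg (-1))) (hxpos 1)
    -- exchange
    obtain ⟨l', hlen', hl', h', hh', heq⟩ := exchange D hD i hi l hl hneg (F := F)
    have hn'Q : nProdGL D F l' * h' ∈ Q := by
      rw [← heq]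
      exact mul_mem hlQ hniQ
    have hIH := ih (k - 1) (by omega) (nProdGL D F l' * h') hn'Q ⟨l', by omega, hl', h', hh', rfl⟩
    have e : nProdGL D F l * h = nProdGL D F l' * h' * (nGL D F (D.simple i))⁻¹ * h := by
      rw [← heq]
      group
    rw [e]
    refine mul_mem (mul_mem hIH (inv_mem ?_)) (Subgroup.mem_sup_left (diagonal_le_borel D hh))
    exact Subgroup.mem_sup_right (Subgroup.subset_closure ⟨i, hi, hniQ, rfl⟩)

/-- A subgroup of `G` containing `B` is generated by `B` and the elements `n_p` it contains. -/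
theorem par_gen (D : ChevalleyDatum) (hD : Std7 D) (Q : Subgroup (GL D.Idx F)) (hBQ : D.borelSubgroup F ≤ Q)
    (hQG : Q ≤ D.group F) :
    Q ≤ D.borelSubgroup F ⊔ Subgroup.closure {g : GL D.Idx F | ∃ j, j < D.rank ∧ nGL D F (D.simple j) ∈ Q ∧
        g = nGL D F (D.simple j)} := by
  intro g hg
  obtain ⟨b, hb, n, hn, b', hb', rfl⟩ := group_eq_bnb D hD g (hQG hg)
  have hnQ : n ∈ Q := by
    have e : n = b⁻¹ * (b * n * b') * b'⁻¹ := by group
    rw [e]
    exact mul_mem (mul_mem (inv_mem (hBQ hb)) hg) (inv_mem (hBQ hb'))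
  obtain ⟨k, hk⟩ := monomial_word D hD n hn
  exact mul_mem (mul_mem (Subgroup.mem_sup_left hb) (mono_in_gen D hD Q hBQ k n hnQ hk)) (Subgroup.mem_sup_left hb')

/-! ### The normaliser of `U_J` -/

theorem radical_le_pos (D : ChevalleyDatum) (J : Set ℕ) : D.unipotentRadical F J ≤ D.posUnipotent F := by
  unfold ChevalleyDatum.unipotentRadical ChevalleyDatum.posUnipotent
  apply Subgroup.closure_mono
  rintro g ⟨r, t, hr, -, hg⟩
  exact ⟨r, t, hr, hg⟩

theorem n_not_normalizer (D : ChevalleyDatum) (hD : Std7 D) (J : Set ℕ) (j : ℕ) (hj : j < D.rank) (hjJ : j ∉ J) :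
    nGL D F (D.simple j) ∉ Subgroup.normalizer (D.unipotentRadical F J : Set (GL D.Idx F)) := by
  intro hmem
  have hp := std_simple_lt D hD j hj
  have hx : xGL D hD F (D.simple j) hp 1 ∈ D.unipotentRadical F J :=
    xGL_mem_radical D hD J _ (simple_pos D hD j hj) (not_inRootSub_simple D hD J j hj hjJ) 1
  have h1 := (Subgroup.mem_normalizer_iff.mp hmem _).mp hx
  have hlt := (reflectRoot_invol D hD j hj _ hp).1
  have e : nGL D F (D.simple j) * xGL D hD F (D.simple j) hp 1 =
      xGL D hD F (D.reflectRoot j (D.simple j)) hlt (((etaOf D j (D.simple j) : ℤ) : F) * 1) * nGL D F (D.simple j) := by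
    apply Units.ext
    rw [Units.val_mul, Units.val_mul, nGL_val D hD F _ hp]
    exact nconj_all D hD j hj _ hp 1
  rw [e, mul_inv_cancel_right] at h1
  have hnegroot : D.IsNegRoot (D.reflectRoot j (D.simple j)) := by
    rw [reflectRoot_simple]
    exact (neg_swap D hD _ hp).1 (simple_pos D hD j hj)
  have h2 : xGL D hD F (D.reflectRoot j (D.simple j)) hlt (((etaOf D j (D.simple j) : ℤ) : F) * 1) ∈
      D.borelSubgroup F ⊓ D.negUnipotent F :=
    ⟨posUnipotent_le_borel' D (radical_le_pos D J h1), Subgroup.subset_closure ⟨_, _, hnegroot, rfl⟩⟩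
  rw [borel_inf_neg D hD, Subgroup.mem_bot] at h2
  have h3 : xGL D hD F (D.reflectRoot j (D.simple j)) hlt (((etaOf D j (D.simple j) : ℤ) : F) * 1) =
      xGL D hD F (D.reflectRoot j (D.simple j)) hlt 0 := by
    rw [h2]
    apply Units.ext
    show (1 : Matrix D.Idx D.Idx F) = D.x F _ 0
    rw [x_zero]
  have h4 := xGL_inj D hD _ hlt _ _ h3
  rcases etaOf_cases D j (D.simple j) with h5 | h5 <;> simp [h5] at h4

/-- `N_G(U_J) = P_J`. -/
theorem normalizer_radical (D : ChevalleyDatum) (hD : Std7 D) (J : Set ℕ) :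
    Subgroup.normalizer (D.unipotentRadical F J : Set (GL D.Idx F)) ⊓ D.group F = D.parabolicSubgroup F J := by
  obtain ⟨hBG, hNG, -⟩ := Cfsg.Agent.S1043.result D hD (F := F)
  have hPG : D.parabolicSubgroup F J ≤ D.group F := by
    unfold ChevalleyDatum.parabolicSubgroup
    refine sup_le hBG ?_
    rw [Subgroup.closure_le]
    rintro g ⟨j, -, hj, hg⟩
    have hg' : g = nGL D F (D.simple j) := Units.ext (by rw [hg, nGL_val D hD F _ (std_simple_lt D hD j hj)])
    rw [hg']
    exact hNG (nGL_mem D hD F _ (std_simple_lt D hD j hj))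
  apply le_antisymm
  · refine le_trans (par_gen D hD _ (le_inf (le_trans (borel_le_parabolic D J) (parabolic_le_normalizer D hD J)) hBG)
      inf_le_right) ?_
    refine sup_le (borel_le_parabolic D J) ?_
    rw [Subgroup.closure_le]
    rintro g ⟨j, hj, hjQ, rfl⟩
    have hjJ : j ∈ J := by
      by_contra hjJ
      exact n_not_normalizer D hD J j hj hjJ hjQ.1
    exact nGL_mem_parabolic D hD J j hj hjJ
  · exact le_inf (parabolic_le_normalizer D hD J) hPG

end Cfsg.Agent.Helper8
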