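import Cfsg.Agent.Helper8.CommChk
import Cfsg.Agent.Helper8.HGen2

set_option autoImplicit false

namespace Cfsg.Agent.Helper8

open Cfsg.Lie
open scoped commutatorElement

variable {F : Type*} [Field F]

/-- The derived subgroup of the Chevalley group, inside `GL`. -/
def derG (D : ChevalleyDatum) (F : Type*) [Field F] : Subgroup (GL D.Idx F) := ⁅D.group F, D.group F⁆

theorem derG_le (D : ChevalleyDatum) : derG D F ≤ D.group F := by
  unfold derG
  rw [Subgroup.commutator_le]
  intro g₁ h₁ g₂ h₂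
  rw [commutatorElement_def]
  exact mul_mem (mul_mem (mul_mem h₁ h₂) (inv_mem h₁)) (inv_mem h₂)

theorem derG_conj (D : ChevalleyDatum) (n k : GL D.Idx F) (hn : n ∈ D.group F) (hk : k ∈ derG D F) :
    n * k * n⁻¹ ∈ derG D F := by
  have e : n * k * n⁻¹ = ⁅n, k⁆ * k := by rw [commutatorElement_def]; group
  rw [e]
  exact mul_mem (Subgroup.commutator_mem_commutator hn (derG_le D hk)) hk

/-- All elements `x_r(t)` of the root subgroup `X_r` lie in the derived subgroup. -/
def KGood (D : ChevalleyDatum) (F : Type*) [Field F] (r : ℕ) : Prop :=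
  ∀ (g : GL D.Idx F) (t : F), (g : Matrix D.Idx D.Idx F) = D.x F r t → g ∈ derG D F

theorem kgood_refl (D : ChevalleyDatum) (hD : Std7 D) (i : ℕ) (hi : i < D.rank) (s : ℕ) (hs : s < D.nroots)
    (h : KGood D F s) : KGood D F (D.reflectRoot i s) := by
  intro g t hg
  have hp := std_simple_lt D hD i hi
  have hc := nconj_all D hD i hi s hs (((etaOf D i s : ℤ) : F) * t)
  have hηη : ((etaOf D i s : ℤ) : F) * (((etaOf D i s : ℤ) : F) * t) = t := by
    rcases etaOf_cases D i s with h1 | h1 <;> simp [h1]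
  rw [hηη] at hc
  have hg0 := h (xGL D hD F s hs (((etaOf D i s : ℤ) : F) * t)) _ rfl
  have e : g = nGL D F (D.simple i) * xGL D hD F s hs (((etaOf D i s : ℤ) : F) * t) * (nGL D F (D.simple i))⁻¹ := by
    apply Units.ext
    rw [Units.val_mul, Units.val_mul, nGL_val D hD F _ hp]
    show _ = D.nMat F (D.simple i) 1 * D.x F s (((etaOf D i s : ℤ) : F) * t) * _
    rw [hc, ← nGL_val D hD F _ hp, mul_assoc, ← Units.val_mul, mul_inv_cancel, Units.val_one, mul_one, hg]
  rw [e]
  exact derG_conj D _ _ (monomialSubgroup_le_group D hD F (nGL_mem D hD F _ hp)) hg0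

theorem kgood_refl' (D : ChevalleyDatum) (hD : Std7 D) (i : ℕ) (hi : i < D.rank) (s : ℕ) (hs : s < D.nroots)
    (h : KGood D F (D.reflectRoot i s)) : KGood D F s := by
  have h1 := reflectRoot_invol D hD i hi s hs
  have h2 := kgood_refl D hD i hi _ h1.1 h
  rwa [h1.2] at h2

theorem kgood_all (D : ChevalleyDatum) (hD : Std7 D) (h : ∀ j, j < D.rank → KGood D F (D.simple j)) (r : ℕ)
    (hr : r < D.nroots) : KGood D F r := by
  obtain ⟨j, hj, l, hl, rfl⟩ := exists_reach D hD r hr
  clear hr
  induction l with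
  | nil => exact h j hj
  | cons i l ih =>
    have hl' : ∀ k ∈ l, k < D.rank := fun k hk => hl k (List.mem_cons_of_mem _ hk)
    rw [reflWord_cons]
    exact kgood_refl D hD i (hl i List.mem_cons_self) _ (reflWord_lt D hD l hl' _ (std_simple_lt D hD j hj)) (ih hl')

/-- If all simple root subgroups lie in the derived subgroup, the group is perfect. -/
theorem perfect_of_kgood (D : ChevalleyDatum) (hD : Std7 D) (h : ∀ j, j < D.rank → KGood D F (D.simple j)) :
    commutator ↥(D.group F) = ⊤ := by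
  have h1 : D.group F ≤ derG D F := by
    unfold ChevalleyDatum.group
    rw [Subgroup.closure_le]
    rintro g ⟨r, t, hg⟩
    exact kgood_all D hD h r.val r.2 g t (by rw [hg, ChevalleyDatum.x, dif_pos r.2])
  apply Subgroup.map_injective (D.group F).subtype_injective
  rw [Subgroup.map_subtype_commutator, ← MonoidHom.range_eq_map, Subgroup.range_subtype]
  exact le_antisymm (derG_le D) h1

/-- The `H`-method: if some `h ∈ H` acts on `X_s` by a scalar `d ≠ 1`, then `X_s` lies in the derived subgroup. -/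
theorem kgood_of_h (D : ChevalleyDatum) (hD : Std7 D) (s : ℕ) (hs : s < D.nroots) (c : ℕ → F)
    (hc : ∀ i, i < D.rank → c i ≠ 0) (hd : dOf D c s ≠ 1) : KGood D F s := by
  intro g t hg
  have hd' : dOf D c s - 1 ≠ 0 := sub_ne_zero.mpr hd
  have hcomm := hProd_x_comm D hD c hc s hs (t / (dOf D c s - 1))
  have e : g = ⁅hProdGL D hD F c hc, xGL D hD F s hs (t / (dOf D c s - 1))⁆ := by
    apply Units.ext
    rw [commutatorElement_def, Units.val_mul, Units.val_mul, Units.val_mul, hProdGL_val]
    show _ = hProd D F c * D.x F s (t / (dOf D c s - 1)) * _ * D.x F s (-(t / (dOf D c s - 1)))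
    rw [hcomm, ← hProdGL_val D hD c hc, mul_assoc (D.x F s _), ← Units.val_mul, mul_inv_cancel, Units.val_one,
      mul_one, Cfsg.Agent.S1023.result D hD s hs, hg]
    congr 1
    field_simp
    ring
  rw [e]
  exact Subgroup.commutator_mem_commutator
    (diagonalSubgroup_le_group D hD F (hProdGL_mem D hD c hc)) (xGL_mem_group D hD F s hs _)

theorem wordMat_one_elt (D : ChevalleyDatum) (m : ℕ) (c : F) : D.wordMat F [(m, c)] = D.x F m c := by
  rw [wordMat_cons]
  show D.x F m c * D.wordMat F [] = _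
  have : D.wordMat F ([] : List (ℕ × F)) = 1 := rfl
  rw [this, mul_one]

/-- The commutator method, one term. -/
theorem kgood_of_comm1 (D : ChevalleyDatum) (hD : Std7 D) (r s m : ℕ) (C : ℤ) (hr : r < D.nroots)
    (hs : s < D.nroots) (hchk : commCheckRS D r s = true) (hterms : D.commTerms r s = [(m, C, 1, 1)])
    (hC : C = 1 ∨ C = -1) : KGood D F m := by
  intro g t hg
  have key := comm_of_check D r s hchk (F := F) (-((C : ℤ) : F) * t) 1
  have hw : D.commWord F r s (-((C : ℤ) : F) * t) 1 = [(m, t)] := by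
    unfold ChevalleyDatum.commWord
    rw [hterms]
    simp only [List.map_cons, List.map_nil, pow_one, mul_one]
    congr 2
    rcases hC with rfl | rfl <;> simp
  rw [hw, wordMat_one_elt] at key
  have e : g = ⁅(xGL D hD F s hs 1)⁻¹, (xGL D hD F r hr (-((C : ℤ) : F) * t))⁻¹⁆ := by
    rw [commutatorElement_def, inv_inv, inv_inv]
    have e2 : xGL D hD F s hs 1 * xGL D hD F r hr (-((C : ℤ) : F) * t) =
        xGL D hD F r hr (-((C : ℤ) : F) * t) * xGL D hD F s hs 1 * g := by
      apply Units.ext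
      rw [Units.val_mul, Units.val_mul, Units.val_mul, hg]
      exact key
    calc g = (xGL D hD F r hr (-((C : ℤ) : F) * t) * xGL D hD F s hs 1)⁻¹ *
          (xGL D hD F r hr (-((C : ℤ) : F) * t) * xGL D hD F s hs 1 * g) := by group
      _ = _ := by rw [← e2]; group
  rw [e]
  exact Subgroup.commutator_mem_commutator (inv_mem (xGL_mem_group D hD F s hs _))
    (inv_mem (xGL_mem_group D hD F r hr _))

/-- The commutator method, two terms, the first one already known to lie in the derived subgroup. -/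
theorem kgood_of_comm2 (D : ChevalleyDatum) (hD : Std7 D) (r s m1 m2 : ℕ) (C1 C2 : ℤ) (hr : r < D.nroots)
    (hs : s < D.nroots) (hm1 : m1 < D.nroots) (hchk : commCheckRS D r s = true)
    (hterms : D.commTerms r s = [(m1, C1, 1, 1), (m2, C2, 2, 1)]) (hC : C2 = 1 ∨ C2 = -1)
    (hgood : KGood D F m1) : KGood D F m2 := by
  intro g t hg
  have key := comm_of_check D r s hchk (F := F) 1 (((C2 : ℤ) : F) * t)
  have hw : D.commWord F r s 1 (((C2 : ℤ) : F) * t) =
      [(m1, ((C1 : ℤ) : F) * (-1) * (((C2 : ℤ) : F) * t)), (m2, t)] := by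
    unfold ChevalleyDatum.commWord
    rw [hterms]
    simp only [List.map_cons, List.map_nil, pow_one]
    congr 3
    rcases hC with rfl | rfl <;> simp
  rw [hw, wordMat_cons, wordMat_one_elt] at key
  have hg1 := hgood (xGL D hD F m1 hm1 (((C1 : ℤ) : F) * (-1) * (((C2 : ℤ) : F) * t))) _ rfl
  have e2 : xGL D hD F s hs (((C2 : ℤ) : F) * t) * xGL D hD F r hr 1 =
      xGL D hD F r hr 1 * xGL D hD F s hs (((C2 : ℤ) : F) * t) *
        (xGL D hD F m1 hm1 (((C1 : ℤ) : F) * (-1) * (((C2 : ℤ) : F) * t)) * g) := by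
    apply Units.ext
    rw [Units.val_mul, Units.val_mul, Units.val_mul, Units.val_mul, hg]
    exact key
  have e : g = (xGL D hD F m1 hm1 (((C1 : ℤ) : F) * (-1) * (((C2 : ℤ) : F) * t)))⁻¹ *
      ⁅(xGL D hD F s hs (((C2 : ℤ) : F) * t))⁻¹, (xGL D hD F r hr 1)⁻¹⁆ := by
    rw [commutatorElement_def, inv_inv, inv_inv]
    calc g = (xGL D hD F m1 hm1 (((C1 : ℤ) : F) * (-1) * (((C2 : ℤ) : F) * t)))⁻¹ *
          ((xGL D hD F r hr 1 * xGL D hD F s hs (((C2 : ℤ) : F) * t))⁻¹ *
          (xGL D hD F r hr 1 * xGL D hD F s hs (((C2 : ℤ) : F) * t) *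
            (xGL D hD F m1 hm1 (((C1 : ℤ) : F) * (-1) * (((C2 : ℤ) : F) * t)) * g))) := by group
      _ = _ := by rw [← e2]; group
  rw [e]
  exact mul_mem (inv_mem hg1) (Subgroup.commutator_mem_commutator (inv_mem (xGL_mem_group D hD F s hs _))
    (inv_mem (xGL_mem_group D hD F r hr _)))

/-- Table check for the commutator method at the fundamental root `p_j`, using the fundamental root `p_k`. -/
def perfCheck (D : ChevalleyDatum) (j k : ℕ) : Bool :=
  Nat.blt k D.rank && (commCheckRS D (D.simple j) (D.simple k) &&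
    decide (D.commTerms (D.simple j) (D.simple k) = [(D.reflectRoot k (D.simple j), 1, 1, 1)] ∨
      D.commTerms (D.simple j) (D.simple k) = [(D.reflectRoot k (D.simple j), -1, 1, 1)]))

theorem kgood_of_perfCheck (D : ChevalleyDatum) (hD : Std7 D) (j k : ℕ) (hj : j < D.rank)
    (h : perfCheck D j k = true) : KGood D F (D.simple j) := by
  unfold perfCheck at h
  rw [Bool.and_eq_true, Bool.and_eq_true] at h
  obtain ⟨hk, hchk, hterms'⟩ := h
  have hterms := of_decide_eq_true hterms'
  have hk' : k < D.rank := Nat.blt_eq.mp hk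
  have hpj := std_simple_lt D hD j hj
  have hpk := std_simple_lt D hD k hk'
  apply kgood_refl' D hD k hk' _ hpj
  rcases hterms with ht | ht
  · exact kgood_of_comm1 D hD _ _ _ 1 hpj hpk hchk ht (Or.inl rfl)
  · exact kgood_of_comm1 D hD _ _ _ (-1) hpj hpk hchk ht (Or.inr rfl)

def perfAll (D : ChevalleyDatum) (ks : List ℕ) : Bool :=
  Nat.beq ks.length D.rank && allF (fun q => perfCheck D q.2 q.1) ks.zipIdx

theorem kgood_of_perfAll (D : ChevalleyDatum) (hD : Std7 D) (ks : List ℕ) (h : perfAll D ks = true) (j : ℕ)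
    (hj : j < D.rank) : KGood D F (D.simple j) := by
  unfold perfAll at h
  rw [Bool.and_eq_true] at h
  have hlen : ks.length = D.rank := Nat.eq_of_beq_eq_true h.1
  have hj' : j < ks.length := by rw [hlen]; exact hj
  have hmem : (ks[j], j) ∈ ks.zipIdx := by
    rw [List.mem_zipIdx_iff_getElem?]
    simp [hj']
  have h1 : perfCheck D j ks[j] = true :=
    allF_mem (fun q : ℕ × ℕ => perfCheck D q.2 q.1) ks.zipIdx h.2 (ks[j], j) hmem
  exact kgood_of_perfCheck D hD j ks[j] hj h1

end Cfsg.Agent.Helper8
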