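import Cfsg.Agent.Helper8.Perf

set_option autoImplicit false

namespace Cfsg.Agent.Helper8

open Cfsg.Lie

set_option maxRecDepth 100000 in
theorem perfAll_D4 : perfAll chevD4 [1, 0, 1, 1] = true := by decide +kernel

set_option maxRecDepth 100000 in
theorem perfAll_F4 : perfAll chevF4 [1, 0, 3, 2] = true := by decide +kernel

set_option maxRecDepth 100000 in
theorem perfAll_E6 : perfAll chevE6 [2, 3, 0, 1, 3, 4] = true := by decide +kernel

set_option maxRecDepth 100000 in
theorem perfAll_E7 : perfAll chevE7 [2, 3, 0, 1, 3, 4, 5] = true := by decide +kernel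

set_option maxRecDepth 100000 in
theorem perfAll_E8 : perfAll chevE8 [2, 3, 0, 1, 3, 4, 5, 6] = true := by decide +kernel

set_option maxRecDepth 100000 in
theorem perf_B2_chk : commCheckRS chevB2 (chevB2.simple 0) (chevB2.simple 1) = true := by decide +kernel

set_option maxRecDepth 100000 in
theorem perf_B2_terms : chevB2.commTerms (chevB2.simple 0) (chevB2.simple 1) = [(6, -1, 1, 1), (7, -1, 2, 1)] := by
  decide +kernel

set_option maxRecDepth 100000 in
theorem perf_B2_facts : chevB2.reflectRoot 1 (chevB2.simple 0) = 6 ∧ chevB2.reflectRoot 0 (chevB2.simple 1) = 7 ∧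
    chevB2.cartan 1 (chevB2.simple 0) = -1 := by decide +kernel

set_option maxRecDepth 100000 in
theorem perf_G2_facts : chevG2.cartan 1 (chevG2.simple 0) = -1 ∧ chevG2.cartan 0 (chevG2.simple 1) = -3 ∧
    chevG2.cartan 1 (chevG2.simple 1) = 2 := by decide +kernel

end Cfsg.Agent.Helper8
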