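import Cfsg.Agent.Helper8.Cen2
import Cfsg.Agent.Helper8.Par6

set_option autoImplicit false

namespace Cfsg.Agent.Helper8

open Cfsg.Lie

variable {F : Type*} [Field F]

/-- The subgroup generated by the root subgroups `X_s`, `s ≥ k` positive of positive `J`-level. -/
def ugrpJ (D : ChevalleyDatum) (F : Type*) [Field F] (J : Set ℕ) (k : ℕ) : Subgroup (GL D.Idx F) :=
  Subgroup.closure {g : GL D.Idx F | ∃ (s : ℕ) (u : F), (k ≤ s ∧ D.IsPosRoot s ∧ 0 < lvJ D J s) ∧
    (g : Matrix D.Idx D.Idx F) = D.x F s u}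

theorem ugrpJ_le (D : ChevalleyDatum) (J : Set ℕ) (k : ℕ) : ugrpJ D F J k ≤ ugrp D F k := by
  unfold ugrpJ ugrp
  apply Subgroup.closure_mono
  rintro g ⟨s, u, ⟨hks, hs, -⟩, hg⟩
  exact ⟨s, u, ⟨hks, hs⟩, hg⟩

theorem commTerms_lv_pos (D : ChevalleyDatum) (hD : Std7 D) (J : Set ℕ) (j s : ℕ) (hj : D.IsPosRoot j)
    (hs : D.IsPosRoot s) (hlv : 0 < lvJ D J s) : ∀ c ∈ D.commTerms j s, 0 < lvJ D J c.1 := by
  intro c hc
  obtain ⟨-, i, i', hi, hi', e⟩ := commTerms_lv D hD J j s hj.1 hs.1 c hc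
  rw [e]
  have h1 : 0 ≤ (i : ℤ) * lvJ D J j := mul_nonneg (by positivity) (lvJ_nonneg D hD J j hj)
  have h2 : 0 < (i' : ℤ) * lvJ D J s := mul_pos (by exact_mod_cast hi') hlv
  omega

/-- Every positive root subgroup normalises `ugrpJ`. -/
theorem ugrpJ_conj2 (D : ChevalleyDatum) (hD : Std7 D) (J : Set ℕ) (k j : ℕ) (hj : D.IsPosRoot j) (a : F)
    (g : GL D.Idx F) (hg : g ∈ ugrpJ D F J k) :
    xGL D hD F j hj.1 a * g * (xGL D hD F j hj.1 a)⁻¹ ∈ ugrpJ D F J k := by
  have hord := ordOK2_all D hD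
  have key : (ugrpJ D F J k).map (MulAut.conj (xGL D hD F j hj.1 a)).toMonoidHom ≤ ugrpJ D F J k := by
    unfold ugrpJ
    rw [MonoidHom.map_closure, Subgroup.closure_le]
    rintro _ ⟨g, ⟨s, u, ⟨hks, hs, hlv⟩, hg⟩, rfl⟩
    show xGL D hD F j hj.1 a * g * (xGL D hD F j hj.1 a)⁻¹ ∈ _
    by_cases hsj : s = j
    · subst hsj
      have e : xGL D hD F s hj.1 a * g * (xGL D hD F s hj.1 a)⁻¹ = g := by
        apply Units.ext
        rw [Units.val_mul, Units.val_mul, hg]
        show D.x F s a * D.x F s u * D.x F s (-a) = D.x F s u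
        rw [Cfsg.Agent.S1023.result D hD s hs.1, Cfsg.Agent.S1023.result D hD s hs.1]
        congr 1
        ring
      rw [e]
      exact Subgroup.subset_closure ⟨s, u, ⟨hks, hs, hlv⟩, hg⟩
    · have hsnj : s ≠ D.neg j := by
        intro h
        have h1 := (neg_swap D hD j hj.1).1 hj
        rw [← h] at h1
        exact pos_neg_excl D hD s hs h1
      have hcomm := comm_all D hD j s hj.1 hs.1 hsj hsnj (F := F) (-a) u
      have hterms : ∀ c ∈ D.commTerms j s, k ≤ c.1 ∧ D.IsPosRoot c.1 ∧ 0 < lvJ D J c.1 := by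
        intro c hc
        obtain ⟨h3, h4⟩ := hord j s hj hs (Ne.symm hsj) c hc
        exact ⟨by omega, isPos_of_range D hD c.1 (by have := (pos_bounds D hD s hs).1; omega) h4,
          commTerms_lv_pos D hD J j s hj hs hlv c hc⟩
      have hgw : (g⁻¹ * (xGL D hD F j hj.1 a * g * (xGL D hD F j hj.1 a)⁻¹) : GL D.Idx F) ∈
          Subgroup.closure {g : GL D.Idx F | ∃ (s : ℕ) (u : F), (k ≤ s ∧ D.IsPosRoot s ∧ 0 < lvJ D J s) ∧
            (g : Matrix D.Idx D.Idx F) = D.x F s u} := by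
        apply mem_rootsClosure_of_word D hD (fun c => k ≤ c ∧ D.IsPosRoot c ∧ 0 < lvJ D J c)
          (fun c hc => hc.2.1.1) (D.commWord F j s (-a) u)
        · intro p hp
          unfold ChevalleyDatum.commWord at hp
          rw [List.mem_map] at hp
          obtain ⟨c, hc, rfl⟩ := hp
          exact hterms c hc
        · have e1 : ((xGL D hD F j hj.1 a * g * (xGL D hD F j hj.1 a)⁻¹ : GL D.Idx F) : Matrix D.Idx D.Idx F) =
              D.x F s u * D.wordMat F (D.commWord F j s (-a) u) := by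
            rw [Units.val_mul, Units.val_mul, hg]
            show D.x F j a * D.x F s u * D.x F j (-a) = _
            rw [mul_assoc, hcomm, ← mul_assoc, ← mul_assoc, x_mul_neg D hD j hj.1, one_mul]
          rw [Units.val_mul, e1, ← mul_assoc, ← hg, ← Units.val_mul, inv_mul_cancel, Units.val_one, one_mul]
      have e : xGL D hD F j hj.1 a * g * (xGL D hD F j hj.1 a)⁻¹ =
          g * (g⁻¹ * (xGL D hD F j hj.1 a * g * (xGL D hD F j hj.1 a)⁻¹)) := by group
      rw [e]
      exact mul_mem (Subgroup.subset_closure ⟨s, u, ⟨hks, hs, hlv⟩, hg⟩) hgw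
  exact key (Subgroup.mem_map_of_mem _ hg)

/-- `ugrpJ` is normalised by `U`. -/
theorem ugrpJ_normal (D : ChevalleyDatum) (hD : Std7 D) (J : Set ℕ) (k : ℕ) (u : GL D.Idx F)
    (hu : u ∈ D.posUnipotent F) (g : GL D.Idx F) (hg : g ∈ ugrpJ D F J k) : u * g * u⁻¹ ∈ ugrpJ D F J k := by
  have hle : D.posUnipotent F ≤ Subgroup.normalizer (ugrpJ D F J k : Set (GL D.Idx F)) := by
    unfold ChevalleyDatum.posUnipotent
    rw [Subgroup.closure_le]
    rintro x ⟨j, a, hj, hx⟩
    have ex : x = xGL D hD F j hj.1 a := Units.ext hx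
    rw [SetLike.mem_coe, Subgroup.mem_normalizer_iff]
    intro g
    constructor
    · intro hg
      rw [ex]
      exact ugrpJ_conj2 D hD J k j hj a g hg
    · intro hg
      have h1 := ugrpJ_conj2 D hD J k j hj (-a) _ hg
      have e0 : xGL D hD F j hj.1 (-a) = (xGL D hD F j hj.1 a)⁻¹ := Units.ext rfl
      have e : xGL D hD F j hj.1 (-a) * (x * g * x⁻¹) * (xGL D hD F j hj.1 (-a))⁻¹ = g := by
        rw [e0, ex]
        group
      rwa [e] at h1
  exact (Subgroup.mem_normalizer_iff.mp (hle hu) g).mp hg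

/-- Conjugation by `U` fixes `x_s(c)`, `s` of positive level, modulo `ugrpJ (s + 1)`. -/
theorem conj_leadJ (D : ChevalleyDatum) (hD : Std7 D) (J : Set ℕ) (s : ℕ) (hs : D.IsPosRoot s)
    (hlv : 0 < lvJ D J s) (u : GL D.Idx F) (hu : u ∈ D.posUnipotent F) :
    ∀ c : F, (xGL D hD F s hs.1 c)⁻¹ * (u * xGL D hD F s hs.1 c * u⁻¹) ∈ ugrpJ D F J (s + 1) := by
  have hord := ordOK2_all D hD
  unfold ChevalleyDatum.posUnipotent at hu
  induction hu using Subgroup.closure_induction with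
  | mem x hx =>
    intro c
    obtain ⟨j, a, hj, hx⟩ := hx
    have ex : x = xGL D hD F j hj.1 a := Units.ext hx
    by_cases hsj : s = j
    · subst hsj
      have e : (xGL D hD F s hs.1 c)⁻¹ * (x * xGL D hD F s hs.1 c * x⁻¹) = 1 := by
        rw [ex]
        apply Units.ext
        simp only [Units.val_mul]
        show D.x F s (-c) * (D.x F s a * D.x F s c * D.x F s (-a)) = 1
        rw [Cfsg.Agent.S1023.result D hD s hs.1, Cfsg.Agent.S1023.result D hD s hs.1,
          Cfsg.Agent.S1023.result D hD s hs.1]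
        have e0 : -c + (a + c + -a) = 0 := by ring
        rw [e0, x_zero]
      rw [e]
      exact one_mem _
    · have hsnj : s ≠ D.neg j := by
        intro h
        have h1 := (neg_swap D hD j hj.1).1 hj
        rw [← h] at h1
        exact pos_neg_excl D hD s hs h1
      have hcomm := comm_all D hD j s hj.1 hs.1 hsj hsnj (F := F) (-a) c
      have hterms : ∀ c' ∈ D.commTerms j s, s + 1 ≤ c'.1 ∧ D.IsPosRoot c'.1 ∧ 0 < lvJ D J c'.1 := by
        intro c' hc'
        obtain ⟨h3, h4⟩ := hord j s hj hs (Ne.symm hsj) c' hc'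
        exact ⟨by omega, isPos_of_range D hD c'.1 (by have := (pos_bounds D hD s hs).1; omega) h4,
          commTerms_lv_pos D hD J j s hj hs hlv c' hc'⟩
      apply mem_rootsClosure_of_word D hD (fun c' => s + 1 ≤ c' ∧ D.IsPosRoot c' ∧ 0 < lvJ D J c')
        (fun c' hc' => hc'.2.1.1) (D.commWord F j s (-a) c)
      · intro p hp
        unfold ChevalleyDatum.commWord at hp
        rw [List.mem_map] at hp
        obtain ⟨c', hc', rfl⟩ := hp
        exact hterms c' hc'
      · rw [ex]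
        simp only [Units.val_mul]
        show D.x F s (-c) * (D.x F j a * D.x F s c * D.x F j (-a)) = _
        rw [mul_assoc (D.x F j a), hcomm, ← mul_assoc (D.x F j a), ← mul_assoc (D.x F j a), x_mul_neg D hD j hj.1,
          one_mul, ← mul_assoc, x_neg_mul D hD s hs.1, one_mul]
  | one =>
    intro c
    have e : (xGL D hD F s hs.1 c)⁻¹ * (1 * xGL D hD F s hs.1 c * 1⁻¹) = 1 := by group
    rw [e]
    exact one_mem _
  | mul x y hx hy ihx ihy =>
    intro c
    have e : (xGL D hD F s hs.1 c)⁻¹ * (x * y * xGL D hD F s hs.1 c * (x * y)⁻¹) =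
        (xGL D hD F s hs.1 c)⁻¹ * (x * xGL D hD F s hs.1 c * x⁻¹) *
          (x * ((xGL D hD F s hs.1 c)⁻¹ * (y * xGL D hD F s hs.1 c * y⁻¹)) * x⁻¹) := by group
    rw [e]
    exact mul_mem (ihx c) (ugrpJ_normal D hD J (s + 1) x hx _ (ihy c))
  | inv x hx ihx =>
    intro c
    have e : (xGL D hD F s hs.1 c)⁻¹ * (x⁻¹ * xGL D hD F s hs.1 c * x⁻¹⁻¹) =
        x⁻¹ * ((xGL D hD F s hs.1 c)⁻¹ * (x * xGL D hD F s hs.1 c * x⁻¹))⁻¹ * x⁻¹⁻¹ := by group
    rw [e]
    exact ugrpJ_normal D hD J (s + 1) x⁻¹ (inv_mem hx) _ (inv_mem (ihx c))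

end Cfsg.Agent.Helper8
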