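import Cfsg.Agent.Helper8.Rad1

set_option autoImplicit false

namespace Cfsg.Agent.Helper8

open Cfsg.Lie

variable {F : Type*} [Field F]

/-! ### Witnesses: pairs of roots `β`, `β + p_i` with positive coordinate on `p_{i0}` -/

def spanTblG2 : List (List (ℕ × ℕ)) := [[(0, 0), (7, 8)], [(6, 8), (0, 0)]]

def spanTblB2 : List (List (ℕ × ℕ)) := [[(0, 0), (5, 6)], [(4, 6), (0, 0)]]

def spanTblD4 : List (List (ℕ × ℕ)) :=
  [[(0, 0), (18, 19), (19, 21), (19, 20)], [(14, 19), (0, 0), (14, 16), (14, 15)], [(16, 21), (13, 16), (0, 0), (16, 17)],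
  [(15, 20), (12, 15), (15, 17), (0, 0)]]

def spanTblF4 : List (List (ℕ × ℕ)) :=
  [[(0, 0), (33, 34), (34, 35), (35, 36)], [(27, 34), (0, 0), (27, 28), (28, 29)], [(28, 35), (25, 28), (0, 0), (25, 26)],
  [(29, 36), (26, 29), (24, 26), (0, 0)]]

def spanTblE6 : List (List (ℕ × ℕ)) :=
  [[(0, 0), (58, 61), (56, 57), (57, 58), (58, 59), (59, 60)], [(50, 61), (0, 0), (47, 50), (46, 47), (47, 48), (48, 49)],
  [(42, 57), (43, 50), (0, 0), (42, 43), (43, 44), (44, 45)],
  [(43, 58), (39, 47), (39, 43), (0, 0), (39, 40), (40, 41)],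
  [(44, 59), (40, 48), (40, 44), (37, 40), (0, 0), (37, 38)],
  [(45, 60), (41, 49), (41, 45), (38, 41), (36, 38), (0, 0)]]

def spanTblE7 : List (List (ℕ × ℕ)) :=
  [[(0, 0), (95, 99), (93, 94), (94, 95), (95, 96), (96, 97), (97, 98)],
  [(83, 99), (0, 0), (79, 83), (78, 79), (79, 80), (80, 81), (81, 82)],
  [(73, 94), (74, 83), (0, 0), (73, 74), (74, 75), (75, 76), (76, 77)],
  [(74, 95), (69, 79), (69, 74), (0, 0), (69, 70), (70, 71), (71, 72)],
  [(75, 96), (70, 80), (70, 75), (66, 70), (0, 0), (66, 67), (67, 68)],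
  [(76, 97), (71, 81), (71, 76), (67, 71), (64, 67), (0, 0), (64, 65)],
  [(77, 98), (72, 82), (72, 77), (68, 72), (65, 68), (63, 65), (0, 0)]]

def spanTblE8 : List (List (ℕ × ℕ)) :=
  [[(0, 0), (164, 169), (162, 163), (163, 164), (164, 165), (165, 166), (166, 167), (167, 168)],
  [(147, 169), (0, 0), (142, 147), (141, 142), (142, 143), (143, 144), (144, 145), (145, 146)],
  [(135, 163), (136, 147), (0, 0), (135, 136), (136, 137), (137, 138), (138, 139), (139, 140)],
  [(136, 164), (130, 142), (130, 136), (0, 0), (130, 131), (131, 132), (132, 133), (133, 134)],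
  [(137, 165), (131, 143), (131, 137), (126, 131), (0, 0), (126, 127), (127, 128), (128, 129)],
  [(138, 166), (132, 144), (132, 138), (127, 132), (123, 127), (0, 0), (123, 124), (124, 125)],
  [(139, 167), (133, 145), (133, 139), (128, 133), (124, 128), (121, 124), (0, 0), (121, 122)],
  [(140, 168), (134, 146), (134, 140), (129, 134), (125, 129), (122, 125), (120, 122), (0, 0)]]

/-- The table of witnesses of the type, recognised by its number of roots. -/
def spanOf (D : ChevalleyDatum) : List (List (ℕ × ℕ)) :=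
  cond (Nat.beq D.nroots 12) spanTblG2 (cond (Nat.beq D.nroots 8) spanTblB2 (cond (Nat.beq D.nroots 24) spanTblD4
    (cond (Nat.beq D.nroots 48) spanTblF4 (cond (Nat.beq D.nroots 72) spanTblE6
      (cond (Nat.beq D.nroots 126) spanTblE7 spanTblE8)))))

/-- `w = (β, u)`: `β` has a positive coordinate on `p_{i0}` and `u = β + p_i`. -/
def spanEntry (D : ChevalleyDatum) (i0 i : ℕ) (w : ℕ × ℕ) : Bool :=
  Nat.blt w.1 D.nroots && (Nat.blt w.2 D.nroots && (decide (0 < rc D i0 w.1) &&
    anyF (fun km => Nat.beq km.1 1) (D.chainCoeff (D.simple i) w.1 w.2)))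

def spanChk (D : ChevalleyDatum) (i0 : ℕ) : Bool :=
  allF (fun i => Nat.beq i0 i || spanEntry D i0 i (((spanOf D).getD i0 []).getD i (0, 0))) (List.range D.rank)

set_option maxRecDepth 100000 in
theorem span_G2 : ∀ j, 0 ≤ j → j < 2 → spanChk chevG2 j = true :=
  range_all (spanChk chevG2) 0 2 (by decide +kernel)

set_option maxRecDepth 100000 in
theorem span_B2 : ∀ j, 0 ≤ j → j < 2 → spanChk chevB2 j = true :=
  range_all (spanChk chevB2) 0 2 (by decide +kernel)

set_option maxRecDepth 100000 in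
theorem span_D4 : ∀ j, 0 ≤ j → j < 4 → spanChk chevD4 j = true :=
  range_all (spanChk chevD4) 0 4 (by decide +kernel)

set_option maxRecDepth 100000 in
theorem span_F4 : ∀ j, 0 ≤ j → j < 4 → spanChk chevF4 j = true :=
  range_all (spanChk chevF4) 0 4 (by decide +kernel)

set_option maxRecDepth 100000 in
theorem span_E6 : ∀ j, 0 ≤ j → j < 6 → spanChk chevE6 j = true :=
  range_all (spanChk chevE6) 0 6 (by decide +kernel)

set_option maxRecDepth 100000 in
theorem span_E7 : ∀ j, 0 ≤ j → j < 7 → spanChk chevE7 j = true :=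
  range_all (spanChk chevE7) 0 7 (by decide +kernel)

set_option maxRecDepth 100000 in
theorem span_E8 : ∀ j, 0 ≤ j → j < 8 → spanChk chevE8 j = true :=
  range_all (spanChk chevE8) 0 8 (by decide +kernel)

theorem span_all (D : ChevalleyDatum) (hD : Std7 D) (s : ℕ) (hs : s < D.rank) : spanChk D s = true := by
  simp only [Std7, List.mem_cons, List.mem_nil_iff, or_false] at hD
  rcases hD with rfl | rfl | rfl | rfl | rfl | rfl | rfl
  · exact span_G2 s (Nat.zero_le _) hs
  · exact span_B2 s (Nat.zero_le _) hs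
  · exact span_D4 s (Nat.zero_le _) hs
  · exact span_F4 s (Nat.zero_le _) hs
  · exact span_E6 s (Nat.zero_le _) hs
  · exact span_E7 s (Nat.zero_le _) hs
  · exact span_E8 s (Nat.zero_le _) hs

/-- For fundamental roots `p_{i0} ≠ p_i` there are roots `β`, `u = β + p_i` with positive coordinate on `p_{i0}`. -/
theorem span_ex (D : ChevalleyDatum) (hD : Std7 D) (i0 i : ℕ) (hi0 : i0 < D.rank) (hi : i < D.rank) (hne : i0 ≠ i) :
    ∃ β u : ℕ, β < D.nroots ∧ u < D.nroots ∧ 0 < rc D i0 β ∧
      ∃ km ∈ D.chainCoeff (D.simple i) β u, km.1 = 1 := by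
  have h := allF_mem _ _ (span_all D hD i0 hi0) i (List.mem_range.mpr hi)
  rw [Bool.or_eq_true] at h
  rcases h with h | h
  · exact absurd (Nat.eq_of_beq_eq_true h) hne
  · unfold spanEntry at h
    simp only [Bool.and_eq_true] at h
    obtain ⟨h1, h2, h3, h4⟩ := h
    obtain ⟨km, hkm, hk1⟩ := anyF_mem _ _ h4
    exact ⟨_, _, by simpa [Nat.blt_eq] using h1, by simpa [Nat.blt_eq] using h2, of_decide_eq_true h3, km, hkm,
      Nat.eq_of_beq_eq_true hk1⟩

/-! ### Linearity of words in the fundamental reflections -/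

theorem word_lin (D : ChevalleyDatum) (hD : Std7 D) (l : List ℕ) (hl : ∀ a ∈ l, a < D.rank) (s1 s2 s3 : ℕ)
    (h1 : s1 < D.nroots) (h2 : s2 < D.nroots) (h3 : s3 < D.nroots)
    (h : ∀ k, k < D.rank → D.cartan k s3 = D.cartan k s1 + D.cartan k s2) :
    ∀ k, k < D.rank →
      D.cartan k (reflWord D l s3) = D.cartan k (reflWord D l s1) + D.cartan k (reflWord D l s2) := by
  induction l with
  | nil => exact h
  | cons a l ih =>
    have ha : a < D.rank := hl a List.mem_cons_self
    have hl' : ∀ b ∈ l, b < D.rank := fun b hb => hl b (List.mem_cons_of_mem _ hb)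
    intro k hk
    rw [reflWord_cons, reflWord_cons, reflWord_cons,
      std_cartan_refl D hD a ha k hk _ (reflWord_lt D hD l hl' s3 h3),
      std_cartan_refl D hD a ha k hk _ (reflWord_lt D hD l hl' s1 h1),
      std_cartan_refl D hD a ha k hk _ (reflWord_lt D hD l hl' s2 h2), ih hl' k hk, ih hl' a ha]
    ring

theorem word_lin_rc (D : ChevalleyDatum) (hD : Std7 D) (l : List ℕ) (hl : ∀ a ∈ l, a < D.rank) (s1 s2 s3 : ℕ)
    (h1 : s1 < D.nroots) (h2 : s2 < D.nroots) (h3 : s3 < D.nroots)
    (h : ∀ k, k < D.rank → D.cartan k s3 = D.cartan k s1 + D.cartan k s2) (m : ℕ) :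
    rc D m (reflWord D l s3) = rc D m (reflWord D l s1) + rc D m (reflWord D l s2) := by
  have hw := word_lin D hD l hl s1 s2 s3 h1 h2 h3 h
  rw [rc_eq, rc_eq, rc_eq, ← Finset.sum_add_distrib]
  apply Finset.sum_congr rfl
  intro k hk
  rw [hw k (Finset.mem_range.mp hk)]
  ring

theorem lv_pos_of_rc (D : ChevalleyDatum) (hD : Std7 D) (J : Set ℕ) (i0 : ℕ) (hi0 : i0 < D.rank) (hi0J : i0 ∉ J)
    (s : ℕ) (hs : s < D.nroots) (h : 0 < rc D i0 s) : D.IsPosRoot s ∧ 0 < lvJ D J s := by
  have hp : D.IsPosRoot s := by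
    rcases pos_or_neg D hD s hs with hp | hn
    · exact hp
    · have := rc_nonpos D hD s hn i0 hi0
      omega
  refine ⟨hp, lvJ_pos D hD J s hp ?_⟩
  intro hJ
  have := ((inRootSub_iff D hD J s).mp hJ).2 i0 hi0 hi0J
  omega

/-- A character of `H` trivial on the fundamental roots is trivial on all roots. -/
theorem dOf_all_one (D : ChevalleyDatum) (hD : Std7 D) (c : ℕ → F) (hc : ∀ i, i < D.rank → c i ≠ 0)
    (h : ∀ i, i < D.rank → dOf D c (D.simple i) = 1) : ∀ s, s < D.nroots → dOf D c s = 1 := by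
  have hw : ∀ (l : List ℕ), (∀ a ∈ l, a < D.rank) → ∀ s, s < D.nroots → dOf D c s = 1 →
      dOf D c (reflWord D l s) = 1 := by
    intro l
    induction l with
    | nil =>
      intro _ s _ hs1
      exact hs1
    | cons a l ih =>
      intro hl s hs hs1
      have ha : a < D.rank := hl a List.mem_cons_self
      have hl' : ∀ b ∈ l, b < D.rank := fun b hb => hl b (List.mem_cons_of_mem _ hb)
      rw [reflWord_cons, dOf_refl D hD c hc a ha _ (reflWord_lt D hD l hl' s hs), ih hl' s hs hs1, one_mul]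
      have e : (∏ j ∈ Finset.range D.rank, c j ^ (-D.cartan j (D.simple a))) = (dOf D c (D.simple a))⁻¹ := by
        unfold dOf
        rw [← Finset.prod_inv_distrib]
        apply Finset.prod_congr rfl
        intro j _
        rw [zpow_neg]
      rw [e, h a ha, inv_one, one_zpow]
  intro s hs
  obtain ⟨l, k, hl, hk, -, e⟩ := root_word' D hD Set.univ s ⟨hs, fun i _ hi => absurd (Set.mem_univ i) hi⟩
  rw [e]
  exact hw l (fun a ha => (hl a ha).1) _ (std_simple_lt D hD k hk) (h k hk)

/-- An element of `H` centralising the `x_s(1)`, `s` of positive `J`-level, is trivial (`J` proper). -/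
theorem diag_cen_one (D : ChevalleyDatum) (hD : Std7 D) (J : Set ℕ) (i0 : ℕ) (hi0 : i0 < D.rank) (hi0J : i0 ∉ J)
    (m : GL D.Idx F) (hm : m ∈ D.diagonalSubgroup F)
    (hc : ∀ s (hs : s < D.nroots), 0 < lvJ D J s → m * xGL D hD F s hs 1 = xGL D hD F s hs 1 * m) : m = 1 := by
  obtain ⟨c, hc', hv⟩ := diagonalSubgroup_le_hsGroup D hD hm
  have hd1 : ∀ s (hs : s < D.nroots), 0 < lvJ D J s → dOf D c s = 1 := by
    intro s hs hlv
    have hcomm := hProd_x_comm D hD c hc' s hs (1 : F)
    have e2 : D.x F s (dOf D c s * 1) * (m : Matrix D.Idx D.Idx F) = D.x F s 1 * (m : Matrix D.Idx D.Idx F) := by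
      rw [hv, ← hcomm, ← hv]
      exact congrArg Units.val (hc s hs hlv)
    have e1 : D.x F s (dOf D c s * 1) = D.x F s 1 := by
      calc D.x F s (dOf D c s * 1)
          = D.x F s (dOf D c s * 1) * ((m : Matrix D.Idx D.Idx F) * ((m⁻¹ : GL D.Idx F) : Matrix D.Idx D.Idx F)) := by
            rw [Units.mul_inv]
            exact (mul_one _).symm
        _ = D.x F s 1 * ((m : Matrix D.Idx D.Idx F) * ((m⁻¹ : GL D.Idx F) : Matrix D.Idx D.Idx F)) := by
            rw [← mul_assoc, e2, mul_assoc]
        _ = D.x F s 1 := by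
            rw [Units.mul_inv]
            exact mul_one _
    have e3 : dOf D c s * 1 = 1 := xGL_inj D hD s hs _ _ (Units.ext e1)
    rwa [mul_one] at e3
  have hsimple : ∀ i, i < D.rank → dOf D c (D.simple i) = 1 := by
    intro i hi
    have hsi := std_simple_lt D hD i hi
    by_cases hiJ : i ∈ J
    · have hne : i0 ≠ i := fun e => hi0J (e ▸ hiJ)
      obtain ⟨β, v, hβ, hv', hrc, km, hkm, hk1⟩ := span_ex D hD i0 i hi0 hi hne
      have hrcv : rc D i0 v = rc D i0 β := by
        have := rc_chain D hD i0 (D.simple i) hsi β v km hkm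
        rw [hk1, rc_simple D hD i0 i hi0 hi, if_neg hne] at this
        simpa using this
      have hβl := lv_pos_of_rc D hD J i0 hi0 hi0J β hβ hrc
      have hvl := lv_pos_of_rc D hD J i0 hi0 hi0J v hv' (by rw [hrcv]; exact hrc)
      have e : dOf D c v = dOf D c (D.simple i) * dOf D c β := by
        unfold dOf
        rw [← Finset.prod_mul_distrib]
        apply Finset.prod_congr rfl
        intro j hj
        have hj' := Finset.mem_range.mp hj
        have := (cartan_add_all D hD j hj' (D.simple i) hsi).2 β v km hkm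
        rw [hk1] at this
        rw [this, ← zpow_add₀ (hc' j hj')]
        congr 1
        simp
      rw [hd1 v hv' hvl.2, hd1 β hβ hβl.2, mul_one] at e
      exact e.symm
    · exact hd1 _ hsi (lvJ_pos D hD J _ (simple_pos D hD i hi) (not_inRootSub_simple D hD J i hi hiJ))
  have hall : ∀ s, s < D.nroots → dOf D c s = 1 := dOf_all_one D hD c hc' hsimple
  apply Units.ext
  rw [hv, hProd_diag D hD c hc']
  have e : (fun s : Fin D.nroots => dOf D c s) = fun _ => 1 := funext fun s => hall s s.2
  rw [e, diagonal_sum_one]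
  rfl

/-- An element of the Chevalley group centralising the elements `x_r(1)`, `r` of positive `J`-level
(`J` a proper subset of the fundamental roots), lies in `U`. -/
theorem cen_radical_pos (D : ChevalleyDatum) (hD : Std7 D) (J : Set ℕ) (i0 : ℕ) (hi0 : i0 < D.rank) (hi0J : i0 ∉ J)
    (g : GL D.Idx F) (hg : g ∈ D.group F)
    (hc : ∀ r (hr : D.IsPosRoot r), 0 < lvJ D J r → g * xGL D hD F r hr.1 1 = xGL D hD F r hr.1 1 * g) :
    g ∈ D.posUnipotent F := by
  obtain ⟨b, hb, n, hn, u, hu, rfl⟩ := bruhat_exists D hD g hg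
  obtain ⟨u₁, hu₁, h₁, hh₁, rfl⟩ := mem_borel D hD b hb
  have hu' : u ∈ D.posUnipotent F := negGens_le_pos D n hu
  have hn' : h₁ * n ∈ D.monomialSubgroup F := mul_mem (diagonal_le_monomial D hh₁) hn
  obtain ⟨k, l, hlen, hl, h, hh, hnl⟩ := monomial_word D hD _ hn'
  have key : ∀ d r, r + d = D.nroots → D.nroots / 2 ≤ r → ∀ j, r ≤ j → ∀ hj : j < D.nroots, 0 < lvJ D J j →
      ∀ a : F, (h₁ * n) * xGL D hD F j hj a * (h₁ * n)⁻¹ = xGL D hD F j hj a := by
    intro d
    induction d with
    | zero =>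
      intro r hr _ j hrj hj
      omega
    | succ d ih =>
      intro r hrd hr2 j hrj hj hlv a
      rcases Nat.lt_or_eq_of_le hrj with hlt | rfl
      · exact ih (r + 1) (by omega) (by omega) j hlt hj hlv a
      · have hrpos : D.IsPosRoot r := isPos_of_range D hD r hr2 hj
        have hcen : ∀ y ∈ ugrpJ D F J (r + 1), (h₁ * n) * y * (h₁ * n)⁻¹ = y := by
          intro y hy
          have hle : ugrpJ D F J (r + 1) ≤ Subgroup.centralizer {h₁ * n} := by
            unfold ugrpJ
            rw [Subgroup.closure_le]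
            rintro x ⟨s, t, ⟨hrs, hs, hslv⟩, hx⟩
            have ex : x = xGL D hD F s hs.1 t := Units.ext hx
            rw [SetLike.mem_coe, Subgroup.mem_centralizer_iff]
            intro m hm
            rw [Set.mem_singleton_iff] at hm
            subst hm
            have h1 := ih (r + 1) (by omega) (by omega) s hrs hs.1 hslv t
            rw [ex]
            calc h₁ * n * xGL D hD F s hs.1 t = (h₁ * n * xGL D hD F s hs.1 t * (h₁ * n)⁻¹) * (h₁ * n) := by group
              _ = xGL D hD F s hs.1 t * (h₁ * n) := by rw [h1]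
          have h2 := Subgroup.mem_centralizer_iff.mp (hle hy) (h₁ * n) rfl
          rw [h2]
          group
        obtain ⟨c, hc0, hact⟩ := word_act D hD l hl h hh r hj (F := F)
        rw [← hnl] at hact
        have hg1 := hc r hrpos hlv
        have e1 : (h₁ * n) * (u * xGL D hD F r hj 1 * u⁻¹) * (h₁ * n)⁻¹ = u₁⁻¹ * xGL D hD F r hj 1 * u₁ := by
          calc (h₁ * n) * (u * xGL D hD F r hj 1 * u⁻¹) * (h₁ * n)⁻¹
              = u₁⁻¹ * ((u₁ * h₁ * n * u) * xGL D hD F r hj 1) * u⁻¹ * (h₁ * n)⁻¹ := by group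
            _ = u₁⁻¹ * (xGL D hD F r hj 1 * (u₁ * h₁ * n * u)) * u⁻¹ * (h₁ * n)⁻¹ := by rw [hg1]
            _ = u₁⁻¹ * xGL D hD F r hj 1 * u₁ := by group
        have hyJ := conj_leadJ D hD J r hrpos hlv u hu' (1 : F)
        have hyJ' := conj_leadJ D hD J r hrpos hlv u₁⁻¹ (inv_mem hu₁) (1 : F)
        have hy := ugrpJ_le D J (r + 1) hyJ
        have hy' := ugrpJ_le D J (r + 1) hyJ'
        have a1 : u * xGL D hD F r hj 1 * u⁻¹ =
            xGL D hD F r hj 1 * ((xGL D hD F r hj 1)⁻¹ * (u * xGL D hD F r hj 1 * u⁻¹)) := by group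
        have a2 : u₁⁻¹ * xGL D hD F r hj 1 * u₁ =
            xGL D hD F r hj 1 * ((xGL D hD F r hj 1)⁻¹ * (u₁⁻¹ * xGL D hD F r hj 1 * u₁⁻¹⁻¹)) := by group
        rw [a1, a2] at e1
        have e2 : (h₁ * n) * xGL D hD F r hj 1 * (h₁ * n)⁻¹ *
            ((xGL D hD F r hj 1)⁻¹ * (u * xGL D hD F r hj 1 * u⁻¹)) =
            xGL D hD F r hj 1 * ((xGL D hD F r hj 1)⁻¹ * (u₁⁻¹ * xGL D hD F r hj 1 * u₁⁻¹⁻¹)) := by
          rw [← e1]
          conv_lhs => rw [← hcen _ hyJ]
          group
        rw [hact 1] at e2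
        have hwr : D.IsPosRoot (reflWord D l r) := by
          rcases pos_or_neg D hD _ (reflWord_lt D hD l hl r hj) with hp | hn
          · exact hp
          · exfalso
            have hV : xGL D hD F (reflWord D l r) (reflWord_lt D hD l hl r hj) (c * 1) ∈ D.negUnipotent F :=
              Subgroup.subset_closure ⟨_, _, hn, rfl⟩
            have hU : xGL D hD F (reflWord D l r) (reflWord_lt D hD l hl r hj) (c * 1) ∈ D.posUnipotent F := by
              have e3 : xGL D hD F (reflWord D l r) (reflWord_lt D hD l hl r hj) (c * 1) =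
                  xGL D hD F r hj 1 * ((xGL D hD F r hj 1)⁻¹ * (u₁⁻¹ * xGL D hD F r hj 1 * u₁⁻¹⁻¹)) *
                    ((xGL D hD F r hj 1)⁻¹ * (u * xGL D hD F r hj 1 * u⁻¹))⁻¹ := by
                rw [← e2]
                group
              rw [e3]
              exact mul_mem (mul_mem (Subgroup.subset_closure ⟨r, 1, hrpos, rfl⟩) (ugrp_le_posU D _ hy'))
                (inv_mem (ugrp_le_posU D _ hy))
            have h1 : xGL D hD F (reflWord D l r) (reflWord_lt D hD l hl r hj) (c * 1) ∈
                (⊥ : Subgroup (GL D.Idx F)) := by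
              rw [← borel_inf_neg D hD]
              exact Subgroup.mem_inf.mpr ⟨pos_le_borel D hU, hV⟩
            rw [Subgroup.mem_bot] at h1
            have h2 := (Cfsg.Agent.S1024.result D hD _ (reflWord_lt D hD l hl r hj) (c * 1)).mp
              (congrArg Units.val h1)
            rw [mul_one] at h2
            exact hc0 h2
        have e5 : xGL D hD F (reflWord D l r) (reflWord_lt D hD l hl r hj) (c * 1) * 1 =
            xGL D hD F r hj 1 * (((xGL D hD F r hj 1)⁻¹ * (u₁⁻¹ * xGL D hD F r hj 1 * u₁⁻¹⁻¹)) *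
              ((xGL D hD F r hj 1)⁻¹ * (u * xGL D hD F r hj 1 * u⁻¹))⁻¹) := by
          rw [← mul_assoc, ← e2]
          group
        obtain ⟨e3, e4⟩ := lead_unique D hD (reflWord D l r) r hwr hrpos (c * 1) 1
          (by rw [mul_one]; exact hc0) one_ne_zero 1 _ (one_mem _) (mul_mem hy' (inv_mem hy)) e5
        rw [hact a]
        apply Units.ext
        show D.x F (reflWord D l r) (c * a) = D.x F r a
        rw [mul_one] at e4
        rw [e3, e4, one_mul]
  have hcenx : ∀ j (hj : j < D.nroots), 0 < lvJ D J j → ∀ a : F,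
      (h₁ * n) * xGL D hD F j hj a * (h₁ * n)⁻¹ = xGL D hD F j hj a := by
    intro j hj hlv a
    have hjpos := (pos_of_lvJ_pos D hD J j hj hlv).1
    exact key (D.nroots - D.nroots / 2) (D.nroots / 2) (by omega) le_rfl j (pos_bounds D hD j hjpos).1 hj hlv a
  have hfix : ∀ j, j < D.nroots → 0 < lvJ D J j → reflWord D l j = j := by
    intro j hj hlv
    obtain ⟨c, hc0, hact⟩ := word_act D hD l hl h hh j hj (F := F)
    rw [← hnl] at hact
    have h1 := hcenx j hj hlv 1
    rw [hact 1] at h1
    have h2 : D.x F (reflWord D l j) (c * 1) = D.x F j 1 := congrArg Units.val h1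
    exact (root_elem_inj D hD j _ hj (reflWord_lt D hD l hl j hj) 1 (c * 1) one_ne_zero h2.symm).symm
  have hpos : ∀ i, i < D.rank → D.IsPosRoot (reflWord D l (D.simple i)) := by
    intro i hi
    have hsi := std_simple_lt D hD i hi
    by_cases hiJ : i ∈ J
    · have hne : i0 ≠ i := fun e => hi0J (e ▸ hiJ)
      obtain ⟨β, v, hβ, hv, hrc, km, hkm, hk1⟩ := span_ex D hD i0 i hi0 hi hne
      have hcart : ∀ k, k < D.rank → D.cartan k v = D.cartan k (D.simple i) + D.cartan k β := by
        intro k hk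
        have := (cartan_add_all D hD k hk (D.simple i) hsi).2 β v km hkm
        rw [hk1] at this
        simpa using this
      have hrcv : rc D i0 v = rc D i0 β := by
        have := rc_chain D hD i0 (D.simple i) hsi β v km hkm
        rw [hk1, rc_simple D hD i0 i hi0 hi, if_neg hne] at this
        simpa using this
      have hβl := lv_pos_of_rc D hD J i0 hi0 hi0J β hβ hrc
      have hvl := lv_pos_of_rc D hD J i0 hi0 hi0J v hv (by rw [hrcv]; exact hrc)
      have e1 := word_lin_rc D hD l hl (D.simple i) β v hsi hβ hv hcart i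
      rw [hfix β hβ hβl.2, hfix v hv hvl.2] at e1
      have e2 : rc D i v = rc D i (D.simple i) + rc D i β := by
        have := rc_chain D hD i (D.simple i) hsi β v km hkm
        rw [hk1] at this
        simpa using this
      have e3 := rc_simple D hD i i hi hi
      rw [if_pos rfl] at e3
      rcases pos_or_neg D hD _ (reflWord_lt D hD l hl _ hsi) with hp | hn
      · exact hp
      · have h5 := rc_nonpos D hD _ hn i hi
        have h6 := detOf_pos D hD
        omega
    · have hlv : 0 < lvJ D J (D.simple i) :=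
        lvJ_pos D hD J _ (simple_pos D hD i hi) (not_inRootSub_simple D hD J i hi hiJ)
      rw [hfix _ hsi hlv]
      exact simple_pos D hD i hi
  have hm : h₁ * n ∈ D.diagonalSubgroup F := by
    apply mono_pos_mem_diag D hD k (h₁ * n) ⟨l, hlen, hl, h, hh, hnl⟩
    intro i hi
    rw [hnl]
    exact toPos_of_word D hD l hl h hh _ (std_simple_lt D hD i hi) (hpos i hi)
  have hm1 : h₁ * n = 1 := by
    apply diag_cen_one D hD J i0 hi0 hi0J (h₁ * n) hm
    intro s hs hlv
    have h1 := hcenx s hs hlv 1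
    calc (h₁ * n) * xGL D hD F s hs 1 = ((h₁ * n) * xGL D hD F s hs 1 * (h₁ * n)⁻¹) * (h₁ * n) := by group
      _ = xGL D hD F s hs 1 * (h₁ * n) := by rw [h1]
  have e : u₁ * h₁ * n * u = u₁ * (h₁ * n) * u := by group
  rw [e, hm1, mul_one]
  exact mul_mem hu₁ hu'

end Cfsg.Agent.Helper8
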