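import Mathlib

set_option autoImplicit false

namespace Cfsg.Agent.Helper8

open Matrix

variable {F : Type*} [Field F] {Γ : Type*} [Group Γ]

/-- `w(t) = x(t) y(-t⁻¹) x(t)`. -/
def wOf (x y : F → Γ) (t : F) : Γ := x t * y (-t⁻¹) * x t

/-- `h(t) = w(t) w(1)⁻¹`. -/
def hOf (x y : F → Γ) (t : F) : Γ := wOf x y t * (wOf x y 1)⁻¹

/-- The rank-one Steinberg relations for a pair of one-parameter subgroups. -/
structure SL2Rel (x y : F → Γ) : Prop where
  x_add : ∀ s t, x (s + t) = x s * x t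
  y_add : ∀ s t, y (s + t) = y s * y t
  conj : ∀ t s, t ≠ 0 → wOf x y t * x s = y (-(t⁻¹ * t⁻¹) * s) * wOf x y t
  h_mul : ∀ t u, t ≠ 0 → u ≠ 0 → hOf x y (t * u) = hOf x y t * hOf x y u

namespace SL2Rel

variable {x y : F → Γ} (R : SL2Rel x y)
include R

theorem x_zero : x 0 = 1 := by
  have h := R.x_add 0 0
  rw [add_zero] at h
  exact left_eq_mul.mp h

theorem y_zero : y 0 = 1 := by
  have h := R.y_add 0 0
  rw [add_zero] at h
  exact left_eq_mul.mp h

theorem x_neg (t : F) : x (-t) = (x t)⁻¹ := by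
  apply eq_inv_of_mul_eq_one_left
  rw [← R.x_add, neg_add_cancel, R.x_zero]

theorem y_neg (t : F) : y (-t) = (y t)⁻¹ := by
  apply eq_inv_of_mul_eq_one_left
  rw [← R.y_add, neg_add_cancel, R.y_zero]

theorem w_inv (t : F) : (wOf x y t)⁻¹ = wOf x y (-t) := by
  unfold wOf
  rw [inv_neg, neg_neg, R.x_neg, _root_.mul_inv_rev, _root_.mul_inv_rev, ← R.y_neg, neg_neg, mul_assoc]

/-- `w(t) y(s) = x(-t² s) w(t)`. -/
theorem conj' (t s : F) (ht : t ≠ 0) : wOf x y t * y s = x (-(t * t) * s) * wOf x y t := by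
  have h := R.conj (-t) (-(t * t) * s) (neg_ne_zero.mpr ht)
  rw [← R.w_inv] at h
  have e : -((-t)⁻¹ * (-t)⁻¹) * (-(t * t) * s) = s := by
    field_simp
  rw [e] at h
  -- h : (w t)⁻¹ * x (..) = y s * (w t)⁻¹
  have h2 : x (-(t * t) * s) * wOf x y t = wOf x y t * ((wOf x y t)⁻¹ * x (-(t * t) * s)) * wOf x y t := by
    group
  rw [h2, h]
  group

theorem h_one : hOf x y 1 = 1 := by
  unfold hOf
  exact mul_inv_cancel _

/-- `w(1)⁻¹ x(s) = y(-s) w(1)⁻¹`. -/
theorem w1_inv_x (s : F) : (wOf x y 1)⁻¹ * x s = y (-s) * (wOf x y 1)⁻¹ := by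
  have h := R.conj (-1) s (neg_ne_zero.mpr one_ne_zero)
  rw [← R.w_inv] at h
  have e : -((-1 : F)⁻¹ * (-1 : F)⁻¹) * s = -s := by
    field_simp
  rw [e] at h
  exact h

/-- `h(t) x(s) = x(t² s) h(t)`. -/
theorem h_conj (t s : F) (ht : t ≠ 0) : hOf x y t * x s = x (t * t * s) * hOf x y t := by
  unfold hOf
  rw [mul_assoc, R.w1_inv_x, ← mul_assoc, R.conj' t (-s) ht, mul_assoc]
  congr 2
  ring

theorem w_eq (t : F) : wOf x y t = hOf x y t * wOf x y 1 := by
  unfold hOf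
  rw [inv_mul_cancel_right]

theorem w1_sq : wOf x y 1 * wOf x y 1 = hOf x y (-1) := by
  have h1 : hOf x y (-1) * hOf x y (-1) = 1 := by
    rw [← R.h_mul (-1) (-1) (neg_ne_zero.mpr one_ne_zero) (neg_ne_zero.mpr one_ne_zero)]
    have e : (-1 : F) * (-1) = 1 := by ring
    rw [e, R.h_one]
  have h2 : hOf x y (-1) = (wOf x y 1)⁻¹ * (wOf x y 1)⁻¹ := by
    unfold hOf
    rw [← R.w_inv]
  have h3 : hOf x y (-1) = (hOf x y (-1))⁻¹ := eq_inv_of_mul_eq_one_left h1
  rw [h3, h2, _root_.mul_inv_rev, inv_inv]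

/-- The key rank-one identity `w(u) x(s) w(1) = x(-u²/s) w(-u/s) x(-1/s)`. -/
theorem key (u s : F) (hu : u ≠ 0) (hs : s ≠ 0) :
    wOf x y u * x s * wOf x y 1 = x (-(u * u) * s⁻¹) * wOf x y (-u * s⁻¹) * x (-s⁻¹) := by
  have k1 : x s * wOf x y 1 = wOf x y 1 * y (-s) := by
    have h := R.w1_inv_x s
    have h2 : x s * wOf x y 1 = wOf x y 1 * ((wOf x y 1)⁻¹ * x s) * wOf x y 1 := by group
    rw [h2, h]
    group
  have k2 : y (-s) = x (-s⁻¹) * wOf x y s⁻¹ * x (-s⁻¹) := by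
    unfold wOf
    rw [inv_inv, R.x_neg]
    group
  have k3 : wOf x y u * wOf x y 1 = hOf x y (-u) := by
    rw [R.w_eq u, mul_assoc, R.w1_sq, ← R.h_mul u (-1) hu (neg_ne_zero.mpr one_ne_zero)]
    congr 1
    ring
  have k4 : hOf x y (-u) * wOf x y s⁻¹ = wOf x y (-u * s⁻¹) := by
    rw [R.w_eq s⁻¹, ← mul_assoc, ← R.h_mul (-u) s⁻¹ (neg_ne_zero.mpr hu) (inv_ne_zero hs), ← R.w_eq]
  calc wOf x y u * x s * wOf x y 1 = wOf x y u * (x s * wOf x y 1) := by rw [mul_assoc]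
    _ = wOf x y u * wOf x y 1 * y (-s) := by rw [k1, mul_assoc]
    _ = hOf x y (-u) * x (-s⁻¹) * wOf x y s⁻¹ * x (-s⁻¹) := by rw [k3, k2]; simp only [mul_assoc]
    _ = x (-u * -u * -s⁻¹) * (hOf x y (-u) * wOf x y s⁻¹) * x (-s⁻¹) := by
        rw [R.h_conj (-u) (-s⁻¹) (neg_ne_zero.mpr hu)]; simp only [mul_assoc]
    _ = x (-(u * u) * s⁻¹) * wOf x y (-u * s⁻¹) * x (-s⁻¹) := by
        rw [k4]
        congr 3
        ring

end SL2Rel

open Classical in
/-- The value of the homomorphism on the matrix `[[a, b], [c, d]]`, via the Bruhat normal form. -/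
noncomputable def sl2Fun (x y : F → Γ) (a b c d : F) : Γ :=
  if c = 0 then x (a * b) * hOf x y a else x (a / c) * wOf x y (-c⁻¹) * x (d / c)

namespace SL2Rel

variable {x y : F → Γ} (R : SL2Rel x y)
include R

/-- Right multiplication by `[[1, t], [0, 1]]`. -/
theorem sl2Fun_U (a b c d t : F) (hdet : a * d - b * c = 1) :
    sl2Fun x y a (a * t + b) c (c * t + d) = sl2Fun x y a b c d * x t := by
  unfold sl2Fun
  by_cases hc : c = 0
  · rw [if_pos hc, if_pos hc]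
    have ha : a ≠ 0 := by
      rintro rfl
      rw [hc] at hdet
      simp at hdet
    rw [mul_assoc, R.h_conj a t ha, ← mul_assoc, ← R.x_add]
    congr 2
    ring
  · rw [if_neg hc, if_neg hc, mul_assoc _ _ (x t), ← R.x_add]
    congr 2
    field_simp
    ring

/-- Right multiplication by `[[0, 1], [-1, 0]]`. -/
theorem sl2Fun_W (a b c d : F) (hdet : a * d - b * c = 1) :
    sl2Fun x y (-b) a (-d) c = sl2Fun x y a b c d * wOf x y 1 := by
  unfold sl2Fun
  by_cases hc : c = 0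
  · subst hc
    have had : a * d = 1 := by simpa using hdet
    have hd : d ≠ 0 := right_ne_zero_of_mul_eq_one had
    have ha : a ≠ 0 := left_ne_zero_of_mul_eq_one had
    rw [if_neg (neg_ne_zero.mpr hd), if_pos rfl, zero_div, R.x_zero, mul_one, mul_assoc, ← R.w_eq]
    have e1 : -b / -d = a * b := by
      field_simp
      linear_combination (-b) * had
    have e2 : -(-d)⁻¹ = a := by
      field_simp
      linear_combination -had
    rw [e1, e2]
  · by_cases hd : d = 0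
    · subst hd
      have hbc : b * c = -1 := by linear_combination -hdet
      have hb : b ≠ 0 := by
        rintro rfl
        simp at hbc
      rw [if_pos neg_zero, if_neg hc, zero_div, R.x_zero, mul_one, R.w_eq (-c⁻¹), mul_assoc, mul_assoc, R.w1_sq,
        ← R.h_mul (-c⁻¹) (-1) (neg_ne_zero.mpr (inv_ne_zero hc)) (neg_ne_zero.mpr one_ne_zero)]
      have e1 : -b * a = a / c := by
        field_simp
        linear_combination (-a) * hbc
      have e2 : -c⁻¹ * -1 = -b := by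
        field_simp
        linear_combination hbc
      rw [e1, e2]
    · rw [if_neg (neg_ne_zero.mpr hd), if_neg hc]
      have hdc : d / c ≠ 0 := div_ne_zero hd hc
      have hk := R.key (-c⁻¹) (d / c) (neg_ne_zero.mpr (inv_ne_zero hc)) hdc
      have e0 : x (a / c) * wOf x y (-c⁻¹) * x (d / c) * wOf x y 1 =
          x (a / c) * (wOf x y (-c⁻¹) * x (d / c) * wOf x y 1) := by simp only [mul_assoc]
      rw [e0, hk, ← mul_assoc, ← mul_assoc, ← R.x_add]
      have e1 : a / c + -(-c⁻¹ * -c⁻¹) * (d / c)⁻¹ = -b / -d := by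
        field_simp
        linear_combination hdet
      have e2 : - -c⁻¹ * (d / c)⁻¹ = -(-d)⁻¹ := by
        field_simp
      have e3 : -(d / c)⁻¹ = c / -d := by
        field_simp
      rw [e1, e2, e3]

end SL2Rel

/-! ### Generators of `SL₂(F)` -/

/-- `[[1, t], [0, 1]]`. -/
def sl2U (t : F) : SpecialLinearGroup (Fin 2) F := ⟨!![1, t; 0, 1], by simp [det_fin_two]⟩

/-- `[[1, 0], [t, 1]]`. -/
def sl2L (t : F) : SpecialLinearGroup (Fin 2) F := ⟨!![1, 0; t, 1], by simp [det_fin_two]⟩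

/-- `[[0, 1], [-1, 0]]`. -/
def sl2W : SpecialLinearGroup (Fin 2) F := ⟨!![0, 1; -1, 0], by simp [det_fin_two]⟩

theorem sl2_det (g : SpecialLinearGroup (Fin 2) F) : g.1 0 0 * g.1 1 1 - g.1 0 1 * g.1 1 0 = 1 := by
  have h := g.2
  rw [det_fin_two] at h
  exact h

theorem sl2_ext (g g' : SpecialLinearGroup (Fin 2) F) (h00 : g.1 0 0 = g'.1 0 0) (h01 : g.1 0 1 = g'.1 0 1)
    (h10 : g.1 1 0 = g'.1 1 0) (h11 : g.1 1 1 = g'.1 1 1) : g = g' := by
  apply Subtype.ext
  ext i j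
  fin_cases i <;> fin_cases j <;> assumption

theorem sl2_mul_apply (g g' : SpecialLinearGroup (Fin 2) F) (i j : Fin 2) :
    (g * g').1 i j = g.1 i 0 * g'.1 0 j + g.1 i 1 * g'.1 1 j := by
  show (g.1 * g'.1) i j = _
  rw [Matrix.mul_apply, Fin.sum_univ_two]

theorem sl2U_00 (t : F) : (sl2U t).1 0 0 = 1 := rfl
theorem sl2U_01 (t : F) : (sl2U t).1 0 1 = t := rfl
theorem sl2U_10 (t : F) : (sl2U t).1 1 0 = 0 := rfl
theorem sl2U_11 (t : F) : (sl2U t).1 1 1 = 1 := rfl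
theorem sl2L_00 (t : F) : (sl2L t).1 0 0 = 1 := rfl
theorem sl2L_01 (t : F) : (sl2L t).1 0 1 = 0 := rfl
theorem sl2L_10 (t : F) : (sl2L t).1 1 0 = t := rfl
theorem sl2L_11 (t : F) : (sl2L t).1 1 1 = 1 := rfl
theorem sl2W_00 : (sl2W (F := F)).1 0 0 = 0 := rfl
theorem sl2W_01 : (sl2W (F := F)).1 0 1 = 1 := rfl
theorem sl2W_10 : (sl2W (F := F)).1 1 0 = -1 := rfl
theorem sl2W_11 : (sl2W (F := F)).1 1 1 = 0 := rfl

theorem sl2_mem_of_ne (P : Subgroup (SpecialLinearGroup (Fin 2) F)) (hU : ∀ t, sl2U t ∈ P)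
    (hL : ∀ t, sl2L t ∈ P) (g : SpecialLinearGroup (Fin 2) F) (hc : g.1 1 0 ≠ 0) : g ∈ P := by
  have hdet := sl2_det g
  have e : g = sl2U (g.1 0 0 / g.1 1 0) * (sl2U (-(g.1 1 0)⁻¹) * sl2L (g.1 1 0) * sl2U (-(g.1 1 0)⁻¹)) *
      sl2U (g.1 1 1 / g.1 1 0) := by
    apply sl2_ext
    · simp only [sl2_mul_apply, sl2U_00, sl2U_01, sl2U_10, sl2U_11, sl2L_00, sl2L_01, sl2L_10, sl2L_11]
      field_simp
      ring
    · simp only [sl2_mul_apply, sl2U_00, sl2U_01, sl2U_10, sl2U_11, sl2L_00, sl2L_01, sl2L_10, sl2L_11]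
      field_simp
      linear_combination (-(g.1 1 0)) * hdet
    · simp only [sl2_mul_apply, sl2U_00, sl2U_01, sl2U_10, sl2U_11, sl2L_00, sl2L_01, sl2L_10, sl2L_11]
      field_simp
      ring
    · simp only [sl2_mul_apply, sl2U_00, sl2U_01, sl2U_10, sl2U_11, sl2L_00, sl2L_01, sl2L_10, sl2L_11]
      field_simp
      ring
  rw [e]
  exact mul_mem (mul_mem (hU _) (mul_mem (mul_mem (hU _) (hL _)) (hU _))) (hU _)

theorem sl2L_eq (s : F) : sl2L s = sl2W * sl2U (-s) * sl2W⁻¹ := by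
  rw [eq_mul_inv_iff_mul_eq]
  apply sl2_ext <;>
    simp [sl2_mul_apply, sl2U_00, sl2U_01, sl2U_10, sl2U_11, sl2L_00, sl2L_01, sl2L_10, sl2L_11,
      sl2W_00, sl2W_01, sl2W_10, sl2W_11]

theorem sl2W_eq : (sl2W : SpecialLinearGroup (Fin 2) F) = sl2U 1 * sl2L (-1) * sl2U 1 := by
  apply sl2_ext <;>
    simp [sl2_mul_apply, sl2U_00, sl2U_01, sl2U_10, sl2U_11, sl2L_00, sl2L_01, sl2L_10, sl2L_11,
      sl2W_00, sl2W_01, sl2W_10, sl2W_11]

/-- `SL₂(F)` is generated by the upper unitriangular matrices and `[[0, 1], [-1, 0]]`. -/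
theorem sl2_gen_UW (P : Subgroup (SpecialLinearGroup (Fin 2) F)) (hU : ∀ t, sl2U t ∈ P) (hW : sl2W ∈ P) :
    P = ⊤ := by
  have hL : ∀ t, sl2L t ∈ P := fun t => by
    rw [sl2L_eq]
    exact mul_mem (mul_mem hW (hU _)) (inv_mem hW)
  rw [eq_top_iff]
  intro g _
  by_cases hc : g.1 1 0 = 0
  · have hdet := sl2_det g
    have hd : g.1 1 1 ≠ 0 := by
      intro h0
      rw [hc, h0] at hdet
      simp at hdet
    have h1 : g * sl2W ∈ P := by
      apply sl2_mem_of_ne P hU hL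
      rw [sl2_mul_apply, sl2W_00, sl2W_10]
      simpa using hd
    have h2 : g = g * sl2W * sl2W⁻¹ := by group
    rw [h2]
    exact mul_mem h1 (inv_mem hW)
  · exact sl2_mem_of_ne P hU hL g hc

/-- `SL₂(F)` is generated by the upper and lower unitriangular matrices. -/
theorem sl2_gen_UL (P : Subgroup (SpecialLinearGroup (Fin 2) F)) (hU : ∀ t, sl2U t ∈ P) (hL : ∀ t, sl2L t ∈ P) :
    P = ⊤ :=
  sl2_gen_UW P hU (by rw [sl2W_eq]; exact mul_mem (mul_mem (hU _) (hL _)) (hU _))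

/-! ### The homomorphism -/

/-- The map `SL₂(F) → Γ` defined through the Bruhat normal form. -/
noncomputable def sl2Map (x y : F → Γ) (g : SpecialLinearGroup (Fin 2) F) : Γ :=
  sl2Fun x y (g.1 0 0) (g.1 0 1) (g.1 1 0) (g.1 1 1)

namespace SL2Rel

variable {x y : F → Γ} (R : SL2Rel x y)
include R

theorem sl2Map_one : sl2Map x y 1 = 1 := by
  have h00 : (1 : SpecialLinearGroup (Fin 2) F).1 0 0 = 1 := rfl
  have h01 : (1 : SpecialLinearGroup (Fin 2) F).1 0 1 = 0 := rfl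
  have h10 : (1 : SpecialLinearGroup (Fin 2) F).1 1 0 = 0 := rfl
  unfold sl2Map sl2Fun
  rw [h00, h01, h10, if_pos rfl, mul_zero, R.x_zero, R.h_one, mul_one]

theorem sl2Map_U (t : F) : sl2Map x y (sl2U t) = x t := by
  unfold sl2Map sl2Fun
  rw [sl2U_00, sl2U_01, sl2U_10, if_pos rfl, one_mul, R.h_one, mul_one]

theorem sl2Map_W : sl2Map x y sl2W = wOf x y 1 := by
  unfold sl2Map sl2Fun
  rw [sl2W_00, sl2W_10, sl2W_11, if_neg (neg_ne_zero.mpr one_ne_zero), zero_div, R.x_zero, one_mul, mul_one]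
  congr 1
  simp

theorem sl2Map_L (t : F) : sl2Map x y (sl2L t) = y t := by
  unfold sl2Map sl2Fun
  rw [sl2L_00, sl2L_01, sl2L_10, sl2L_11]
  by_cases ht : t = 0
  · rw [if_pos ht, mul_zero, R.x_zero, R.h_one, mul_one, ht, R.y_zero]
  · rw [if_neg ht]
    unfold wOf
    rw [R.x_neg, inv_neg, neg_neg, inv_inv, one_div]
    group

theorem sl2Map_mul_U (g : SpecialLinearGroup (Fin 2) F) (t : F) :
    sl2Map x y (g * sl2U t) = sl2Map x y g * x t := by
  have h := R.sl2Fun_U (g.1 0 0) (g.1 0 1) (g.1 1 0) (g.1 1 1) t (sl2_det g)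
  unfold sl2Map
  rw [← h]
  simp only [sl2_mul_apply, sl2U_00, sl2U_01, sl2U_10, sl2U_11, mul_one, mul_zero, add_zero]

theorem sl2Map_mul_W (g : SpecialLinearGroup (Fin 2) F) :
    sl2Map x y (g * sl2W) = sl2Map x y g * wOf x y 1 := by
  have h := R.sl2Fun_W (g.1 0 0) (g.1 0 1) (g.1 1 0) (g.1 1 1) (sl2_det g)
  unfold sl2Map
  rw [← h]
  simp only [sl2_mul_apply, sl2W_00, sl2W_01, sl2W_10, sl2W_11, mul_one, mul_zero, add_zero, zero_add, mul_neg]

/-- The elements `g'` with `φ(g g') = φ(g) φ(g')` for all `g`. -/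
def mulSub : Subgroup (SpecialLinearGroup (Fin 2) F) where
  carrier := {g' | ∀ g, sl2Map x y (g * g') = sl2Map x y g * sl2Map x y g'}
  one_mem' := fun g => by rw [mul_one, R.sl2Map_one, mul_one]
  mul_mem' := by
    intro a b ha hb g
    rw [← mul_assoc, hb (g * a), ha g, hb a, mul_assoc]
  inv_mem' := by
    intro a ha g
    have h1 : ∀ g, sl2Map x y (g * a⁻¹) = sl2Map x y g * (sl2Map x y a)⁻¹ := fun g => by
      have h := ha (g * a⁻¹)
      rw [inv_mul_cancel_right] at h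
      rw [h, mul_inv_cancel_right]
    have h2 := h1 1
    rw [one_mul, R.sl2Map_one, one_mul] at h2
    rw [h1 g, h2]

theorem mulSub_eq_top : R.mulSub = ⊤ := by
  apply sl2_gen_UW
  · intro t g
    rw [R.sl2Map_mul_U, R.sl2Map_U]
  · intro g
    rw [R.sl2Map_mul_W, R.sl2Map_W]

/-- The homomorphism `SL₂(F) → Γ` attached to rank-one Steinberg relations. -/
noncomputable def hom : SpecialLinearGroup (Fin 2) F →* Γ :=
  MonoidHom.mk' (sl2Map x y) (fun g g' => by
    have h : g' ∈ R.mulSub := by rw [R.mulSub_eq_top]; trivial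
    exact h g)

theorem hom_U (t : F) : R.hom (sl2U t) = x t := R.sl2Map_U t

theorem hom_L (t : F) : R.hom (sl2L t) = y t := R.sl2Map_L t

theorem hom_range : R.hom.range = Subgroup.closure (Set.range x) ⊔ Subgroup.closure (Set.range y) := by
  apply le_antisymm
  · have htop : Subgroup.comap R.hom (Subgroup.closure (Set.range x) ⊔ Subgroup.closure (Set.range y)) = ⊤ := by
      apply sl2_gen_UL
      · intro t
        rw [Subgroup.mem_comap, R.hom_U]
        exact Subgroup.mem_sup_left (Subgroup.subset_closure ⟨t, rfl⟩)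
      · intro t
        rw [Subgroup.mem_comap, R.hom_L]
        exact Subgroup.mem_sup_right (Subgroup.subset_closure ⟨t, rfl⟩)
    rintro _ ⟨g, rfl⟩
    have : g ∈ Subgroup.comap R.hom (Subgroup.closure (Set.range x) ⊔ Subgroup.closure (Set.range y)) := by
      rw [htop]; trivial
    exact this
  · rw [sup_le_iff, Subgroup.closure_le, Subgroup.closure_le]
    constructor
    · rintro _ ⟨t, rfl⟩
      exact ⟨sl2U t, R.hom_U t⟩
    · rintro _ ⟨t, rfl⟩
      exact ⟨sl2L t, R.hom_L t⟩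

end SL2Rel

end Cfsg.Agent.Helper8
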