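import Cfsg.Agent.Helper8.ReachChk
import Cfsg.Agent.Helper8.SL2P
import Cfsg.Agent.S1032

set_option autoImplicit false

namespace Cfsg.Agent.Helper8

open Cfsg.Lie

variable {F : Type*} [Field F]

theorem cartan_simple_two (D : ChevalleyDatum) (hD : Std7 D) (i : ℕ) (hi : i < D.rank) :
    D.cartan i (D.simple i) = 2 := by
  have hD' := hD
  simp only [Std7, List.mem_cons, List.mem_nil_iff, or_false] at hD'
  have h7 : ∀ D' : ChevalleyDatum, (∀ i : Fin D'.rank, D'.cartan i.val (D'.simple i.val) = 2) →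
      i < D'.rank → D'.cartan i (D'.simple i) = 2 := fun D' h hi' => h ⟨i, hi'⟩
  rcases hD' with rfl | rfl | rfl | rfl | rfl | rfl | rfl
  · exact h7 _ (by decide +kernel) hi
  · exact h7 _ (by decide +kernel) hi
  · exact h7 _ (by decide +kernel) hi
  · exact h7 _ (by decide +kernel) hi
  · exact h7 _ (by decide +kernel) hi
  · exact h7 _ (by decide +kernel) hi
  · exact h7 _ (by decide +kernel) hi

theorem reflectRoot_simple_self (D : ChevalleyDatum) (i : ℕ) :
    D.reflectRoot i (D.simple i) = D.neg (D.simple i) := by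
  unfold ChevalleyDatum.reflectRoot
  simp

/-- `n_p(t) x_p(s) = x_{-p}(-t⁻² s) n_p(t)` for a fundamental root `p`. -/
theorem nMat_x_conj_simple (D : ChevalleyDatum) (hD : Std7 D) (i : ℕ) (hi : i < D.rank) (t s : F) (ht : t ≠ 0) :
    D.nMat F (D.simple i) t * D.x F (D.simple i) s =
      D.x F (D.neg (D.simple i)) (-(t⁻¹ * t⁻¹) * s) * D.nMat F (D.simple i) t := by
  have hp := std_simple_lt D hD i hi
  have hnp := std_neg_lt D hD _ hp
  have hη : etaOf D i (D.simple i) = -1 := (nMat_of_check D i hi (Cfsg.Agent.S1095.nCheck_all D hD i hi) (F := F)).2.1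
  have hc : D.cartan i (D.neg (D.simple i)) = -2 := by
    rw [(cartan_add_all D hD i hi _ hp).1, cartan_simple_two D hD i hi]
  have h1 := nconj_all D hD i hi _ hp s (F := F)
  rw [reflectRoot_simple_self, hη] at h1
  have h2 := Cfsg.Agent.S1032.result D hD i (D.neg (D.simple i)) hi hnp t ht (-s) (F := F)
  rw [hc] at h2
  have e1 : ((-1 : ℤ) : F) * s = -s := by push_cast; ring
  have e2 : t ^ (-2 : ℤ) * -s = -(t⁻¹ * t⁻¹) * s := by
    rw [zpow_neg, zpow_ofNat, pow_two, _root_.mul_inv_rev]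
    ring
  rw [e1] at h1
  rw [e2] at h2
  rw [nMat_eq_hMat_mul D _ (std_hroot D hD _ hp) t, mul_assoc, h1, ← mul_assoc, h2, mul_assoc]

/-- Conjugation of the root elements of `s` and `-s` by a product of the `n_p`, with a common sign. -/
theorem nProd_x_comm_pair (D : ChevalleyDatum) (hD : Std7 D) (l : List ℕ) (hl : ∀ i ∈ l, i < D.rank) (s : ℕ)
    (hs : s < D.nroots) (F : Type*) [Field F] :
    ∃ ε : ℤ, (ε = 1 ∨ ε = -1) ∧
      (∀ t : F, nProd D F l * D.x F s t = D.x F (reflWord D l s) ((ε : F) * t) * nProd D F l) ∧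
      (∀ t : F, nProd D F l * D.x F (D.neg s) t =
        D.x F (D.neg (reflWord D l s)) ((ε : F) * t) * nProd D F l) := by
  induction l with
  | nil => exact ⟨1, Or.inl rfl, fun t => by simp [nProd_nil, reflWord_nil],
      fun t => by simp [nProd_nil, reflWord_nil]⟩
  | cons i l ih =>
    have hl' : ∀ j ∈ l, j < D.rank := fun j hj => hl j (List.mem_cons_of_mem _ hj)
    have hi := hl i List.mem_cons_self
    obtain ⟨ε, hε, h, h'⟩ := ih hl'
    have hq := reflWord_lt D hD l hl' s hs
    obtain ⟨hnq, -, hrefl, heta⟩ := std_facts D hD i hi _ hq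
    refine ⟨etaOf D i (reflWord D l s) * ε, ?_, fun t => ?_, fun t => ?_⟩
    · rcases etaOf_cases D i (reflWord D l s) with h1 | h1 <;> rcases hε with h2 | h2 <;> simp [h1, h2]
    · rw [nProd_cons, mul_assoc, h t, ← mul_assoc, nconj_all D hD i hi _ hq, reflWord_cons, mul_assoc]
      congr 2
      push_cast
      ring
    · rw [nProd_cons, mul_assoc, h' t, ← mul_assoc, nconj_all D hD i hi _ hnq, reflWord_cons, hrefl, heta,
        mul_assoc]
      congr 2
      push_cast
      ring

/-- `n_r(t) x_r(s) = x_{-r}(-t⁻² s) n_r(t)` for every root `r`. -/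
theorem nMat_x_conj (D : ChevalleyDatum) (hD : Std7 D) (r : ℕ) (hr : r < D.nroots) (t s : F) (ht : t ≠ 0) :
    D.nMat F r t * D.x F r s = D.x F (D.neg r) (-(t⁻¹ * t⁻¹) * s) * D.nMat F r t := by
  obtain ⟨j, hj, l, hl, rfl⟩ := exists_reach D hD r hr
  obtain ⟨ε, hε, c1, c2⟩ := nProd_x_comm_pair D hD l hl (D.simple j) (std_simple_lt D hD j hj) F
  have he : (ε : F) * (ε : F) = 1 := by
    rcases hε with rfl | rfl <;> simp
  have he0 : (ε : F) ≠ 0 := left_ne_zero_of_mul_eq_one he
  have het : (ε : F) * t ≠ 0 := mul_ne_zero he0 ht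
  -- `N n_p(ε t) = n_r(t) N`
  have hA : nProd D F l * D.nMat F (D.simple j) ((ε : F) * t) =
      D.nMat F (reflWord D l (D.simple j)) t * nProd D F l := by
    have e1 : (ε : F) * ((ε : F) * t) = t := by rw [← mul_assoc, he, one_mul]
    have e2 : (ε : F) * -((ε : F) * t)⁻¹ = -t⁻¹ := by
      field_simp
    rw [nMat_eq, nMat_eq]
    calc nProd D F l * (D.x F (D.simple j) ((ε : F) * t) * D.x F (D.neg (D.simple j)) (-((ε : F) * t)⁻¹) *
          D.x F (D.simple j) ((ε : F) * t))
        = (nProd D F l * D.x F (D.simple j) ((ε : F) * t)) * D.x F (D.neg (D.simple j)) (-((ε : F) * t)⁻¹) *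
          D.x F (D.simple j) ((ε : F) * t) := by simp only [mul_assoc]
      _ = D.x F (reflWord D l (D.simple j)) t * (nProd D F l * D.x F (D.neg (D.simple j)) (-((ε : F) * t)⁻¹)) *
          D.x F (D.simple j) ((ε : F) * t) := by rw [c1, e1]; simp only [mul_assoc]
      _ = D.x F (reflWord D l (D.simple j)) t * D.x F (D.neg (reflWord D l (D.simple j))) (-t⁻¹) *
          (nProd D F l * D.x F (D.simple j) ((ε : F) * t)) := by rw [c2, e2]; simp only [mul_assoc]
      _ = D.x F (reflWord D l (D.simple j)) t * D.x F (D.neg (reflWord D l (D.simple j))) (-t⁻¹) *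
          D.x F (reflWord D l (D.simple j)) t * nProd D F l := by rw [c1, e1]; simp only [mul_assoc]
  have hB : D.nMat F (reflWord D l (D.simple j)) t * D.x F (reflWord D l (D.simple j)) s * nProd D F l =
      D.x F (D.neg (reflWord D l (D.simple j))) (-(t⁻¹ * t⁻¹) * s) * D.nMat F (reflWord D l (D.simple j)) t *
        nProd D F l := by
    have e1 : (ε : F) * ((ε : F) * s) = s := by rw [← mul_assoc, he, one_mul]
    have h1 : D.x F (reflWord D l (D.simple j)) s * nProd D F l =
        nProd D F l * D.x F (D.simple j) ((ε : F) * s) := by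
      rw [c1, e1]
    have e3 : (ε : F) * (-(((ε : F) * t)⁻¹ * ((ε : F) * t)⁻¹) * ((ε : F) * s)) = -(t⁻¹ * t⁻¹) * s := by
      field_simp
    rw [mul_assoc, h1, ← mul_assoc, ← hA, mul_assoc, nMat_x_conj_simple D hD j hj _ _ het, ← mul_assoc, c2, e3,
      mul_assoc, hA, mul_assoc]
  have hN : nProd D F l * ((nProdGL D F l)⁻¹ : GL D.Idx F).val = 1 := by
    rw [← nProdGL_val D hD F l hl, ← Units.val_mul, mul_inv_cancel, Units.val_one]
  have h3 := congrArg (fun M => M * ((nProdGL D F l)⁻¹ : GL D.Idx F).val) hB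
  simp only [mul_assoc, hN, mul_one] at h3
  exact h3

/-- The rank-one Steinberg relations hold for the root elements of `r` and `-r`. -/
theorem sl2Rel_root (D : ChevalleyDatum) (hD : Std7 D) (r : ℕ) (hr : r < D.nroots) :
    SL2Rel (fun t : F => xGL D hD F r hr t) (fun t : F => xGL D hD F (D.neg r) (std_neg_lt D hD r hr) t) := by
  have hw : ∀ t : F, ((wOf (fun t : F => xGL D hD F r hr t)
      (fun t : F => xGL D hD F (D.neg r) (std_neg_lt D hD r hr) t) t : GL D.Idx F) : Matrix D.Idx D.Idx F) =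
      D.nMat F r t := fun t => by
    rw [nMat_eq]
    rfl
  have hh : ∀ t : F, ((hOf (fun t : F => xGL D hD F r hr t)
      (fun t : F => xGL D hD F (D.neg r) (std_neg_lt D hD r hr) t) t : GL D.Idx F) : Matrix D.Idx D.Idx F) =
      D.hMat F r t := fun t => by
    have h1 : hOf (fun t : F => xGL D hD F r hr t) (fun t : F => xGL D hD F (D.neg r) (std_neg_lt D hD r hr) t) t *
        wOf (fun t : F => xGL D hD F r hr t) (fun t : F => xGL D hD F (D.neg r) (std_neg_lt D hD r hr) t) 1 =
        wOf (fun t : F => xGL D hD F r hr t) (fun t : F => xGL D hD F (D.neg r) (std_neg_lt D hD r hr) t) t := by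
      unfold hOf
      rw [inv_mul_cancel_right]
    have h2 := congrArg (fun g : GL D.Idx F => (g : Matrix D.Idx D.Idx F)) h1
    simp only [Units.val_mul, hw] at h2
    rw [nMat_eq_hMat_mul D r (std_hroot D hD r hr) t] at h2
    have h3 := congrArg (fun M => M * D.nMat F r (-1)) h2
    simp only [mul_assoc, nMat_one_mul_neg D r (std_hroot D hD r hr), mul_one] at h3
    exact h3
  refine ⟨fun s t => ?_, fun s t => ?_, fun t s ht => ?_, fun t u ht hu => ?_⟩
  · apply Units.ext
    show D.x F r (s + t) = D.x F r s * D.x F r t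
    rw [Cfsg.Agent.S1023.result D hD r hr]
  · apply Units.ext
    show D.x F (D.neg r) (s + t) = D.x F (D.neg r) s * D.x F (D.neg r) t
    rw [Cfsg.Agent.S1023.result D hD _ (std_neg_lt D hD r hr)]
  · apply Units.ext
    rw [Units.val_mul, Units.val_mul, hw]
    exact nMat_x_conj D hD r hr t s ht
  · apply Units.ext
    rw [Units.val_mul, hh, hh, hh, hMat_mul_of_check D r (std_hroot D hD r hr) t u ht hu]

/-- The homomorphism `SL₂(F) → ⟨X_r, X_{-r}⟩`. -/
theorem sl2_hom_root (D : ChevalleyDatum) (hD : Std7 D) (r : ℕ) (hr : r < D.nroots) :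
    ∃ φ : Matrix.SpecialLinearGroup (Fin 2) F →* GL D.Idx F,
      φ.range = D.rootSubgroup F r ⊔ D.rootSubgroup F (D.neg r) ∧
      ∀ (g : Matrix.SpecialLinearGroup (Fin 2) F) (t : F),
        ((g : Matrix (Fin 2) (Fin 2) F) = !![1, t; 0, 1] →
          ((φ g : GL D.Idx F) : Matrix D.Idx D.Idx F) = D.x F r t) ∧
        ((g : Matrix (Fin 2) (Fin 2) F) = !![1, 0; t, 1] →
          ((φ g : GL D.Idx F) : Matrix D.Idx D.Idx F) = D.x F (D.neg r) t) := by
  have R := sl2Rel_root D hD r hr (F := F)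
  refine ⟨R.hom, ?_, fun g t => ⟨fun hg => ?_, fun hg => ?_⟩⟩
  · rw [R.hom_range]
    have e1 : Set.range (fun t : F => xGL D hD F r hr t) =
        {g : GL D.Idx F | ∃ t : F, (g : Matrix D.Idx D.Idx F) = D.x F r t} := by
      ext g
      constructor
      · rintro ⟨t, rfl⟩
        exact ⟨t, rfl⟩
      · rintro ⟨t, hg⟩
        exact ⟨t, Units.ext hg.symm⟩
    have e2 : Set.range (fun t : F => xGL D hD F (D.neg r) (std_neg_lt D hD r hr) t) =
        {g : GL D.Idx F | ∃ t : F, (g : Matrix D.Idx D.Idx F) = D.x F (D.neg r) t} := by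
      ext g
      constructor
      · rintro ⟨t, rfl⟩
        exact ⟨t, rfl⟩
      · rintro ⟨t, hg⟩
        exact ⟨t, Units.ext hg.symm⟩
    rw [e1, e2]
    rfl
  · have e : g = sl2U t := Subtype.ext hg
    rw [e, R.hom_U]
    rfl
  · have e : g = sl2L t := Subtype.ext hg
    rw [e, R.hom_L]
    rfl

end Cfsg.Agent.Helper8
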