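import Cfsg.Agent.Helper8.SL2P

set_option autoImplicit false

namespace Cfsg.Agent.Helper8

open Matrix

variable {F : Type*} [Field F] {Γ : Type*} [Group Γ]

/-- The rank-one Steinberg relations (A) and (B') only (no torus relation), for a pair of
one-parameter families whose common centraliser is central. -/
structure SL2Pre (x y : F → Γ) : Prop where
  x_add : ∀ s t, x (s + t) = x s * x t
  y_add : ∀ s t, y (s + t) = y s * y t
  conj : ∀ t s, t ≠ 0 → wOf x y t * x s = y (-(t⁻¹ * t⁻¹) * s) * wOf x y t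
  central : ∀ c : Γ, (∀ s, c * x s = x s * c) → (∀ s, c * y s = y s * c) → ∀ g, c * g = g * c

namespace SL2Pre

variable {x y : F → Γ} (R : SL2Pre x y)
include R

theorem x_zero : x 0 = 1 := by
  have h := R.x_add 0 0
  rw [add_zero] at h
  exact left_eq_mul.mp h

theorem y_zero : y 0 = 1 := by
  have h := R.y_add 0 0
  rw [add_zero] at h
  exact left_eq_mul.mp h

theorem x_neg (t : F) : x (-t) = (x t)⁻¹ := by
  apply eq_inv_of_mul_eq_one_left
  rw [← R.x_add, neg_add_cancel, R.x_zero]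

theorem y_neg (t : F) : y (-t) = (y t)⁻¹ := by
  apply eq_inv_of_mul_eq_one_left
  rw [← R.y_add, neg_add_cancel, R.y_zero]

theorem w_inv (t : F) : (wOf x y t)⁻¹ = wOf x y (-t) := by
  unfold wOf
  rw [inv_neg, neg_neg, R.x_neg, _root_.mul_inv_rev, _root_.mul_inv_rev, ← R.y_neg, neg_neg, mul_assoc]

/-- `w(t) y(s) = x(-t² s) w(t)`. -/
theorem conj' (t s : F) (ht : t ≠ 0) : wOf x y t * y s = x (-(t * t) * s) * wOf x y t := by
  have h := R.conj (-t) (-(t * t) * s) (neg_ne_zero.mpr ht)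
  rw [← R.w_inv] at h
  have e : -((-t)⁻¹ * (-t)⁻¹) * (-(t * t) * s) = s := by
    field_simp
  rw [e] at h
  have h2 : x (-(t * t) * s) * wOf x y t = wOf x y t * ((wOf x y t)⁻¹ * x (-(t * t) * s)) * wOf x y t := by
    group
  rw [h2, h]
  group

theorem h_one : hOf x y 1 = 1 := by
  unfold hOf
  exact mul_inv_cancel _

theorem w1_inv_x (s : F) : (wOf x y 1)⁻¹ * x s = y (-s) * (wOf x y 1)⁻¹ := by
  have h := R.conj (-1) s (neg_ne_zero.mpr one_ne_zero)
  rw [← R.w_inv] at h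
  have e : -((-1 : F)⁻¹ * (-1 : F)⁻¹) * s = -s := by
    field_simp
  rw [e] at h
  exact h

theorem w1_inv_y (s : F) : (wOf x y 1)⁻¹ * y s = x (-s) * (wOf x y 1)⁻¹ := by
  have h := R.conj' (-1) s (neg_ne_zero.mpr one_ne_zero)
  rw [← R.w_inv] at h
  have e : -((-1 : F) * (-1 : F)) * s = -s := by ring
  rw [e] at h
  exact h

/-- `h(t) x(s) = x(t² s) h(t)`. -/
theorem h_conj_x (t s : F) (ht : t ≠ 0) : hOf x y t * x s = x (t * t * s) * hOf x y t := by
  unfold hOf
  rw [mul_assoc, R.w1_inv_x, ← mul_assoc, R.conj' t (-s) ht, mul_assoc]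
  congr 2
  ring

/-- `h(t) y(s) = y(t⁻² s) h(t)`. -/
theorem h_conj_y (t s : F) (ht : t ≠ 0) : hOf x y t * y s = y (t⁻¹ * t⁻¹ * s) * hOf x y t := by
  unfold hOf
  rw [mul_assoc, R.w1_inv_y, ← mul_assoc, R.conj t (-s) ht, mul_assoc]
  congr 2
  ring

/-- `w(t) = y(-t⁻¹) x(t) y(-t⁻¹)`. -/
theorem w_alt (t : F) (ht : t ≠ 0) : wOf x y t = y (-t⁻¹) * x t * y (-t⁻¹) := by
  have e1 : -(t⁻¹ * t⁻¹) * t = -t⁻¹ := by field_simp
  have e2 : -(t * t) * (-t⁻¹) = t := by field_simp
  have h1 : SemiconjBy (wOf x y t) (x t) (y (-t⁻¹)) := by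
    have h := R.conj t t ht
    rw [e1] at h
    exact h
  have h2 : SemiconjBy (wOf x y t) (y (-t⁻¹)) (x t) := by
    have h := R.conj' t (-t⁻¹) ht
    rw [e2] at h
    exact h
  have h3 : SemiconjBy (wOf x y t) (x t * y (-t⁻¹) * x t) (y (-t⁻¹) * x t * y (-t⁻¹)) :=
    (h1.mul_right h2).mul_right h1
  exact mul_right_cancel (b := wOf x y t) h3.eq

/-- `h(t) w(u) = w(t² u) h(t)`. -/
theorem h_conj_w (t u : F) (ht : t ≠ 0) (hu : u ≠ 0) :
    hOf x y t * wOf x y u = wOf x y (t * t * u) * hOf x y t := by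
  have e : t⁻¹ * t⁻¹ * (-u⁻¹) = -(t * t * u)⁻¹ := by field_simp
  have h1 : SemiconjBy (hOf x y t) (x u) (x (t * t * u)) := R.h_conj_x t u ht
  have h2 : SemiconjBy (hOf x y t) (y (-u⁻¹)) (y (-(t * t * u)⁻¹)) := by
    have h := R.h_conj_y t (-u⁻¹) ht
    rw [e] at h
    exact h
  exact ((h1.mul_right h2).mul_right h1).eq

/-- `h(t) h(u) h(t)⁻¹ = h(t² u) h(t²)⁻¹`. -/
theorem h_conj_h (t u : F) (ht : t ≠ 0) (hu : u ≠ 0) :
    hOf x y t * hOf x y u = hOf x y (t * t * u) * (hOf x y (t * t))⁻¹ * hOf x y t := by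
  have h1 := R.h_conj_w t u ht hu
  have h2 := R.h_conj_w t 1 ht one_ne_zero
  rw [mul_one] at h2
  have h3 : hOf x y t * (wOf x y 1)⁻¹ = (wOf x y (t * t))⁻¹ * hOf x y t :=
    (show SemiconjBy (hOf x y t) (wOf x y 1) (wOf x y (t * t)) from h2).inv_right.eq
  calc hOf x y t * hOf x y u = hOf x y t * wOf x y u * (wOf x y 1)⁻¹ := by
        show hOf x y t * (wOf x y u * (wOf x y 1)⁻¹) = _
        rw [mul_assoc]
    _ = wOf x y (t * t * u) * (hOf x y t * (wOf x y 1)⁻¹) := by rw [h1, mul_assoc]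
    _ = wOf x y (t * t * u) * (wOf x y (t * t))⁻¹ * hOf x y t := by rw [h3, ← mul_assoc]
    _ = hOf x y (t * t * u) * (hOf x y (t * t))⁻¹ * hOf x y t := by
        unfold hOf
        group

theorem comm_x (t u s : F) (ht : t ≠ 0) (hu : u ≠ 0) :
    SemiconjBy (hOf x y t * hOf x y u * (hOf x y (t * u))⁻¹) (x s) (x s) := by
  have htu : t * u ≠ 0 := mul_ne_zero ht hu
  have e : t * t * (u * u * ((t * u)⁻¹ * (t * u)⁻¹ * s)) = s := by field_simp
  have e' : t * u * (t * u) * ((t * u)⁻¹ * (t * u)⁻¹ * s) = s := by field_simp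
  have h3 : SemiconjBy (hOf x y (t * u))⁻¹ (x s) (x ((t * u)⁻¹ * (t * u)⁻¹ * s)) := by
    have h := R.h_conj_x (t * u) ((t * u)⁻¹ * (t * u)⁻¹ * s) htu
    rw [e'] at h
    exact (show SemiconjBy (hOf x y (t * u)) _ _ from h).inv_symm_left
  have h2 : SemiconjBy (hOf x y u) (x ((t * u)⁻¹ * (t * u)⁻¹ * s))
      (x (u * u * ((t * u)⁻¹ * (t * u)⁻¹ * s))) := R.h_conj_x u _ hu
  have h1 : SemiconjBy (hOf x y t) (x (u * u * ((t * u)⁻¹ * (t * u)⁻¹ * s))) (x s) := by
    have h := R.h_conj_x t (u * u * ((t * u)⁻¹ * (t * u)⁻¹ * s)) ht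
    rw [e] at h
    exact h
  exact (h1.mul_left h2).mul_left h3

theorem comm_y (t u s : F) (ht : t ≠ 0) (hu : u ≠ 0) :
    SemiconjBy (hOf x y t * hOf x y u * (hOf x y (t * u))⁻¹) (y s) (y s) := by
  have htu : t * u ≠ 0 := mul_ne_zero ht hu
  have e : t⁻¹ * t⁻¹ * (u⁻¹ * u⁻¹ * (t * u * (t * u) * s)) = s := by field_simp
  have e' : (t * u)⁻¹ * (t * u)⁻¹ * (t * u * (t * u) * s) = s := by field_simp
  have h3 : SemiconjBy (hOf x y (t * u))⁻¹ (y s) (y (t * u * (t * u) * s)) := by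
    have h := R.h_conj_y (t * u) (t * u * (t * u) * s) htu
    rw [e'] at h
    exact (show SemiconjBy (hOf x y (t * u)) _ _ from h).inv_symm_left
  have h2 : SemiconjBy (hOf x y u) (y (t * u * (t * u) * s))
      (y (u⁻¹ * u⁻¹ * (t * u * (t * u) * s))) := R.h_conj_y u _ hu
  have h1 : SemiconjBy (hOf x y t) (y (u⁻¹ * u⁻¹ * (t * u * (t * u) * s))) (y s) := by
    have h := R.h_conj_y t (u⁻¹ * u⁻¹ * (t * u * (t * u) * s)) ht
    rw [e] at h
    exact h
  exact (h1.mul_left h2).mul_left h3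

/-- The symbol `h(t) h(u) h(tu)⁻¹` is central. -/
theorem c_central (t u : F) (ht : t ≠ 0) (hu : u ≠ 0) (g : Γ) :
    hOf x y t * hOf x y u * (hOf x y (t * u))⁻¹ * g =
      g * (hOf x y t * hOf x y u * (hOf x y (t * u))⁻¹) :=
  R.central _ (fun s => (R.comm_x t u s ht hu).eq) (fun s => (R.comm_y t u s ht hu).eq) g

theorem h_pow (r : F) (hr : r ≠ 0) (m : ℕ) :
    ∃ c : Γ, (∀ g, c * g = g * c) ∧ hOf x y (r ^ m) = c * hOf x y r ^ m := by
  induction m with
  | zero => exact ⟨1, fun g => by rw [one_mul, mul_one], by rw [pow_zero, pow_zero, R.h_one, mul_one]⟩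
  | succ m ih =>
    obtain ⟨c, hc, hm⟩ := ih
    have hrm : r ^ m ≠ 0 := pow_ne_zero m hr
    have h2 : ∀ g, (hOf x y (r ^ m) * hOf x y r * (hOf x y (r ^ m * r))⁻¹)⁻¹ * g =
        g * (hOf x y (r ^ m) * hOf x y r * (hOf x y (r ^ m * r))⁻¹)⁻¹ := fun g =>
      ((show Commute _ g from R.c_central (r ^ m) r hrm hr g).inv_left).eq
    refine ⟨(hOf x y (r ^ m) * hOf x y r * (hOf x y (r ^ m * r))⁻¹)⁻¹ * c, ?_, ?_⟩
    · intro g
      rw [mul_assoc, hc g, ← mul_assoc, h2 g, mul_assoc]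
    · have hm' : c * hOf x y r ^ m = hOf x y (r ^ m) := hm.symm
      rw [pow_succ, pow_succ]
      calc hOf x y (r ^ m * r) = (hOf x y (r ^ m) * hOf x y r * (hOf x y (r ^ m * r))⁻¹)⁻¹ *
            (hOf x y (r ^ m) * hOf x y r) := by group
        _ = (hOf x y (r ^ m) * hOf x y r * (hOf x y (r ^ m * r))⁻¹)⁻¹ *
            (c * hOf x y r ^ m * hOf x y r) := by rw [hm']
        _ = _ := by simp only [mul_assoc]

/-- Over a finite field the `h(t)` commute with each other. -/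
theorem h_comm [Finite F] (t u : F) (ht : t ≠ 0) (hu : u ≠ 0) :
    hOf x y t * hOf x y u = hOf x y u * hOf x y t := by
  obtain ⟨r, hr⟩ := IsCyclic.exists_monoid_generator (α := Fˣ)
  obtain ⟨m, hm⟩ := hr (Units.mk0 t ht)
  obtain ⟨n, hn⟩ := hr (Units.mk0 u hu)
  have hm' : (r : F) ^ m = t := by
    have := congrArg (fun z : Fˣ => (z : F)) hm
    simpa using this
  have hn' : (r : F) ^ n = u := by
    have := congrArg (fun z : Fˣ => (z : F)) hn
    simpa using this
  obtain ⟨c, hc, e1⟩ := R.h_pow (r : F) r.ne_zero m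
  obtain ⟨d, hd, e2⟩ := R.h_pow (r : F) r.ne_zero n
  rw [← hm', ← hn', e1, e2]
  calc c * hOf x y (r : F) ^ m * (d * hOf x y (r : F) ^ n)
      = c * (hOf x y (r : F) ^ m * d) * hOf x y (r : F) ^ n := by simp only [mul_assoc]
    _ = c * (d * hOf x y (r : F) ^ m) * hOf x y (r : F) ^ n := by rw [hd]
    _ = c * d * (hOf x y (r : F) ^ m * hOf x y (r : F) ^ n) := by simp only [mul_assoc]
    _ = d * c * (hOf x y (r : F) ^ n * hOf x y (r : F) ^ m) := by
        rw [hc d, ← pow_add, ← pow_add, add_comm]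
    _ = d * (c * hOf x y (r : F) ^ n) * hOf x y (r : F) ^ m := by simp only [mul_assoc]
    _ = d * (hOf x y (r : F) ^ n * c) * hOf x y (r : F) ^ m := by rw [hc]
    _ = d * hOf x y (r : F) ^ n * (c * hOf x y (r : F) ^ m) := by simp only [mul_assoc]

/-- `h(a² b) = h(a²) h(b)` over a finite field. -/
theorem h_sq_mul [Finite F] (a b : F) (ha : a ≠ 0) (hb : b ≠ 0) :
    hOf x y (a * a * b) = hOf x y (a * a) * hOf x y b := by
  have h1 := R.h_conj_h a b ha hb
  have h2 := R.h_comm a b ha hb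
  rw [h2] at h1
  have h3 : hOf x y b = hOf x y (a * a * b) * (hOf x y (a * a))⁻¹ := mul_right_cancel h1
  have h4 := R.h_comm (a * a) b (mul_ne_zero ha ha) hb
  rw [h4]
  conv_rhs => rw [h3]
  rw [inv_mul_cancel_right]

/-- `h(ab) = h(b) h(a)` when `a + b = 1`. -/
theorem h_mul_of_add_eq_one (a b : F) (ha : a ≠ 0) (hb : b ≠ 0) (hab : a + b = 1) :
    hOf x y (a * b) = hOf x y b * hOf x y a := by
  have key : wOf x y (a * b) = wOf x y b * (wOf x y 1)⁻¹ * wOf x y a := by
    have e1 : -(a * b)⁻¹ = -b⁻¹ + -a⁻¹ := by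
      field_simp
      linear_combination hab
    have yb : y (-b⁻¹) = (x b)⁻¹ * wOf x y b * (x b)⁻¹ := by
      unfold wOf
      group
    have ya : y (-a⁻¹) = (x a)⁻¹ * wOf x y a * (x a)⁻¹ := by
      unfold wOf
      group
    have x1 : x (a * b) * (x b)⁻¹ = x (-(b * b) * 1) := by
      rw [← R.x_neg, ← R.x_add]
      congr 1
      linear_combination b * hab
    have x2 : (x b)⁻¹ * (x a)⁻¹ = x (-1) := by
      rw [← R.x_neg, ← R.x_neg, ← R.x_add]
      congr 1
      linear_combination -hab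
    have x3 : (x a)⁻¹ * x (a * b) = x (-(a * a)) := by
      rw [← R.x_neg, ← R.x_add]
      congr 1
      linear_combination a * hab
    have c1 : x (-(b * b) * 1) * wOf x y b = wOf x y b * y 1 := (R.conj' b 1 hb).symm
    have c2 : wOf x y a * x (-(a * a)) = y 1 * wOf x y a := by
      have h := R.conj a (-(a * a)) ha
      have e : -(a⁻¹ * a⁻¹) * -(a * a) = 1 := by field_simp
      rw [e] at h
      exact h
    have c3 : y 1 * x (-1) * y 1 = (wOf x y 1)⁻¹ := by
      rw [R.w_inv, R.w_alt (-1) (neg_ne_zero.mpr one_ne_zero)]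
      have e : -(-1 : F)⁻¹ = 1 := by simp
      rw [e]
    calc wOf x y (a * b) = x (a * b) * (y (-b⁻¹) * y (-a⁻¹)) * x (a * b) := by
          unfold wOf
          rw [e1, R.y_add]
      _ = (x (a * b) * (x b)⁻¹) * wOf x y b * ((x b)⁻¹ * (x a)⁻¹) * wOf x y a *
            ((x a)⁻¹ * x (a * b)) := by
          rw [yb, ya]
          simp only [mul_assoc]
      _ = x (-(b * b) * 1) * wOf x y b * x (-1) * wOf x y a * x (-(a * a)) := by rw [x1, x2, x3]
      _ = wOf x y b * y 1 * x (-1) * (wOf x y a * x (-(a * a))) := by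
          rw [c1]
          simp only [mul_assoc]
      _ = wOf x y b * (y 1 * x (-1) * y 1) * wOf x y a := by
          rw [c2]
          simp only [mul_assoc]
      _ = wOf x y b * (wOf x y 1)⁻¹ * wOf x y a := by rw [c3]
  unfold hOf
  rw [key]
  simp only [mul_assoc]

/-- The torus relation (C) follows from (A) and (B') over a finite field. -/
theorem h_mul [Finite F] (t u : F) (ht : t ≠ 0) (hu : u ≠ 0) :
    hOf x y (t * u) = hOf x y t * hOf x y u := by
  classical
  by_cases hst : IsSquare t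
  · obtain ⟨c, rfl⟩ := hst
    have hc : c ≠ 0 := fun h => ht (by rw [h, mul_zero])
    exact R.h_sq_mul c u hc hu
  by_cases hsu : IsSquare u
  · obtain ⟨c, rfl⟩ := hsu
    have hc : c ≠ 0 := fun h => hu (by rw [h, mul_zero])
    rw [mul_comm t, R.h_sq_mul c t hc ht]
    exact R.h_comm _ _ (mul_ne_zero hc hc) ht
  have hchar : ringChar F ≠ 2 := fun h => hst (FiniteField.isSquare_of_char_two h t)
  haveI := Fintype.ofFinite F
  have hodd := FiniteField.odd_card_of_char_ne_two hchar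
  have hf : (Polynomial.C t * Polynomial.X ^ 2 : Polynomial F).degree = 2 :=
    Polynomial.degree_C_mul_X_pow 2 ht
  have hg : (Polynomial.C u * Polynomial.X ^ 2 + Polynomial.C (-1) : Polynomial F).degree = 2 := by
    rw [Polynomial.degree_add_C, Polynomial.degree_C_mul_X_pow 2 hu]
    · rfl
    · rw [Polynomial.degree_C_mul_X_pow 2 hu]
      decide
  obtain ⟨c, d, hcd⟩ := FiniteField.exists_root_sum_quadratic hf hg hodd
  have hcd' : c * c * t + d * d * u = 1 := by
    simp only [Polynomial.eval_add, Polynomial.eval_mul, Polynomial.eval_C, Polynomial.eval_pow,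
      Polynomial.eval_X] at hcd
    linear_combination hcd
  have hc : c ≠ 0 := by
    rintro rfl
    have h1 : d * d * u = 1 := by linear_combination hcd'
    have hd0 : d ≠ 0 := by
      rintro rfl
      simp at h1
    exact hsu ⟨d⁻¹, by field_simp; linear_combination h1⟩
  have hd : d ≠ 0 := by
    rintro rfl
    have h1 : c * c * t = 1 := by linear_combination hcd'
    exact hst ⟨c⁻¹, by field_simp; linear_combination h1⟩
  have hcc : c * c ≠ 0 := mul_ne_zero hc hc
  have hdd : d * d ≠ 0 := mul_ne_zero hd hd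
  have k1 := R.h_mul_of_add_eq_one (c * c * t) (d * d * u) (mul_ne_zero hcc ht) (mul_ne_zero hdd hu) hcd'
  have e : c * c * t * (d * d * u) = (c * d) * (c * d) * (t * u) := by ring
  rw [e, R.h_sq_mul (c * d) (t * u) (mul_ne_zero hc hd) (mul_ne_zero ht hu), R.h_sq_mul d u hd hu,
    R.h_sq_mul c t hc ht] at k1
  have e2 : c * d * (c * d) = c * c * (d * d) := by ring
  rw [e2, R.h_sq_mul c (d * d) hc hdd] at k1
  have k2 : hOf x y (d * d) * hOf x y u * (hOf x y (c * c) * hOf x y t) =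
      hOf x y (c * c) * hOf x y (d * d) * (hOf x y t * hOf x y u) := by
    have a1 := R.h_comm (d * d) (c * c) hdd hcc
    have a2 := R.h_comm u (c * c) hu hcc
    have a3 := R.h_comm u t hu ht
    calc hOf x y (d * d) * hOf x y u * (hOf x y (c * c) * hOf x y t)
        = hOf x y (d * d) * (hOf x y u * hOf x y (c * c)) * hOf x y t := by simp only [mul_assoc]
      _ = hOf x y (d * d) * hOf x y (c * c) * (hOf x y u * hOf x y t) := by
          rw [a2]
          simp only [mul_assoc]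
      _ = _ := by rw [a1, a3]
  rw [k2] at k1
  exact mul_left_cancel k1

/-- Over a finite field, (A) and (B') give the full rank-one Steinberg relations. -/
theorem toRel [Finite F] : SL2Rel x y := ⟨R.x_add, R.y_add, R.conj, R.h_mul⟩

end SL2Pre

end Cfsg.Agent.Helper8
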