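import Cfsg.Agent.Helper8.Rad2

set_option autoImplicit false

namespace Cfsg.Agent.Helper8

open Cfsg.Lie

/-! ### Expansion of a root in the fundamental roots, and its transport along words -/

/-- Table check: `A · adj(A) = det(A) · 1` for the Cartan matrix. -/
def adjRChk (D : ChevalleyDatum) (k : ℕ) : Bool :=
  allF (fun m => decide (sumTo (fun j => D.cartan k (D.simple j) * gzT (adjOf D) j m) D.rank =
    @Bool.rec (fun _ => ℤ) 0 (detOf D) (Nat.beq k m))) (List.range D.rank)

set_option maxRecDepth 100000 in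
theorem adjR_G2 : ∀ j, 0 ≤ j → j < 2 → adjRChk chevG2 j = true :=
  range_all (adjRChk chevG2) 0 2 (by decide +kernel)

set_option maxRecDepth 100000 in
theorem adjR_B2 : ∀ j, 0 ≤ j → j < 2 → adjRChk chevB2 j = true :=
  range_all (adjRChk chevB2) 0 2 (by decide +kernel)

set_option maxRecDepth 100000 in
theorem adjR_D4 : ∀ j, 0 ≤ j → j < 4 → adjRChk chevD4 j = true :=
  range_all (adjRChk chevD4) 0 4 (by decide +kernel)

set_option maxRecDepth 100000 in
theorem adjR_F4 : ∀ j, 0 ≤ j → j < 4 → adjRChk chevF4 j = true :=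
  range_all (adjRChk chevF4) 0 4 (by decide +kernel)

set_option maxRecDepth 100000 in
theorem adjR_E6 : ∀ j, 0 ≤ j → j < 6 → adjRChk chevE6 j = true :=
  range_all (adjRChk chevE6) 0 6 (by decide +kernel)

set_option maxRecDepth 100000 in
theorem adjR_E7 : ∀ j, 0 ≤ j → j < 7 → adjRChk chevE7 j = true :=
  range_all (adjRChk chevE7) 0 7 (by decide +kernel)

set_option maxRecDepth 100000 in
theorem adjR_E8 : ∀ j, 0 ≤ j → j < 8 → adjRChk chevE8 j = true :=
  range_all (adjRChk chevE8) 0 8 (by decide +kernel)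

theorem adjR_all (D : ChevalleyDatum) (hD : Std7 D) (s : ℕ) (hs : s < D.rank) : adjRChk D s = true := by
  simp only [Std7, List.mem_cons, List.mem_nil_iff, or_false] at hD
  rcases hD with rfl | rfl | rfl | rfl | rfl | rfl | rfl
  · exact adjR_G2 s (Nat.zero_le _) hs
  · exact adjR_B2 s (Nat.zero_le _) hs
  · exact adjR_D4 s (Nat.zero_le _) hs
  · exact adjR_F4 s (Nat.zero_le _) hs
  · exact adjR_E6 s (Nat.zero_le _) hs
  · exact adjR_E7 s (Nat.zero_le _) hs
  · exact adjR_E8 s (Nat.zero_le _) hs

theorem adjR_eq (D : ChevalleyDatum) (hD : Std7 D) (k m : ℕ) (hk : k < D.rank) (hm : m < D.rank) :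
    ∑ j ∈ Finset.range D.rank, D.cartan k (D.simple j) * gzT (adjOf D) j m = if k = m then detOf D else 0 := by
  have h := of_decide_eq_true (allF_mem _ _ (adjR_all D hD k hk) m (List.mem_range.mpr hm))
  rw [sumTo_eq, boolRec_beq] at h
  exact h

/-- `det · A_{p_k, r} = Σ_j c_j(r) A_{p_k, p_j}`: the root `r` is the combination of the fundamental roots with the
(scaled) coordinates `c_j(r)`. -/
theorem cartan_expand (D : ChevalleyDatum) (hD : Std7 D) (r : ℕ) (k : ℕ) (hk : k < D.rank) :
    detOf D * D.cartan k r = ∑ j ∈ Finset.range D.rank, rc D j r * D.cartan k (D.simple j) := by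
  have e1 : ∀ j ∈ Finset.range D.rank, rc D j r * D.cartan k (D.simple j) =
      ∑ m ∈ Finset.range D.rank, D.cartan m r * (D.cartan k (D.simple j) * gzT (adjOf D) j m) := by
    intro j _
    rw [rc_eq, Finset.sum_mul]
    apply Finset.sum_congr rfl
    intro m _
    ring
  rw [Finset.sum_congr rfl e1, Finset.sum_comm]
  have e2 : ∀ m ∈ Finset.range D.rank,
      ∑ j ∈ Finset.range D.rank, D.cartan m r * (D.cartan k (D.simple j) * gzT (adjOf D) j m) =
        if k = m then detOf D * D.cartan k r else 0 := by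
    intro m hm
    rw [← Finset.mul_sum, adjR_eq D hD k m hk (Finset.mem_range.mp hm)]
    split_ifs with hkm
    · subst hkm
      ring
    · ring
  rw [Finset.sum_congr rfl e2, Finset.sum_ite_eq, if_pos (Finset.mem_range.mpr hk)]

theorem word_expand (D : ChevalleyDatum) (hD : Std7 D) (l : List ℕ) (hl : ∀ a ∈ l, a < D.rank) (r : ℕ)
    (hr : r < D.nroots) : ∀ k, k < D.rank →
      detOf D * D.cartan k (reflWord D l r) =
        ∑ j ∈ Finset.range D.rank, rc D j r * D.cartan k (reflWord D l (D.simple j)) := by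
  induction l with
  | nil =>
    intro k hk
    exact cartan_expand D hD r k hk
  | cons a l ih =>
    have ha : a < D.rank := hl a List.mem_cons_self
    have hl' : ∀ b ∈ l, b < D.rank := fun b hb => hl b (List.mem_cons_of_mem _ hb)
    intro k hk
    have e1 : ∀ j ∈ Finset.range D.rank, rc D j r * D.cartan k (reflWord D (a :: l) (D.simple j)) =
        rc D j r * D.cartan k (reflWord D l (D.simple j)) -
          rc D j r * D.cartan a (reflWord D l (D.simple j)) * D.cartan k (D.simple a) := by
      intro j hj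
      rw [reflWord_cons, std_cartan_refl D hD a ha k hk _
        (reflWord_lt D hD l hl' _ (std_simple_lt D hD j (Finset.mem_range.mp hj)))]
      ring
    rw [Finset.sum_congr rfl e1, Finset.sum_sub_distrib, ← Finset.sum_mul, ← ih hl' k hk, ← ih hl' a ha,
      reflWord_cons, std_cartan_refl D hD a ha k hk _ (reflWord_lt D hD l hl' r hr)]
    ring

theorem word_expand_rc (D : ChevalleyDatum) (hD : Std7 D) (l : List ℕ) (hl : ∀ a ∈ l, a < D.rank) (r : ℕ)
    (hr : r < D.nroots) (m : ℕ) :
    detOf D * rc D m (reflWord D l r) =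
      ∑ j ∈ Finset.range D.rank, rc D j r * rc D m (reflWord D l (D.simple j)) := by
  have e1 : ∀ j ∈ Finset.range D.rank, rc D j r * rc D m (reflWord D l (D.simple j)) =
      ∑ k ∈ Finset.range D.rank, gzT (adjOf D) m k * (rc D j r * D.cartan k (reflWord D l (D.simple j))) := by
    intro j _
    rw [rc_eq D m, Finset.mul_sum]
    apply Finset.sum_congr rfl
    intro k _
    ring
  rw [Finset.sum_congr rfl e1, Finset.sum_comm, rc_eq D m, Finset.mul_sum]
  apply Finset.sum_congr rfl
  intro k hk
  rw [← Finset.mul_sum, ← word_expand D hD l hl r hr k (Finset.mem_range.mp hk)]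
  ring

theorem not_inRootSub_empty (D : ChevalleyDatum) (hD : Std7 D) (r : ℕ) : ¬ D.InRootSub (∅ : Set ℕ) r := by
  intro h
  obtain ⟨l, k, -, -, hk, -⟩ := root_word' D hD ∅ r h
  exact hk

/-- A word sending the fundamental roots of `J` to positive roots sends the positive roots of `Φ_J` to positive
roots. -/
theorem word_pos_of_simpleJ (D : ChevalleyDatum) (hD : Std7 D) (J : Set ℕ) (l : List ℕ) (hl : ∀ a ∈ l, a < D.rank)
    (hJpos : ∀ j, j < D.rank → j ∈ J → D.IsPosRoot (reflWord D l (D.simple j)))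
    (r : ℕ) (hr : D.IsPosRoot r) (hrJ : D.InRootSub J r) : D.IsPosRoot (reflWord D l r) := by
  have hlt := reflWord_lt D hD l hl r hr.1
  have hnn : ∀ m, m < D.rank → 0 ≤ rc D m (reflWord D l r) := by
    intro m hm
    have h1 : 0 ≤ detOf D * rc D m (reflWord D l r) := by
      rw [word_expand_rc D hD l hl r hr.1 m]
      apply Finset.sum_nonneg
      intro j hj
      have hj' := Finset.mem_range.mp hj
      by_cases hjJ : j ∈ J
      · exact mul_nonneg (rc_nonneg D hD r hr j hj') (rc_nonneg D hD _ (hJpos j hj' hjJ) m hm)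
      · rw [((inRootSub_iff D hD J r).mp hrJ).2 j hj' hjJ, zero_mul]
    exact (mul_nonneg_iff_of_pos_left (detOf_pos D hD)).mp h1
  rcases pos_or_neg D hD _ hlt with hp | hn
  · exact hp
  · exfalso
    apply not_inRootSub_empty D hD (reflWord D l r)
    rw [inRootSub_iff D hD]
    refine ⟨hlt, fun i hi _ => ?_⟩
    have h1 := rc_nonpos D hD _ hn i hi
    have h2 := hnn i hi
    omega

/-- Words in the letters of `J` preserve `Φ_J`. -/
theorem jword_inJ (D : ChevalleyDatum) (hD : Std7 D) (J : Set ℕ) (l : List ℕ) (hl : ∀ a ∈ l, a < D.rank ∧ a ∈ J)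
    (r : ℕ) (hr : D.InRootSub J r) : D.InRootSub J (reflWord D l r) := by
  induction l with
  | nil => exact hr
  | cons a l ih =>
    have ha := hl a List.mem_cons_self
    have hl' : ∀ b ∈ l, b < D.rank ∧ b ∈ J := fun b hb => hl b (List.mem_cons_of_mem _ hb)
    have h1 := ih hl'
    rw [reflWord_cons]
    have hlt : D.reflectRoot a (reflWord D l r) < D.nroots := (reflectRoot_invol D hD a ha.1 _ h1.1).1
    apply inJ_of_lvJ_zero D hD J _ hlt
    rw [lvJ_refl D hD J a ha.1 ha.2 _ h1.1, lvJ_inJ D hD J _ h1]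

/-- Words in the letters of `J` preserve the level. -/
theorem jword_lv (D : ChevalleyDatum) (hD : Std7 D) (J : Set ℕ) (l : List ℕ) (hl : ∀ a ∈ l, a < D.rank ∧ a ∈ J)
    (r : ℕ) (hr : r < D.nroots) : lvJ D J (reflWord D l r) = lvJ D J r := by
  induction l with
  | nil => rfl
  | cons a l ih =>
    have ha := hl a List.mem_cons_self
    have hl' : ∀ b ∈ l, b < D.rank ∧ b ∈ J := fun b hb => hl b (List.mem_cons_of_mem _ hb)
    rw [reflWord_cons, lvJ_refl D hD J a ha.1 ha.2 _ (reflWord_lt D hD l (fun b hb => (hl' b hb).1) r hr), ih hl']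

/-- A word in the letters of `J` sends the fundamental roots outside `J` to positive roots. -/
theorem jword_pos_out (D : ChevalleyDatum) (hD : Std7 D) (J : Set ℕ) (l : List ℕ) (hl : ∀ a ∈ l, a < D.rank ∧ a ∈ J)
    (i : ℕ) (hi : i < D.rank) (hiJ : i ∉ J) : D.IsPosRoot (reflWord D l (D.simple i)) := by
  have hsi := std_simple_lt D hD i hi
  have hlv : 0 < lvJ D J (reflWord D l (D.simple i)) := by
    rw [jword_lv D hD J l hl _ hsi]
    exact lvJ_pos D hD J _ (simple_pos D hD i hi) (not_inRootSub_simple D hD J i hi hiJ)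
  exact (pos_of_lvJ_pos D hD J _ (reflWord_lt D hD l (fun b hb => (hl b hb).1) _ hsi) hlv).1

end Cfsg.Agent.Helper8
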