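import Cfsg.Agent.Helper8.St1

set_option autoImplicit false

namespace Cfsg.Agent.Helper8

open Cfsg.Lie

variable {F : Type*} [Field F]

/-! ### Cells `B n B` and the fundamental roots they keep positive -/

theorem pos_of_toPos_word (D : ChevalleyDatum) (hD : Std7 D) (l : List ℕ) (hl : ∀ i ∈ l, i < D.rank) (h : GL D.Idx F)
    (hh : h ∈ D.diagonalSubgroup F) (r : ℕ) (hr : r < D.nroots) (hp : ToPos D F (nProdGL D F l * h) r) :
    D.IsPosRoot (reflWord D l r) := by
  rcases pos_or_neg D hD _ (reflWord_lt D hD l hl r hr) with h1 | h1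
  · exact h1
  · exact absurd (toNeg_of_word D hD l hl h hh r hr h1) (fun hneg => not_toPos_toNeg D hD _ r hr hp hneg)

/-- `ToPos n r` depends only on the double coset `B n B`. -/
theorem toPos_of_bnb (D : ChevalleyDatum) (hD : Std7 D) (n n₁ : GL D.Idx F) (hn : n ∈ D.monomialSubgroup F)
    (hn₁ : n₁ ∈ D.monomialSubgroup F)
    (h : ∃ b ∈ D.borelSubgroup F, ∃ b' ∈ D.borelSubgroup F, n = b * n₁ * b') (r : ℕ) (hr : r < D.nroots)
    (hpos : ToPos D F n r) : ToPos D F n₁ r := by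
  have hH := bn_coset_unique D hD n n₁ hn hn₁ h
  obtain ⟨k, l, -, hl, h0, hh0, rfl⟩ := monomial_word D hD n hn
  have hp := pos_of_toPos_word D hD l hl h0 hh0 r hr hpos
  have e : n₁ = nProdGL D F l * (h0 * ((nProdGL D F l * h0)⁻¹ * n₁)) := by group
  rw [e]
  exact toPos_of_word D hD l hl _ (mul_mem hh0 hH) r hr hp

/-- `B n B · n_p ⊆ B n n_p B` when `n` keeps the fundamental root `p` positive. -/
theorem bn_right (D : ChevalleyDatum) (hD : Std7 D) (j : ℕ) (hj : j < D.rank) (n : GL D.Idx F)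
    (hpos : ToPos D F n (D.simple j)) (b : GL D.Idx F) (hb : b ∈ D.borelSubgroup F) :
    ∃ b1 ∈ D.borelSubgroup F, ∃ b2 ∈ D.borelSubgroup F,
      n * b * nGL D F (D.simple j) = b1 * (n * nGL D F (D.simple j)) * b2 := by
  have hp := std_simple_lt D hD j hj
  obtain ⟨u, hu, h, hh, rfl⟩ := mem_borel D hD b hb
  obtain ⟨u', hu', t, hut⟩ := mem_pos_decomp D hD j hj u⁻¹ (inv_mem hu)
  have hsN : nGL D F (D.simple j) ∈ D.monomialSubgroup F := nGL_mem D hD F _ hp
  have hsq := nGL_sq_mem D hD (D.simple j) hp (F := F)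
  have h1 : n * (xGL D hD F (D.simple j) hp t)⁻¹ * n⁻¹ ∈ D.borelSubgroup F :=
    pos_le_borel D (hpos (Subgroup.mem_map_of_mem _ (inv_mem (xGL_mem_rootSubgroup D hD _ hp t))))
  have h2 : (nGL D F (D.simple j))⁻¹ * u'⁻¹ * nGL D F (D.simple j) ∈ D.borelSubgroup F := by
    have h3 := upGrp_conj D hD j hj (wPos_all D hD j hj) u'⁻¹ (inv_mem hu')
    have e : (nGL D F (D.simple j))⁻¹ * u'⁻¹ * nGL D F (D.simple j) =
        (nGL D F (D.simple j) * nGL D F (D.simple j))⁻¹ *
          (nGL D F (D.simple j) * u'⁻¹ * (nGL D F (D.simple j))⁻¹) *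
          (nGL D F (D.simple j) * nGL D F (D.simple j)) := by group
    rw [e]
    exact mul_mem (mul_mem (inv_mem (diagonal_le_borel D hsq)) (upGrp_le_borel D j h3)) (diagonal_le_borel D hsq)
  have h4 : (nGL D F (D.simple j))⁻¹ * h * nGL D F (D.simple j) ∈ D.borelSubgroup F :=
    diagonal_le_borel D (diag_conj_mem' D hD _ _ hsN hh)
  refine ⟨_, h1, _, mul_mem h2 h4, ?_⟩
  have e : u = (xGL D hD F (D.simple j) hp t)⁻¹ * u'⁻¹ := by
    have e0 : u = (u⁻¹)⁻¹ := (inv_inv u).symm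
    rw [e0, hut, mul_inv_rev]
  rw [e]
  group

/-- The exchange property, keeping track of the letters. -/
theorem exchangeJ (D : ChevalleyDatum) (hD : Std7 D) (i : ℕ) (hi : i < D.rank) :
    ∀ l : List ℕ, (∀ j ∈ l, j < D.rank) → D.IsNegRoot (reflWord D l (D.simple i)) →
    ∃ l' : List ℕ, l'.length + 1 = l.length ∧ (∀ j ∈ l', j ∈ l) ∧ ∃ h ∈ D.diagonalSubgroup F,
      nProdGL D F l * nGL D F (D.simple i) = nProdGL D F l' * h := by
  intro l
  induction l with
  | nil =>
    intro _ hneg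
    exact absurd hneg (fun h => pos_neg_excl D hD _ (simple_pos D hD i hi) h)
  | cons j l ih =>
    intro hl hneg
    have hj := hl j List.mem_cons_self
    have hl' : ∀ k ∈ l, k < D.rank := fun k hk => hl k (List.mem_cons_of_mem _ hk)
    have hp := std_simple_lt D hD i hi
    have hpj := std_simple_lt D hD j hj
    have hβ := reflWord_lt D hD l hl' _ hp
    rw [reflWord_cons] at hneg
    rcases pos_or_neg D hD _ hβ with hpos | hneg'
    · have hβeq : reflWord D l (D.simple i) = D.simple j := by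
        by_contra hne
        exact pos_neg_excl D hD _ (wPos_sound D j (wPos_all D hD j hj) _ hpos hne).1 hneg
      have hPN := nProdGL_mem D hD F l hl'
      rcases nProdGL_nGL_comm D hD l hl' i j hi hj hβeq (F := F) with e | e
      · refine ⟨l, by simp, fun a ha => List.mem_cons_of_mem _ ha,
          (nProdGL D F l)⁻¹ * (nGL D F (D.simple j) * nGL D F (D.simple j)) * nProdGL D F l,
          diag_conj_mem' D hD _ _ hPN (nGL_sq_mem D hD _ hpj), ?_⟩
        rw [nProdGL_cons, mul_assoc, e]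
        group
      · refine ⟨l, by simp, fun a ha => List.mem_cons_of_mem _ ha, 1, one_mem _, ?_⟩
        rw [nProdGL_cons, mul_assoc, e]
        group
    · obtain ⟨l'', hlen, hl'', h, hh, heq⟩ := ih hl' hneg'
      refine ⟨j :: l'', by simp [hlen], ?_, h, hh, ?_⟩
      · intro k hk
        rcases List.mem_cons.mp hk with rfl | hk
        · exact List.mem_cons_self
        · exact List.mem_cons_of_mem _ (hl'' k hk)
      · rw [nProdGL_cons, nProdGL_cons, mul_assoc, heq, mul_assoc]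

/-- `m` is a product of `k` elements `n_p`, `p ∈ J` fundamental, times an element of `H`. -/
def IsJWordLen (D : ChevalleyDatum) (F : Type*) [Field F] (J : Set ℕ) (m : GL D.Idx F) (k : ℕ) : Prop :=
  ∃ l : List ℕ, l.length = k ∧ (∀ a ∈ l, a < D.rank ∧ a ∈ J) ∧ ∃ h ∈ D.diagonalSubgroup F, m = nProdGL D F l * h

/-- `B n B · m ⊆ B n m B` for `n` keeping the fundamental roots of `J` positive and `m ∈ N_J`. -/
theorem bn_prod (D : ChevalleyDatum) (hD : Std7 D) (J : Set ℕ) (l₀ : List ℕ) (hl₀ : ∀ a ∈ l₀, a < D.rank)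
    (h₀ : GL D.Idx F) (hh₀ : h₀ ∈ D.diagonalSubgroup F)
    (hJ : ∀ j, j < D.rank → j ∈ J → D.IsPosRoot (reflWord D l₀ (D.simple j))) :
    ∀ k : ℕ, ∀ m : GL D.Idx F, IsJWordLen D F J m k → (∀ k', k' < k → ¬ IsJWordLen D F J m k') →
      ∀ b ∈ D.borelSubgroup F, ∃ b1 ∈ D.borelSubgroup F, ∃ b2 ∈ D.borelSubgroup F,
        nProdGL D F l₀ * h₀ * b * m = b1 * (nProdGL D F l₀ * h₀ * m) * b2 := by
  intro k
  induction k with
  | zero =>
    rintro m ⟨l, hlen, -, h, hh, rfl⟩ - b hb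
    have hl : l = [] := List.length_eq_zero_iff.mp hlen
    subst hl
    refine ⟨1, one_mem _, h⁻¹ * b * h,
      mul_mem (mul_mem (inv_mem (diagonal_le_borel D hh)) hb) (diagonal_le_borel D hh), ?_⟩
    rw [nProdGL_nil]
    group
  | succ k ih =>
    rintro m ⟨l, hlen, hl, h, hh, rfl⟩ hmin b hb
    rcases List.eq_nil_or_concat l with rfl | ⟨l', j, hle⟩
    · simp at hlen
    · rw [List.concat_eq_append] at hle
      subst hle
      have hj : j < D.rank ∧ j ∈ J := hl j (by simp)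
      have hl' : ∀ a ∈ l', a < D.rank ∧ a ∈ J := fun a ha => hl a (by simp [ha])
      have hl'r : ∀ a ∈ l', a < D.rank := fun a ha => (hl' a ha).1
      have hlen' : l'.length = k := by simpa using hlen
      have hp := std_simple_lt D hD j hj.1
      have hsN : nGL D F (D.simple j) ∈ D.monomialSubgroup F := nGL_mem D hD F _ hp
      have hm' : IsJWordLen D F J (nProdGL D F l') k := ⟨l', hlen', hl', 1, one_mem _, by rw [mul_one]⟩
      have hmeq : nProdGL D F (l' ++ [j]) * h = nProdGL D F l' * nGL D F (D.simple j) * h := by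
        rw [nProdGL_append, nProdGL_cons, nProdGL_nil, mul_one]
      have hmin' : ∀ k', k' < k → ¬ IsJWordLen D F J (nProdGL D F l') k' := by
        rintro k' hk' ⟨l₁, hlen₁, hl₁, h₁, hh₁, heq₁⟩
        apply hmin (k' + 1) (by omega)
        refine ⟨l₁ ++ [j], by simp [hlen₁], ?_, (nGL D F (D.simple j))⁻¹ * h₁ * nGL D F (D.simple j) * h,
          mul_mem (diag_conj_mem' D hD _ _ hsN hh₁) hh, ?_⟩
        · intro a ha
          rcases List.mem_append.mp ha with ha | ha
          · exact hl₁ a ha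
          · rw [List.mem_singleton] at ha
            rw [ha]
            exact hj
        · rw [hmeq, heq₁, nProdGL_append, nProdGL_cons, nProdGL_nil, mul_one]
          group
      have hβpos : D.IsPosRoot (reflWord D l' (D.simple j)) := by
        rcases pos_or_neg D hD _ (reflWord_lt D hD l' hl'r _ hp) with h1 | h1
        · exact h1
        · exfalso
          obtain ⟨l'', hlen'', hsub, h'', hh'', heq⟩ := exchangeJ D hD j hj.1 l' hl'r h1 (F := F)
          apply hmin (k - 1) (by omega)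
          refine ⟨l'', by omega, fun a ha => hl' a (hsub a ha), h'' * h, mul_mem hh'' hh, ?_⟩
          rw [hmeq, heq, mul_assoc]
      have hβJ : D.InRootSub J (reflWord D l' (D.simple j)) :=
        jword_inJ D hD J l' hl' _ (inRootSub_simple D hD J j hj.1 hj.2)
      obtain ⟨b1, hb1, b2, hb2, e1⟩ := ih (nProdGL D F l') hm' hmin' b hb
      have hPN : nProdGL D F l' ∈ D.monomialSubgroup F := nProdGL_mem D hD F l' hl'r
      have hword : nProdGL D F l₀ * h₀ * nProdGL D F l' =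
          nProdGL D F (l₀ ++ l') * ((nProdGL D F l')⁻¹ * h₀ * nProdGL D F l') := by
        rw [nProdGL_append]
        group
      have hl₀l' : ∀ a ∈ l₀ ++ l', a < D.rank := by
        intro a ha
        rcases List.mem_append.mp ha with ha | ha
        · exact hl₀ a ha
        · exact hl'r a ha
      have htp : ToPos D F (nProdGL D F l₀ * h₀ * nProdGL D F l') (D.simple j) := by
        rw [hword]
        apply toPos_of_word D hD (l₀ ++ l') hl₀l' _ (diag_conj_mem' D hD _ _ hPN hh₀) _ hp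
        rw [reflWord_append]
        exact word_pos_of_simpleJ D hD J l₀ hl₀ hJ _ hβpos hβJ
      obtain ⟨b3, hb3, b4, hb4, e2⟩ := bn_right D hD j hj.1 _ htp b2 hb2
      refine ⟨b1 * b3, mul_mem hb1 hb3, h⁻¹ * b4 * h,
        mul_mem (mul_mem (inv_mem (diagonal_le_borel D hh)) hb4) (diagonal_le_borel D hh), ?_⟩
      rw [hmeq]
      calc nProdGL D F l₀ * h₀ * b * (nProdGL D F l' * nGL D F (D.simple j) * h)
          = (nProdGL D F l₀ * h₀ * b * nProdGL D F l') * nGL D F (D.simple j) * h := by group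
        _ = b1 * (nProdGL D F l₀ * h₀ * nProdGL D F l' * b2 * nGL D F (D.simple j)) * h := by
            rw [e1]
            group
        _ = b1 * (b3 * (nProdGL D F l₀ * h₀ * nProdGL D F l' * nGL D F (D.simple j)) * b4) * h := by rw [e2]
        _ = _ := by group

/-! ### `P_J = B N_J B` -/

/-- The subgroup of the elements whose left translations stabilise a set. -/
def leftStab {G : Type*} [Group G] (S : Set G) : Subgroup G where
  carrier := {g | (∀ x ∈ S, g * x ∈ S) ∧ (∀ x ∈ S, g⁻¹ * x ∈ S)}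
  mul_mem' := by
    rintro a b ⟨ha1, ha2⟩ ⟨hb1, hb2⟩
    refine ⟨fun x hx => ?_, fun x hx => ?_⟩
    · rw [mul_assoc]
      exact ha1 _ (hb1 x hx)
    · rw [mul_inv_rev, mul_assoc]
      exact hb2 _ (ha2 x hx)
  one_mem' := ⟨fun x hx => by rwa [one_mul], fun x hx => by rwa [inv_one, one_mul]⟩
  inv_mem' := by
    rintro a ⟨ha1, ha2⟩
    exact ⟨ha2, fun x hx => by rw [inv_inv]; exact ha1 x hx⟩

theorem mem_leftStab {G : Type*} [Group G] (S : Set G) (g : G) :
    g ∈ leftStab S ↔ (∀ x ∈ S, g * x ∈ S) ∧ (∀ x ∈ S, g⁻¹ * x ∈ S) := Iff.rfl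

/-- The set `B N_J B`. -/
def bnjSet (D : ChevalleyDatum) (F : Type*) [Field F] (J : Set ℕ) : Set (GL D.Idx F) :=
  {x | ∃ b1 ∈ D.borelSubgroup F, ∃ m : GL D.Idx F, (∃ k, IsJWordLen D F J m k) ∧
    ∃ b2 ∈ D.borelSubgroup F, x = b1 * m * b2}

theorem parabolic_bnb (D : ChevalleyDatum) (hD : Std7 D) (J : Set ℕ) (p : GL D.Idx F)
    (hp : p ∈ D.parabolicSubgroup F J) : p ∈ bnjSet D F J := by
  have hB : D.borelSubgroup F ≤ leftStab (bnjSet D F J) := by
    intro b hb
    rw [mem_leftStab]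
    refine ⟨?_, ?_⟩
    · rintro x ⟨b1, hb1, m, hm, b2, hb2, rfl⟩
      exact ⟨b * b1, mul_mem hb hb1, m, hm, b2, hb2, by group⟩
    · rintro x ⟨b1, hb1, m, hm, b2, hb2, rfl⟩
      exact ⟨b⁻¹ * b1, mul_mem (inv_mem hb) hb1, m, hm, b2, hb2, by group⟩
  have hn1 : ∀ j, j < D.rank → j ∈ J → ∀ x ∈ bnjSet D F J, nGL D F (D.simple j) * x ∈ bnjSet D F J := by
    rintro j hj hjJ x ⟨b1, hb1, m, ⟨k, l, hlen, hl, h, hh, rfl⟩, b2, hb2, rfl⟩
    have hmN : nProdGL D F l * h ∈ D.monomialSubgroup F :=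
      mul_mem (nProdGL_mem D hD F l (fun a ha => (hl a ha).1)) (diagonal_le_monomial D hh)
    have e : nGL D F (D.simple j) * (b1 * (nProdGL D F l * h) * b2) =
        (nGL D F (D.simple j) * b1 * (nProdGL D F l * h)) * b2 := by group
    rw [e]
    rcases bn_mul_mem_union D hD j hj b1 _ hb1 hmN with h1 | h1
    · rw [DoubleCoset.mem_doubleCoset] at h1
      obtain ⟨c1, hc1, c2, hc2, h1⟩ := h1
      refine ⟨c1, hc1, nGL D F (D.simple j) * (nProdGL D F l * h),
        ⟨k + 1, j :: l, by simp [hlen], ?_, h, hh, ?_⟩, c2 * b2, mul_mem hc2 hb2, ?_⟩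
      · intro a ha
        rcases List.mem_cons.mp ha with rfl | ha
        · exact ⟨hj, hjJ⟩
        · exact hl a ha
      · rw [nProdGL_cons, mul_assoc]
      · rw [h1]
        group
    · rw [DoubleCoset.mem_doubleCoset] at h1
      obtain ⟨c1, hc1, c2, hc2, h1⟩ := h1
      exact ⟨c1, hc1, nProdGL D F l * h, ⟨k, l, hlen, hl, h, hh, rfl⟩, c2 * b2, mul_mem hc2 hb2, by
        rw [h1]
        group⟩
  have hP : D.parabolicSubgroup F J ≤ leftStab (bnjSet D F J) := by
    unfold ChevalleyDatum.parabolicSubgroup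
    refine sup_le hB ?_
    rw [Subgroup.closure_le]
    rintro g ⟨j, hjJ, hj, hg⟩
    have hpj := std_simple_lt D hD j hj
    have hg' : g = nGL D F (D.simple j) := Units.ext (by rw [hg, nGL_val D hD F _ hpj])
    rw [hg', SetLike.mem_coe, mem_leftStab]
    refine ⟨hn1 j hj hjJ, fun x hx => ?_⟩
    have hsq := nGL_sq_mem D hD (D.simple j) hpj (F := F)
    have e : (nGL D F (D.simple j))⁻¹ * x =
        (nGL D F (D.simple j) * nGL D F (D.simple j))⁻¹ * (nGL D F (D.simple j) * x) := by group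
    rw [e]
    exact ((mem_leftStab _ _).mp (hB (inv_mem (diagonal_le_borel D hsq)))).1 _ (hn1 j hj hjJ x hx)
  have h1 : (1 : GL D.Idx F) ∈ bnjSet D F J :=
    ⟨1, one_mem _, 1, ⟨0, [], rfl, by simp, 1, one_mem _, by rw [nProdGL_nil, mul_one]⟩, 1, one_mem _, by group⟩
  have h2 := ((mem_leftStab _ _).mp (hP hp)).1 1 h1
  rwa [mul_one] at h2

/-- An element of `N_J` which, after a word keeping the fundamental roots of `J` positive, still keeps them
positive, lies in `H`. -/
theorem jword_mem_diag (D : ChevalleyDatum) (hD : Std7 D) (J : Set ℕ) (l₀ : List ℕ) (hl₀ : ∀ a ∈ l₀, a < D.rank)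
    (hJ : ∀ j, j < D.rank → j ∈ J → D.IsPosRoot (reflWord D l₀ (D.simple j)))
    (l : List ℕ) (hl : ∀ a ∈ l, a < D.rank ∧ a ∈ J) (h : GL D.Idx F) (hh : h ∈ D.diagonalSubgroup F)
    (hJ2 : ∀ j, j < D.rank → j ∈ J → D.IsPosRoot (reflWord D l₀ (reflWord D l (D.simple j)))) :
    nProdGL D F l * h ∈ D.diagonalSubgroup F := by
  have hlr : ∀ a ∈ l, a < D.rank := fun a ha => (hl a ha).1
  apply mono_pos_mem_diag D hD l.length _ ⟨l, rfl, hlr, h, hh, rfl⟩
  intro i hi
  have hsi := std_simple_lt D hD i hi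
  apply toPos_of_word D hD l hlr h hh _ hsi
  by_cases hiJ : i ∈ J
  · have hγJ : D.InRootSub J (reflWord D l (D.simple i)) :=
      jword_inJ D hD J l hl _ (inRootSub_simple D hD J i hi hiJ)
    rcases pos_or_neg D hD _ hγJ.1 with hp | hn
    · exact hp
    · exfalso
      have hp' := (neg_swap D hD _ hγJ.1).2 hn
      have h1 := word_pos_of_simpleJ D hD J l₀ hl₀ hJ _ hp' (inRootSub_neg D hD J _ hγJ)
      rw [reflWord_neg D hD l₀ hl₀ _ hγJ.1] at h1
      have h2 := (neg_swap D hD _ (reflWord_lt D hD l₀ hl₀ _ hγJ.1)).1 (hJ2 i hi hiJ)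
      exact pos_neg_excl D hD _ h1 h2
  · exact jword_pos_out D hD J l hl i hi hiJ

/-- Two cosets `g B` in cells keeping the fundamental roots of `J` positive and lying in the same coset of `P_J`
coincide. -/
theorem jpos_coset_inj (D : ChevalleyDatum) (hD : Std7 D) (J : Set ℕ) (l₀ : List ℕ) (hl₀ : ∀ a ∈ l₀, a < D.rank)
    (h₀ : GL D.Idx F) (hh₀ : h₀ ∈ D.diagonalSubgroup F)
    (hJ : ∀ j, j < D.rank → j ∈ J → D.IsPosRoot (reflWord D l₀ (D.simple j)))
    (n' : GL D.Idx F) (hn' : n' ∈ D.monomialSubgroup F)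
    (hJ' : ∀ j, j < D.rank → j ∈ J → ToPos D F n' (D.simple j))
    (b b' : GL D.Idx F) (hb : b ∈ D.borelSubgroup F) (hb' : b' ∈ D.borelSubgroup F) (p : GL D.Idx F)
    (hp : p ∈ D.parabolicSubgroup F J) (heq : b * (nProdGL D F l₀ * h₀) * p = b' * n') :
    p ∈ D.borelSubgroup F := by
  classical
  obtain ⟨b1, hb1, m, hm, b2, hb2, rfl⟩ := parabolic_bnb D hD J p hp
  have hspec := Nat.find_spec hm
  have hmin : ∀ k', k' < Nat.find hm → ¬ IsJWordLen D F J m k' := fun k' hk' => Nat.find_min hm hk'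
  obtain ⟨c1, hc1, c2, hc2, e1⟩ := bn_prod D hD J l₀ hl₀ h₀ hh₀ hJ _ m hspec hmin b1 hb1
  obtain ⟨l, -, hl, h, hh, hmeq⟩ := hspec
  have hlr : ∀ a ∈ l, a < D.rank := fun a ha => (hl a ha).1
  have hn₀ : nProdGL D F l₀ * h₀ ∈ D.monomialSubgroup F :=
    mul_mem (nProdGL_mem D hD F l₀ hl₀) (diagonal_le_monomial D hh₀)
  have hmN : m ∈ D.monomialSubgroup F := by
    rw [hmeq]
    exact mul_mem (nProdGL_mem D hD F l hlr) (diagonal_le_monomial D hh)
  have hnmN : nProdGL D F l₀ * h₀ * m ∈ D.monomialSubgroup F := mul_mem hn₀ hmN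
  have h3 : b * (c1 * (nProdGL D F l₀ * h₀ * m) * c2) * b2 = b' * n' := by
    rw [← e1, ← heq]
    group
  have key : n' = (b'⁻¹ * (b * c1)) * (nProdGL D F l₀ * h₀ * m) * (c2 * b2) := by
    calc n' = b'⁻¹ * (b' * n') := by group
      _ = b'⁻¹ * (b * (c1 * (nProdGL D F l₀ * h₀ * m) * c2) * b2) := by rw [h3]
      _ = _ := by group
  have hword : nProdGL D F l₀ * h₀ * m =
      nProdGL D F (l₀ ++ l) * ((nProdGL D F l)⁻¹ * h₀ * nProdGL D F l * h) := by
    rw [hmeq, nProdGL_append]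
    group
  have hl₀l : ∀ a ∈ l₀ ++ l, a < D.rank := by
    intro a ha
    rcases List.mem_append.mp ha with ha | ha
    · exact hl₀ a ha
    · exact hlr a ha
  have hhw : (nProdGL D F l)⁻¹ * h₀ * nProdGL D F l * h ∈ D.diagonalSubgroup F :=
    mul_mem (diag_conj_mem' D hD _ _ (nProdGL_mem D hD F l hlr) hh₀) hh
  have hJ2 : ∀ j, j < D.rank → j ∈ J → D.IsPosRoot (reflWord D l₀ (reflWord D l (D.simple j))) := by
    intro j hj hjJ
    have h4 : ToPos D F (nProdGL D F l₀ * h₀ * m) (D.simple j) :=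
      toPos_of_bnb D hD n' _ hn' hnmN
        ⟨b'⁻¹ * (b * c1), mul_mem (inv_mem hb') (mul_mem hb hc1), c2 * b2, mul_mem hc2 hb2, key⟩ _
        (std_simple_lt D hD j hj) (hJ' j hj hjJ)
    rw [hword] at h4
    have h5 := pos_of_toPos_word D hD (l₀ ++ l) hl₀l _ hhw _ (std_simple_lt D hD j hj) h4
    rwa [reflWord_append] at h5
  have hmH : m ∈ D.diagonalSubgroup F := by
    rw [hmeq]
    exact jword_mem_diag D hD J l₀ hl₀ hJ l hl h hh hJ2
  exact mul_mem (mul_mem hb1 (diagonal_le_borel D hmH)) hb2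

/-- Every word can be multiplied on the right by an element of `P_J ∩ N` so as to keep the fundamental roots of
`J` positive. -/
theorem jpos_reduce (D : ChevalleyDatum) (hD : Std7 D) (J : Set ℕ) : ∀ k : ℕ, ∀ l : List ℕ, l.length = k →
    (∀ a ∈ l, a < D.rank) →
    ∃ m ∈ D.parabolicSubgroup F J, ∃ (l' : List ℕ) (h' : GL D.Idx F), (∀ a ∈ l', a < D.rank) ∧
      h' ∈ D.diagonalSubgroup F ∧ (∀ j, j < D.rank → j ∈ J → D.IsPosRoot (reflWord D l' (D.simple j))) ∧
      nProdGL D F l * m = nProdGL D F l' * h' := by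
  intro k
  induction k using Nat.strong_induction_on with
  | _ k ih =>
  intro l hlen hl
  by_cases hall : ∀ j, j < D.rank → j ∈ J → D.IsPosRoot (reflWord D l (D.simple j))
  · exact ⟨1, one_mem _, l, 1, hl, one_mem _, hall, rfl⟩
  · push Not at hall
    obtain ⟨j, hj, hjJ, hnp⟩ := hall
    have hp := std_simple_lt D hD j hj
    have hneg : D.IsNegRoot (reflWord D l (D.simple j)) := by
      rcases pos_or_neg D hD _ (reflWord_lt D hD l hl _ hp) with h1 | h1
      · exact absurd h1 hnp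
      · exact h1
    obtain ⟨l₁, hlen₁, hl₁, h₁, hh₁, heq⟩ := exchange D hD j hj l hl hneg (F := F)
    obtain ⟨m₁, hm₁, l', h', hl', hh', hJ', heq'⟩ := ih l₁.length (by omega) l₁ rfl hl₁
    refine ⟨nGL D F (D.simple j) * h₁⁻¹ * m₁, ?_, l', h', hl', hh', hJ', ?_⟩
    · exact mul_mem (mul_mem (nGL_mem_parabolic D hD J j hj hjJ)
        (borel_le_parabolic D J (diagonal_le_borel D (inv_mem hh₁)))) hm₁
    · rw [← heq']
      calc nProdGL D F l * (nGL D F (D.simple j) * h₁⁻¹ * m₁)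
          = (nProdGL D F l * nGL D F (D.simple j)) * h₁⁻¹ * m₁ := by group
        _ = _ := by
            rw [heq]
            group

theorem jpos_exists (D : ChevalleyDatum) (hD : Std7 D) (J : Set ℕ) (g : GL D.Idx F) (hg : g ∈ D.group F) :
    ∃ p ∈ D.parabolicSubgroup F J, ∃ b ∈ D.borelSubgroup F, ∃ (l : List ℕ) (h : GL D.Idx F),
      (∀ a ∈ l, a < D.rank) ∧ h ∈ D.diagonalSubgroup F ∧
      (∀ j, j < D.rank → j ∈ J → D.IsPosRoot (reflWord D l (D.simple j))) ∧
      g * p = b * (nProdGL D F l * h) := by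
  obtain ⟨b, hb, n, hn, u, hu, rfl⟩ := bruhat_exists D hD g hg
  have hu' : u ∈ D.posUnipotent F := negGens_le_pos D n hu
  obtain ⟨k, l, hlen, hl, h, hh, rfl⟩ := monomial_word D hD n hn
  obtain ⟨m, hm, l', h', hl', hh', hJ', heq⟩ := jpos_reduce D hD J k l hlen hl (F := F)
  refine ⟨(h * u)⁻¹ * m, ?_, b, hb, l', h', hl', hh', hJ', ?_⟩
  · exact mul_mem (inv_mem (borel_le_parabolic D J (mul_mem (diagonal_le_borel D hh) (pos_le_borel D hu')))) hm
  · rw [← heq]
    group

/-! ### The big cell -/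

/-- An element of `N` sending all fundamental roots to negative roots lies in `n₀ H`. -/
theorem top_unique (D : ChevalleyDatum) (hD : Std7 D) (l0 : List ℕ) (h0 : w0Check D l0 = true) (l : List ℕ)
    (hl : ∀ a ∈ l, a < D.rank) (h : GL D.Idx F) (hh : h ∈ D.diagonalSubgroup F)
    (hneg : ∀ i, i < D.rank → D.IsNegRoot (reflWord D l (D.simple i))) :
    (nProdGL D F l0)⁻¹ * (nProdGL D F l * h) ∈ D.diagonalSubgroup F := by
  obtain ⟨hl0, -, -⟩ := w0Check_sound D hD l0 h0
  have hconj := conj_pos_eq_neg D hD F l0 h0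
  have hn0 : nProdGL D F l0 ∈ D.monomialSubgroup F := nProdGL_mem D hD F l0 hl0
  have hn : nProdGL D F l * h ∈ D.monomialSubgroup F :=
    mul_mem (nProdGL_mem D hD F l hl) (diagonal_le_monomial D hh)
  obtain ⟨k, hk⟩ := monomial_word D hD _ (mul_mem (inv_mem hn0) hn)
  apply mono_pos_mem_diag D hD k _ hk
  intro i hi
  have hsi := std_simple_lt D hD i hi
  have htn := toNeg_of_word D hD l hl h hh _ hsi (hneg i hi)
  intro x hx
  obtain ⟨y, hy, rfl⟩ := Subgroup.mem_map.mp hx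
  have h1 : nProdGL D F l * h * y * (nProdGL D F l * h)⁻¹ ∈ D.negUnipotent F :=
    htn (Subgroup.mem_map_of_mem _ hy)
  rw [← hconj] at h1
  obtain ⟨u, hu, hue⟩ := Subgroup.mem_map.mp h1
  have hue' : nProdGL D F l0 * u * (nProdGL D F l0)⁻¹ = nProdGL D F l * h * y * (nProdGL D F l * h)⁻¹ := hue
  have e : (MulAut.conj ((nProdGL D F l0)⁻¹ * (nProdGL D F l * h))).toMonoidHom y = u := by
    show (nProdGL D F l0)⁻¹ * (nProdGL D F l * h) * y * ((nProdGL D F l0)⁻¹ * (nProdGL D F l * h))⁻¹ = u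
    have e0 : u = (nProdGL D F l0)⁻¹ * (nProdGL D F l0 * u * (nProdGL D F l0)⁻¹) * nProdGL D F l0 := by group
    rw [e0, hue']
    group
  rw [e]
  exact hu

theorem top_neg (D : ChevalleyDatum) (hD : Std7 D) (l0 : List ℕ) (h0 : w0Check D l0 = true) (i : ℕ)
    (hi : i < D.rank) : ToNeg D F (nProdGL D F l0 * 1) (D.simple i) := by
  obtain ⟨hl0, hpn, -⟩ := w0Check_sound D hD l0 h0
  exact toNeg_of_word D hD l0 hl0 1 (one_mem _) _ (std_simple_lt D hD i hi) (hpn _ (simple_pos D hD i hi))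

/-- The stabiliser in `B` of the coset `n₀ B` is `H`. -/
theorem top_stab (D : ChevalleyDatum) (hD : Std7 D) (l0 : List ℕ) (h0 : w0Check D l0 = true) (β : GL D.Idx F)
    (hβ : β ∈ D.borelSubgroup F) :
    (nProdGL D F l0)⁻¹ * β * nProdGL D F l0 ∈ D.borelSubgroup F ↔ β ∈ D.diagonalSubgroup F := by
  obtain ⟨hl0, -, -⟩ := w0Check_sound D hD l0 h0
  have hconj := conj_pos_eq_neg D hD F l0 h0
  have hn0 : nProdGL D F l0 ∈ D.monomialSubgroup F := nProdGL_mem D hD F l0 hl0
  constructor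
  · intro hc
    obtain ⟨u, hu, h, hh, huh⟩ := mem_borel D hD _ hc
    have e : β = (nProdGL D F l0 * u * (nProdGL D F l0)⁻¹) * (nProdGL D F l0 * h * (nProdGL D F l0)⁻¹) := by
      calc β = nProdGL D F l0 * ((nProdGL D F l0)⁻¹ * β * nProdGL D F l0) * (nProdGL D F l0)⁻¹ := by group
        _ = _ := by
            rw [← huh]
            group
    have hv : nProdGL D F l0 * u * (nProdGL D F l0)⁻¹ ∈ D.negUnipotent F := by
      rw [← hconj]
      exact Subgroup.mem_map_of_mem _ hu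
    have hh' : nProdGL D F l0 * h * (nProdGL D F l0)⁻¹ ∈ D.diagonalSubgroup F := diag_conj_mem D hD _ _ hn0 hh
    have h3 : β ∈ D.borelSubgroup F ⊓ (D.negUnipotent F ⊔ D.diagonalSubgroup F) :=
      ⟨hβ, by rw [e]; exact mul_mem (Subgroup.mem_sup_left hv) (Subgroup.mem_sup_right hh')⟩
    rwa [borel_inf_negBorel D hD] at h3
  · intro hh
    exact diagonal_le_borel D (diag_conj_mem' D hD _ _ hn0 hh)

end Cfsg.Agent.Helper8
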