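import Cfsg.Agent.Helper8.St2
import Cfsg.Prelude.Def_ParabolicCharacters

set_option autoImplicit false

namespace Cfsg.Agent.Helper8

open Cfsg.Lie

/-! ### Counting lemmas -/

/-- If a set `A` of cosets of `B` maps bijectively onto the cosets of `P ≥ B` and is stable under `b`, the fixed
points of `b` on the cosets of `P` correspond to its fixed points in `A`. -/
theorem card_fixed_eq {Γ : Type*} [Group Γ] (B P : Subgroup Γ) (hBP : B ≤ P) (A : Γ ⧸ B → Prop)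
    (hsurj : ∀ g₀ : Γ, ∃ g : Γ, A (g : Γ ⧸ B) ∧ g₀⁻¹ * g ∈ P)
    (hinj : ∀ g g' : Γ, A (g : Γ ⧸ B) → A (g' : Γ ⧸ B) → g⁻¹ * g' ∈ P → g⁻¹ * g' ∈ B)
    (b : Γ) (hinv : ∀ x, A x → A (b • x)) :
    Nat.card (MulAction.fixedBy (Γ ⧸ P) b) = Nat.card {x : Γ ⧸ B // A x ∧ b • x = x} := by
  symm
  have hfix : ∀ x : {x : Γ ⧸ B // A x ∧ b • x = x},
      Subgroup.quotientMapOfLE hBP x.1 ∈ MulAction.fixedBy (Γ ⧸ P) b := by
    rintro ⟨x, -, hx⟩
    rw [MulAction.mem_fixedBy]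
    obtain ⟨g, rfl⟩ := QuotientGroup.mk_surjective x
    exact congrArg (Subgroup.quotientMapOfLE hBP) hx
  refine Nat.card_eq_of_bijective (fun x => (⟨_, hfix x⟩ : MulAction.fixedBy (Γ ⧸ P) b)) ⟨?_, ?_⟩
  · rintro ⟨x, hxA, hx⟩ ⟨y, hyA, hy⟩ hxy
    have hxy' : Subgroup.quotientMapOfLE hBP x = Subgroup.quotientMapOfLE hBP y :=
      congrArg Subtype.val hxy
    apply Subtype.ext
    show x = y
    obtain ⟨g, rfl⟩ := QuotientGroup.mk_surjective x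
    obtain ⟨g', rfl⟩ := QuotientGroup.mk_surjective y
    have h1 : g⁻¹ * g' ∈ P := QuotientGroup.eq.mp hxy'
    exact QuotientGroup.eq.mpr (hinj g g' hxA hyA h1)
  · rintro ⟨y, hy⟩
    rw [MulAction.mem_fixedBy] at hy
    obtain ⟨g₀, rfl⟩ := QuotientGroup.mk_surjective y
    obtain ⟨g, hgA, hgP⟩ := hsurj g₀
    have hbgA : A ((b * g : Γ) : Γ ⧸ B) := hinv _ hgA
    have hy' : ((b * g₀ : Γ) : Γ ⧸ P) = (g₀ : Γ ⧸ P) := hy
    have h1 : (b * g₀)⁻¹ * g₀ ∈ P := QuotientGroup.eq.mp hy'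
    have h2 : g⁻¹ * (b * g) ∈ P := by
      have e : g⁻¹ * (b * g) = (g₀⁻¹ * g)⁻¹ * ((b * g₀)⁻¹ * g₀)⁻¹ * (g₀⁻¹ * g) := by group
      rw [e]
      exact mul_mem (mul_mem (inv_mem hgP) (inv_mem h1)) hgP
    have h3 := hinj g (b * g) hgA hbgA h2
    have hfixg : b • (g : Γ ⧸ B) = (g : Γ ⧸ B) := (QuotientGroup.eq.mpr h3).symm
    refine ⟨⟨(g : Γ ⧸ B), hgA, hfixg⟩, ?_⟩
    apply Subtype.ext
    show Subgroup.quotientMapOfLE hBP (g : Γ ⧸ B) = (g₀ : Γ ⧸ P)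
    exact (QuotientGroup.eq.mpr hgP).symm

/-- Inclusion–exclusion over the subsets of `asc x`. -/
theorem alt_sum_card {X : Type*} [Fintype X] (S : Finset ℕ) (asc : X → Finset ℕ) (hasc : ∀ x, asc x ⊆ S)
    (Q : X → Prop) :
    ∑ J ∈ S.powerset, (-1 : ℂ) ^ J.card * (Nat.card {x : X // J ⊆ asc x ∧ Q x} : ℂ) =
      (Nat.card {x : X // asc x = ∅ ∧ Q x} : ℂ) := by
  classical
  have h1 : ∀ J : Finset ℕ, (Nat.card {x : X // J ⊆ asc x ∧ Q x} : ℂ) =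
      ∑ x : X, if (J ⊆ asc x ∧ Q x) then (1 : ℂ) else 0 := by
    intro J
    rw [Nat.card_eq_fintype_card, Fintype.card_subtype, Finset.card_filter]
    simp only [Nat.cast_sum, Nat.cast_ite, Nat.cast_one, Nat.cast_zero]
  have hR : (Nat.card {x : X // asc x = ∅ ∧ Q x} : ℂ) = ∑ x : X, if (asc x = ∅ ∧ Q x) then (1 : ℂ) else 0 := by
    rw [Nat.card_eq_fintype_card, Fintype.card_subtype, Finset.card_filter]
    simp only [Nat.cast_sum, Nat.cast_ite, Nat.cast_one, Nat.cast_zero]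
  have key : ∀ x : X, ∑ J ∈ S.powerset, (-1 : ℂ) ^ J.card * (if (J ⊆ asc x ∧ Q x) then (1 : ℂ) else 0) =
      if (asc x = ∅ ∧ Q x) then (1 : ℂ) else 0 := by
    intro x
    by_cases hQ : Q x
    · have e : ∀ J ∈ S.powerset, (-1 : ℂ) ^ J.card * (if (J ⊆ asc x ∧ Q x) then (1 : ℂ) else 0) =
          if J ⊆ asc x then (-1 : ℂ) ^ J.card else 0 := by
        intro J _
        by_cases hJ : J ⊆ asc x
        · rw [if_pos ⟨hJ, hQ⟩, if_pos hJ, mul_one]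
        · rw [if_neg (fun h => hJ h.1), if_neg hJ, mul_zero]
      rw [Finset.sum_congr rfl e, ← Finset.sum_filter]
      have e2 : S.powerset.filter (fun J => J ⊆ asc x) = (asc x).powerset := by
        ext J
        rw [Finset.mem_filter, Finset.mem_powerset, Finset.mem_powerset]
        exact ⟨fun h => h.2, fun h => ⟨h.trans (hasc x), h⟩⟩
      rw [e2]
      have e3 := congrArg (Int.cast : ℤ → ℂ) (Finset.sum_powerset_neg_one_pow_card (x := asc x))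
      push_cast at e3
      rw [e3]
      by_cases h0 : asc x = ∅
      · rw [if_pos h0, if_pos ⟨h0, hQ⟩]
      · rw [if_neg h0, if_neg (fun h => h0 h.1)]
    · rw [if_neg (fun h => hQ h.2)]
      apply Finset.sum_eq_zero
      intro J _
      rw [if_neg (fun h => hQ h.2), mul_zero]
  rw [hR, Finset.sum_congr rfl (fun J _ => by rw [h1 J, Finset.mul_sum]), Finset.sum_comm]
  exact Finset.sum_congr rfl (fun x _ => key x)

theorem alt_sum_fixed {Γ : Type*} [Group Γ] [Finite Γ] (B : Subgroup Γ) (S : Finset ℕ)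
    (P : Finset ℕ → Subgroup Γ) (hBP : ∀ J ∈ S.powerset, B ≤ P J)
    (asc : Γ ⧸ B → Finset ℕ) (hascS : ∀ x, asc x ⊆ S) (b : Γ) (hinv : ∀ x, asc (b • x) = asc x)
    (hsurj : ∀ J ∈ S.powerset, ∀ g₀ : Γ, ∃ g : Γ, J ⊆ asc (g : Γ ⧸ B) ∧ g₀⁻¹ * g ∈ P J)
    (hinj : ∀ J ∈ S.powerset, ∀ g g' : Γ, J ⊆ asc (g : Γ ⧸ B) → J ⊆ asc (g' : Γ ⧸ B) → g⁻¹ * g' ∈ P J →
      g⁻¹ * g' ∈ B) :
    ∑ J ∈ S.powerset, (-1 : ℂ) ^ J.card * (Nat.card (MulAction.fixedBy (Γ ⧸ P J) b) : ℂ) =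
      (Nat.card {x : Γ ⧸ B // asc x = ∅ ∧ b • x = x} : ℂ) := by
  classical
  haveI : Fintype (Γ ⧸ B) := Fintype.ofFinite _
  rw [← alt_sum_card S asc hascS (fun x => b • x = x)]
  apply Finset.sum_congr rfl
  intro J hJ
  rw [card_fixed_eq B (P J) (hBP J hJ) (fun x => J ⊆ asc x) (hsurj J hJ) (hinj J hJ) b (fun x hx => by
    show J ⊆ asc (b • x)
    rw [hinv x]
    exact hx)]

end Cfsg.Agent.Helper8
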