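import Cfsg.Agent.Helper8.St3

set_option autoImplicit false

namespace Cfsg.Agent.Helper8

open Cfsg.Lie

variable {F : Type*} [Field F]

/-! ### The fundamental roots kept positive by the cell of a coset `g B` -/

/-- The cell `B n B` of `g` keeps the fundamental root `p_j` positive. -/
def AscAt (D : ChevalleyDatum) (F : Type*) [Field F] (j : ℕ) (g : GL D.Idx F) : Prop :=
  ∃ b ∈ D.borelSubgroup F, ∃ n ∈ D.monomialSubgroup F, ∃ b' ∈ D.borelSubgroup F,
    g = b * n * b' ∧ ToPos D F n (D.simple j)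

theorem ascAt_mul_right (D : ChevalleyDatum) (j : ℕ) (g β : GL D.Idx F) (hβ : β ∈ D.borelSubgroup F)
    (h : AscAt D F j g) : AscAt D F j (g * β) := by
  obtain ⟨b, hb, n, hn, b', hb', rfl, hpos⟩ := h
  exact ⟨b, hb, n, hn, b' * β, mul_mem hb' hβ, by group, hpos⟩

theorem ascAt_mul_left (D : ChevalleyDatum) (j : ℕ) (g β : GL D.Idx F) (hβ : β ∈ D.borelSubgroup F)
    (h : AscAt D F j g) : AscAt D F j (β * g) := by
  obtain ⟨b, hb, n, hn, b', hb', rfl, hpos⟩ := h
  exact ⟨β * b, mul_mem hβ hb, n, hn, b', hb', by group, hpos⟩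

theorem ascAt_of_decomp (D : ChevalleyDatum) (hD : Std7 D) (j : ℕ) (hj : j < D.rank) (g : GL D.Idx F)
    (h : AscAt D F j g) (c n₁ c' : GL D.Idx F) (hc : c ∈ D.borelSubgroup F) (hn₁ : n₁ ∈ D.monomialSubgroup F)
    (hc' : c' ∈ D.borelSubgroup F) (hg : g = c * n₁ * c') : ToPos D F n₁ (D.simple j) := by
  obtain ⟨b, hb, n, hn, b', hb', rfl, hpos⟩ := h
  refine toPos_of_bnb D hD n n₁ hn hn₁ ⟨b⁻¹ * c, mul_mem (inv_mem hb) hc, c' * b'⁻¹,
    mul_mem hc' (inv_mem hb'), ?_⟩ _ (std_simple_lt D hD j hj) hpos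
  calc n = b⁻¹ * (b * n * b') * b'⁻¹ := by group
    _ = b⁻¹ * (c * n₁ * c') * b'⁻¹ := by rw [hg]
    _ = _ := by group

open Classical in
/-- The set of the fundamental roots kept positive by the cell of the coset `x`. -/
noncomputable def ascSet (D : ChevalleyDatum) (F : Type*) [Field F]
    (x : ↥(D.group F) ⧸ (D.borelSubgroup F).subgroupOf (D.group F)) : Finset ℕ :=
  (Finset.range D.rank).filter (fun j => ∃ g : ↥(D.group F),
    (g : ↥(D.group F) ⧸ (D.borelSubgroup F).subgroupOf (D.group F)) = x ∧ AscAt D F j (g : GL D.Idx F))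

theorem mem_ascSet (D : ChevalleyDatum) (g : ↥(D.group F)) (j : ℕ) :
    j ∈ ascSet D F (g : ↥(D.group F) ⧸ (D.borelSubgroup F).subgroupOf (D.group F)) ↔
      j < D.rank ∧ AscAt D F j (g : GL D.Idx F) := by
  classical
  unfold ascSet
  rw [Finset.mem_filter, Finset.mem_range]
  constructor
  · rintro ⟨hj, g', hg', h⟩
    refine ⟨hj, ?_⟩
    have h1 : g'⁻¹ * g ∈ (D.borelSubgroup F).subgroupOf (D.group F) := QuotientGroup.eq.mp hg'
    have h2 : ((g' : GL D.Idx F))⁻¹ * (g : GL D.Idx F) ∈ D.borelSubgroup F := Subgroup.mem_subgroupOf.mp h1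
    have e : (g : GL D.Idx F) = (g' : GL D.Idx F) * (((g' : GL D.Idx F))⁻¹ * (g : GL D.Idx F)) := by group
    rw [e]
    exact ascAt_mul_right D j _ _ h2 h
  · rintro ⟨hj, h⟩
    exact ⟨hj, g, rfl, h⟩

theorem ascSet_subset (D : ChevalleyDatum) (x : ↥(D.group F) ⧸ (D.borelSubgroup F).subgroupOf (D.group F)) :
    ascSet D F x ⊆ Finset.range D.rank := by
  classical
  unfold ascSet
  exact Finset.filter_subset _ _

theorem parabolic_le_group (D : ChevalleyDatum) (hD : Std7 D) (J : Set ℕ) :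
    D.parabolicSubgroup F J ≤ D.group F := by
  rw [← normalizer_radical D hD J]
  exact inf_le_right

set_option maxHeartbeats 400000 in
/-- The alternating sum of the fixed point numbers of `b ∈ B` on the cosets of the parabolic subgroups counts the
fixed points of `b` among the cosets of `B` in the big cell. -/
theorem steinberg_sum [Fintype F] (D : ChevalleyDatum) (hD : Std7 D)
    (b : ↥((D.borelSubgroup F).subgroupOf (D.group F))) :
    ∑ J ∈ (Finset.range D.rank).powerset, (-1 : ℂ) ^ J.card *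
        (Nat.card (MulAction.fixedBy (↥(D.group F) ⧸ D.parabolicIn F J)
          ((((D.borelSubgroup F).subgroupOf (D.group F)).subtype) b)) : ℂ) =
      (Nat.card {x : ↥(D.group F) ⧸ (D.borelSubgroup F).subgroupOf (D.group F) //
        ascSet D F x = ∅ ∧ ((((D.borelSubgroup F).subgroupOf (D.group F)).subtype) b) • x = x} : ℂ) := by
  classical
  have hbB : ((b : ↥(D.group F)) : GL D.Idx F) ∈ D.borelSubgroup F := Subgroup.mem_subgroupOf.mp b.2
  exact alt_sum_fixed ((D.borelSubgroup F).subgroupOf (D.group F)) (Finset.range D.rank)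
    (fun J => D.parabolicIn F J)
    (by
      intro J _ x hx
      show x ∈ (D.parabolicSubgroup F (↑J : Set ℕ)).subgroupOf (D.group F)
      rw [Subgroup.mem_subgroupOf]
      exact borel_le_parabolic D _ (Subgroup.mem_subgroupOf.mp hx))
    (ascSet D F) (ascSet_subset D)
    ((((D.borelSubgroup F).subgroupOf (D.group F)).subtype) b)
    (by
      intro x
      obtain ⟨g, rfl⟩ := QuotientGroup.mk_surjective x
      ext j
      have e : (((D.borelSubgroup F).subgroupOf (D.group F)).subtype b) •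
          (QuotientGroup.mk g : ↥(D.group F) ⧸ (D.borelSubgroup F).subgroupOf (D.group F)) =
          QuotientGroup.mk ((b : ↥(D.group F)) * g) := rfl
      rw [e, mem_ascSet, mem_ascSet]
      constructor
      · rintro ⟨hj, h⟩
        refine ⟨hj, ?_⟩
        have h1 := ascAt_mul_left D j _ _ (inv_mem hbB) h
        have e2 : ((b : ↥(D.group F)) : GL D.Idx F)⁻¹ * (((b : ↥(D.group F)) * g : ↥(D.group F)) : GL D.Idx F) =
            (g : GL D.Idx F) := by
          rw [Subgroup.coe_mul]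
          group
        rwa [e2] at h1
      · rintro ⟨hj, h⟩
        refine ⟨hj, ?_⟩
        have h1 := ascAt_mul_left D j _ _ hbB h
        rwa [← Subgroup.coe_mul] at h1)
    (by
      intro J hJ g₀
      have hJr : ∀ j ∈ J, j < D.rank := fun j hj => Finset.mem_range.mp (Finset.mem_powerset.mp hJ hj)
      obtain ⟨p, hp, b₁, hb₁, l, h, hl, hh, hJ', heq⟩ := jpos_exists D hD (↑J : Set ℕ) g₀.1 g₀.2 (F := F)
      have hpG : p ∈ D.group F := parabolic_le_group D hD _ hp
      have hg₁ : (g₀ : GL D.Idx F) * p ∈ D.group F := mul_mem g₀.2 hpG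
      refine ⟨⟨(g₀ : GL D.Idx F) * p, hg₁⟩, ?_, ?_⟩
      · intro j hj
        rw [mem_ascSet]
        refine ⟨hJr j hj, b₁, hb₁, nProdGL D F l * h,
          mul_mem (nProdGL_mem D hD F l hl) (diagonal_le_monomial D hh), 1, one_mem _, ?_, ?_⟩
        · rw [mul_one]
          exact heq
        · exact toPos_of_word D hD l hl h hh _ (std_simple_lt D hD j (hJr j hj)) (hJ' j (hJr j hj) hj)
      · apply Subgroup.mem_subgroupOf.mpr
        have e : ((g₀⁻¹ * (⟨(g₀ : GL D.Idx F) * p, hg₁⟩ : ↥(D.group F)) : ↥(D.group F)) : GL D.Idx F) = p := by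
          rw [Subgroup.coe_mul, Subgroup.coe_inv]
          exact inv_mul_cancel_left _ _
        rw [e]
        exact hp)
    (by
      intro J hJ g g' hg hg' hP
      have hJr : ∀ j ∈ J, j < D.rank := fun j hj => Finset.mem_range.mp (Finset.mem_powerset.mp hJ hj)
      have hP' : ((g : GL D.Idx F))⁻¹ * (g' : GL D.Idx F) ∈ D.parabolicSubgroup F (↑J : Set ℕ) :=
        Subgroup.mem_subgroupOf.mp hP
      rw [Subgroup.mem_subgroupOf]
      show ((g : GL D.Idx F))⁻¹ * (g' : GL D.Idx F) ∈ D.borelSubgroup F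
      obtain ⟨β, hβ, n, hn, u, hu, hgeq⟩ := bruhat_exists D hD g.1 g.2
      obtain ⟨β', hβ', n', hn', u', hu', hgeq'⟩ := bruhat_exists D hD g'.1 g'.2
      have huB : u ∈ D.borelSubgroup F := pos_le_borel D (negGens_le_pos D n hu)
      have hu'B : u' ∈ D.borelSubgroup F := pos_le_borel D (negGens_le_pos D n' hu')
      obtain ⟨k, l₀, -, hl₀, h₀, hh₀, hnw⟩ := monomial_word D hD n hn
      have hJpos : ∀ j, j < D.rank → j ∈ (↑J : Set ℕ) → D.IsPosRoot (reflWord D l₀ (D.simple j)) := by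
        intro j hj hjJ
        have h1 := ascAt_of_decomp D hD j hj _ ((mem_ascSet D g j).mp (hg hjJ)).2 β n u hβ hn huB hgeq
        rw [hnw] at h1
        exact pos_of_toPos_word D hD l₀ hl₀ h₀ hh₀ _ (std_simple_lt D hD j hj) h1
      have hJpos' : ∀ j, j < D.rank → j ∈ (↑J : Set ℕ) → ToPos D F n' (D.simple j) := by
        intro j hj hjJ
        exact ascAt_of_decomp D hD j hj _ ((mem_ascSet D g' j).mp (hg' hjJ)).2 β' n' u' hβ' hn' hu'B hgeq'
      have hq : u * (((g : GL D.Idx F))⁻¹ * (g' : GL D.Idx F)) * u'⁻¹ ∈ D.parabolicSubgroup F (↑J : Set ℕ) :=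
        mul_mem (mul_mem (borel_le_parabolic D _ huB) hP') (inv_mem (borel_le_parabolic D _ hu'B))
      have heq : β * (nProdGL D F l₀ * h₀) * (u * (((g : GL D.Idx F))⁻¹ * (g' : GL D.Idx F)) * u'⁻¹) =
          β' * n' := by
        rw [← hnw]
        calc β * n * (u * (((g : GL D.Idx F))⁻¹ * (g' : GL D.Idx F)) * u'⁻¹)
            = (β * n * u) * ((g : GL D.Idx F))⁻¹ * (g' : GL D.Idx F) * u'⁻¹ := by group
          _ = (g : GL D.Idx F) * ((g : GL D.Idx F))⁻¹ * (β' * n' * u') * u'⁻¹ := by rw [← hgeq, ← hgeq']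
          _ = _ := by group
      have h5 := jpos_coset_inj D hD (↑J : Set ℕ) l₀ hl₀ h₀ hh₀ hJpos n' hn' hJpos' β β' hβ hβ' _ hq heq
      have e : ((g : GL D.Idx F))⁻¹ * (g' : GL D.Idx F) =
          u⁻¹ * (u * (((g : GL D.Idx F))⁻¹ * (g' : GL D.Idx F)) * u'⁻¹) * u' := by group
      rw [e]
      exact mul_mem (mul_mem (inv_mem huB) h5) hu'B)

/-! ### The big cell -/

/-- The longest element as an element of the group. -/
noncomputable def n0G (D : ChevalleyDatum) (hD : Std7 D) (F : Type*) [Field F] (l0 : List ℕ)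
    (hw0 : w0Check D l0 = true) : ↥(D.group F) :=
  ⟨nProdGL D F l0, (Cfsg.Agent.S1043.result D hD).2.1 (nProdGL_mem D hD F l0 (w0Check_sound D hD l0 hw0).1)⟩

theorem n0G_val (D : ChevalleyDatum) (hD : Std7 D) (l0 : List ℕ) (hw0 : w0Check D l0 = true) :
    ((n0G D hD F l0 hw0 : ↥(D.group F)) : GL D.Idx F) = nProdGL D F l0 := rfl

theorem n0G_mul_val (D : ChevalleyDatum) (hD : Std7 D) (l0 : List ℕ) (hw0 : w0Check D l0 = true)
    (g : ↥(D.group F)) :
    ((g * n0G D hD F l0 hw0 : ↥(D.group F)) : GL D.Idx F) = (g : GL D.Idx F) * nProdGL D F l0 := rfl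

theorem top_rel_iff (D : ChevalleyDatum) (hD : Std7 D) (l0 : List ℕ) (hw0 : w0Check D l0 = true)
    (β β' : ↥((D.borelSubgroup F).subgroupOf (D.group F))) :
    ((β : ↥(D.group F)) * n0G D hD F l0 hw0)⁻¹ * ((β' : ↥(D.group F)) * n0G D hD F l0 hw0) ∈
        (D.borelSubgroup F).subgroupOf (D.group F) ↔
      β⁻¹ * β' ∈ ((D.diagonalSubgroup F).subgroupOf (D.group F)).subgroupOf
        ((D.borelSubgroup F).subgroupOf (D.group F)) := by
  have hββ' : (((β : ↥(D.group F)) : GL D.Idx F))⁻¹ * ((β' : ↥(D.group F)) : GL D.Idx F) ∈ D.borelSubgroup F :=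
    mul_mem (inv_mem (Subgroup.mem_subgroupOf.mp β.2)) (Subgroup.mem_subgroupOf.mp β'.2)
  have e : ((((β : ↥(D.group F)) * n0G D hD F l0 hw0)⁻¹ * ((β' : ↥(D.group F)) * n0G D hD F l0 hw0) :
      ↥(D.group F)) : GL D.Idx F) = (nProdGL D F l0)⁻¹ *
        ((((β : ↥(D.group F)) : GL D.Idx F))⁻¹ * ((β' : ↥(D.group F)) : GL D.Idx F)) * nProdGL D F l0 := by
    rw [Subgroup.coe_mul, Subgroup.coe_inv, n0G_mul_val, n0G_mul_val]
    group
  rw [Subgroup.mem_subgroupOf, e, top_stab D hD l0 hw0 _ hββ', Subgroup.mem_subgroupOf, Subgroup.mem_subgroupOf]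
  rfl

/-- The map `β H ↦ β n₀ B` from `B / H` to `G / B`. -/
noncomputable def topMap (D : ChevalleyDatum) (hD : Std7 D) (F : Type*) [Field F] (l0 : List ℕ)
    (hw0 : w0Check D l0 = true) :
    ↥((D.borelSubgroup F).subgroupOf (D.group F)) ⧸
      (((D.diagonalSubgroup F).subgroupOf (D.group F)).subgroupOf ((D.borelSubgroup F).subgroupOf (D.group F))) →
      ↥(D.group F) ⧸ (D.borelSubgroup F).subgroupOf (D.group F) :=
  Quotient.map' (fun β => (β : ↥(D.group F)) * n0G D hD F l0 hw0) (fun β β' hr => by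
    rw [QuotientGroup.leftRel_apply] at hr ⊢
    exact (top_rel_iff D hD l0 hw0 β β').mpr hr)

theorem topMap_mk (D : ChevalleyDatum) (hD : Std7 D) (l0 : List ℕ) (hw0 : w0Check D l0 = true)
    (β : ↥((D.borelSubgroup F).subgroupOf (D.group F))) :
    topMap D hD F l0 hw0 (QuotientGroup.mk β) = QuotientGroup.mk ((β : ↥(D.group F)) * n0G D hD F l0 hw0) := rfl

theorem topMap_injective (D : ChevalleyDatum) (hD : Std7 D) (l0 : List ℕ) (hw0 : w0Check D l0 = true) :
    Function.Injective (topMap D hD F l0 hw0) := by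
  intro y y' hyy
  obtain ⟨β, rfl⟩ := QuotientGroup.mk_surjective y
  obtain ⟨β', rfl⟩ := QuotientGroup.mk_surjective y'
  rw [topMap_mk, topMap_mk] at hyy
  exact QuotientGroup.eq.mpr ((top_rel_iff D hD l0 hw0 β β').mp (QuotientGroup.eq.mp hyy))

theorem topMap_asc (D : ChevalleyDatum) (hD : Std7 D) (l0 : List ℕ) (hw0 : w0Check D l0 = true)
    (y : ↥((D.borelSubgroup F).subgroupOf (D.group F)) ⧸
      (((D.diagonalSubgroup F).subgroupOf (D.group F)).subgroupOf ((D.borelSubgroup F).subgroupOf (D.group F)))) :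
    ascSet D F (topMap D hD F l0 hw0 y) = ∅ := by
  obtain ⟨hl0, -, -⟩ := w0Check_sound D hD l0 hw0
  have hn0N : nProdGL D F l0 ∈ D.monomialSubgroup F := nProdGL_mem D hD F l0 hl0
  obtain ⟨β, rfl⟩ := QuotientGroup.mk_surjective y
  rw [topMap_mk, Finset.eq_empty_iff_forall_notMem]
  intro j hj
  rw [mem_ascSet, n0G_mul_val] at hj
  obtain ⟨hjr, hasc⟩ := hj
  have h1 := ascAt_of_decomp D hD j hjr _ hasc ((β : ↥(D.group F)) : GL D.Idx F) (nProdGL D F l0 * 1) 1
    (Subgroup.mem_subgroupOf.mp β.2) (by rw [mul_one]; exact hn0N) (one_mem _) (by group)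
  exact not_toPos_toNeg D hD _ _ (std_simple_lt D hD j hjr) h1 (top_neg D hD l0 hw0 j hjr)

theorem topMap_surj (D : ChevalleyDatum) (hD : Std7 D) (l0 : List ℕ) (hw0 : w0Check D l0 = true)
    (x : ↥(D.group F) ⧸ (D.borelSubgroup F).subgroupOf (D.group F)) (hx : ascSet D F x = ∅) :
    ∃ y, topMap D hD F l0 hw0 y = x := by
  have hBG : D.borelSubgroup F ≤ D.group F := (Cfsg.Agent.S1043.result D hD).1
  obtain ⟨g, rfl⟩ := QuotientGroup.mk_surjective x
  obtain ⟨β, hβ, n, hn, u, hu, hgeq⟩ := bruhat_exists D hD g.1 g.2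
  have huB : u ∈ D.borelSubgroup F := pos_le_borel D (negGens_le_pos D n hu)
  obtain ⟨k, l, -, hl, h, hh, hnw⟩ := monomial_word D hD n hn
  have hneg : ∀ i, i < D.rank → D.IsNegRoot (reflWord D l (D.simple i)) := by
    intro i hi
    rcases pos_or_neg D hD _ (reflWord_lt D hD l hl _ (std_simple_lt D hD i hi)) with h1 | h1
    · exfalso
      have h2 : i ∈ ascSet D F (QuotientGroup.mk g) := by
        rw [mem_ascSet]
        refine ⟨hi, β, hβ, n, hn, u, huB, hgeq, ?_⟩
        rw [hnw]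
        exact toPos_of_word D hD l hl h hh _ (std_simple_lt D hD i hi) h1
      rw [hx] at h2
      exact absurd h2 (Finset.notMem_empty i)
    · exact h1
  have htop := top_unique D hD l0 hw0 l hl h hh hneg
  rw [← hnw] at htop
  refine ⟨QuotientGroup.mk ⟨⟨β, hBG hβ⟩, Subgroup.mem_subgroupOf.mpr hβ⟩, ?_⟩
  rw [topMap_mk]
  apply QuotientGroup.eq.mpr
  rw [Subgroup.mem_subgroupOf, Subgroup.coe_mul, Subgroup.coe_inv, n0G_mul_val]
  have e : (β * nProdGL D F l0)⁻¹ * (g : GL D.Idx F) = ((nProdGL D F l0)⁻¹ * n) * u := by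
    have e0 : (g : GL D.Idx F) = β * n * u := hgeq
    rw [e0]
    group
  exact e ▸ mul_mem (diagonal_le_borel D htop) huB

theorem topMap_smul (D : ChevalleyDatum) (hD : Std7 D) (l0 : List ℕ) (hw0 : w0Check D l0 = true)
    (b : ↥((D.borelSubgroup F).subgroupOf (D.group F)))
    (y : ↥((D.borelSubgroup F).subgroupOf (D.group F)) ⧸
      (((D.diagonalSubgroup F).subgroupOf (D.group F)).subgroupOf ((D.borelSubgroup F).subgroupOf (D.group F)))) :
    topMap D hD F l0 hw0 (b • y) =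
      ((((D.borelSubgroup F).subgroupOf (D.group F)).subtype) b) • topMap D hD F l0 hw0 y := by
  obtain ⟨β, rfl⟩ := QuotientGroup.mk_surjective y
  have e1 : b • (QuotientGroup.mk β : ↥((D.borelSubgroup F).subgroupOf (D.group F)) ⧸
      (((D.diagonalSubgroup F).subgroupOf (D.group F)).subgroupOf ((D.borelSubgroup F).subgroupOf (D.group F)))) =
      QuotientGroup.mk (b * β) := rfl
  rw [e1, topMap_mk, topMap_mk]
  have e2 : ((((D.borelSubgroup F).subgroupOf (D.group F)).subtype) b) •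
      (QuotientGroup.mk ((β : ↥(D.group F)) * n0G D hD F l0 hw0) :
        ↥(D.group F) ⧸ (D.borelSubgroup F).subgroupOf (D.group F)) =
      QuotientGroup.mk ((b : ↥(D.group F)) * ((β : ↥(D.group F)) * n0G D hD F l0 hw0)) := rfl
  rw [e2, Subgroup.coe_mul, mul_assoc]

/-- The restriction of the Steinberg character to `B` is the permutation character of `B` on `B / H`. -/
theorem steinberg_borel [Fintype F] (D : ChevalleyDatum) (hD : Std7 D)
    (b : ↥((D.borelSubgroup F).subgroupOf (D.group F))) :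
    D.steinbergCharacter F ((((D.borelSubgroup F).subgroupOf (D.group F)).subtype) b) =
      Cfsg.fixedPointCharacter (((D.diagonalSubgroup F).subgroupOf (D.group F)).subgroupOf
        ((D.borelSubgroup F).subgroupOf (D.group F))) b := by
  obtain ⟨l0, hw0⟩ := exists_w0 D hD
  have h1 : D.steinbergCharacter F ((((D.borelSubgroup F).subgroupOf (D.group F)).subtype) b) =
      (Nat.card {x : ↥(D.group F) ⧸ (D.borelSubgroup F).subgroupOf (D.group F) //
        ascSet D F x = ∅ ∧ ((((D.borelSubgroup F).subgroupOf (D.group F)).subtype) b) • x = x} : ℂ) :=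
    steinberg_sum D hD b
  rw [h1]
  unfold Cfsg.fixedPointCharacter
  congr 1
  symm
  refine Nat.card_eq_of_bijective (fun y => (⟨topMap D hD F l0 hw0 y.1, topMap_asc D hD l0 hw0 y.1, by
    have hy : b • y.1 = y.1 := MulAction.mem_fixedBy.mp y.2
    rw [← topMap_smul, hy]⟩ : {x : ↥(D.group F) ⧸ (D.borelSubgroup F).subgroupOf (D.group F) //
      ascSet D F x = ∅ ∧ ((((D.borelSubgroup F).subgroupOf (D.group F)).subtype) b) • x = x})) ⟨?_, ?_⟩
  · intro y y' hyy
    apply Subtype.ext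
    exact topMap_injective D hD l0 hw0 (congrArg Subtype.val hyy)
  · rintro ⟨x, hx0, hxfix⟩
    obtain ⟨y, rfl⟩ := topMap_surj D hD l0 hw0 x hx0
    refine ⟨⟨y, ?_⟩, rfl⟩
    rw [MulAction.mem_fixedBy]
    apply topMap_injective D hD l0 hw0
    rw [topMap_smul]
    exact hxfix

end Cfsg.Agent.Helper8
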