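import Cfsg.Agent.Helper8.St4

set_option autoImplicit false

namespace Cfsg.Agent.Helper8

open Cfsg.Lie

variable {F : Type*} [Field F]

/-! ### Inverses of words, and two-sided reduction -/

theorem nGL_simple_mem_monomial (D : ChevalleyDatum) (hD : Std7 D) (i : ℕ) (hi : i < D.rank) :
    nGL D F (D.simple i) ∈ D.monomialSubgroup F := by
  have h := nProdGL_mem D hD F [i] (by
    intro a ha
    rw [List.mem_singleton] at ha
    rw [ha]
    exact hi)
  rwa [nProdGL_cons, nProdGL_nil, mul_one] at h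

/-- The inverse of a word is the reversed word, up to `H`. -/
theorem inv_word_rev (D : ChevalleyDatum) (hD : Std7 D) (l : List ℕ) (hl : ∀ a ∈ l, a < D.rank) :
    ∃ h ∈ D.diagonalSubgroup F, (nProdGL D F l)⁻¹ = nProdGL D F l.reverse * h := by
  induction l with
  | nil =>
    refine ⟨1, one_mem _, ?_⟩
    rw [List.reverse_nil, nProdGL_nil, inv_one, mul_one]
  | cons i l ih =>
    have hi := hl i List.mem_cons_self
    have hl' : ∀ a ∈ l, a < D.rank := fun a ha => hl a (List.mem_cons_of_mem _ ha)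
    obtain ⟨h, hh, e⟩ := ih hl'
    have hni := nGL_simple_mem_monomial D hD i hi (F := F)
    refine ⟨(nGL D F (D.simple i))⁻¹ * h * nGL D F (D.simple i) *
      (nGL D F (D.simple i) * nGL D F (D.simple i))⁻¹, ?_, ?_⟩
    · exact mul_mem (diag_conj_mem' D hD _ _ hni hh) (inv_mem (nGL_sq_mem D hD _ (std_simple_lt D hD i hi)))
    · rw [nProdGL_cons, mul_inv_rev, e, List.reverse_cons, nProdGL_append, nProdGL_cons, nProdGL_nil, mul_one]
      group

theorem inv_word_rev' (D : ChevalleyDatum) (hD : Std7 D) (l : List ℕ) (hl : ∀ a ∈ l, a < D.rank)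
    (h₀ : GL D.Idx F) (hh₀ : h₀ ∈ D.diagonalSubgroup F) :
    ∃ h ∈ D.diagonalSubgroup F, (nProdGL D F l * h₀)⁻¹ = nProdGL D F l.reverse * h := by
  obtain ⟨h, hh, e⟩ := inv_word_rev D hD l hl (F := F)
  have hlr : ∀ a ∈ l.reverse, a < D.rank := fun a ha => hl a (List.mem_reverse.mp ha)
  refine ⟨(nProdGL D F l.reverse)⁻¹ * h₀⁻¹ * nProdGL D F l.reverse * h, ?_, ?_⟩
  · exact mul_mem (diag_conj_mem' D hD _ _ (nProdGL_mem D hD F _ hlr) (inv_mem hh₀)) hh
  · rw [mul_inv_rev, e]
    group

/-- The exchange property for a word `lx ++ ln`, the deleted letter lying in `lx`. -/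
theorem exchange_split (D : ChevalleyDatum) (hD : Std7 D) (J : Set ℕ) (i : ℕ) (hi : i < D.rank) (ln : List ℕ)
    (hln : ∀ a ∈ ln, a < D.rank) (hpos : D.IsPosRoot (reflWord D ln (D.simple i))) :
    ∀ lx : List ℕ, (∀ a ∈ lx, a < D.rank ∧ a ∈ J) → D.IsNegRoot (reflWord D (lx ++ ln) (D.simple i)) →
    ∃ lx' : List ℕ, lx'.length + 1 = lx.length ∧ (∀ a ∈ lx', a < D.rank ∧ a ∈ J) ∧
      ∃ h ∈ D.diagonalSubgroup F,
        nProdGL D F (lx ++ ln) * nGL D F (D.simple i) = nProdGL D F (lx' ++ ln) * h := by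
  intro lx
  induction lx with
  | nil =>
    intro _ hneg
    exact absurd hneg (fun h => pos_neg_excl D hD _ hpos h)
  | cons j lx ih =>
    intro hl hneg
    have hj := hl j List.mem_cons_self
    have hl' : ∀ a ∈ lx, a < D.rank ∧ a ∈ J := fun a ha => hl a (List.mem_cons_of_mem _ ha)
    have hall : ∀ a ∈ lx ++ ln, a < D.rank := by
      intro a ha
      rcases List.mem_append.mp ha with h | h
      · exact (hl' a h).1
      · exact hln a h
    have hp := std_simple_lt D hD i hi
    have hβ := reflWord_lt D hD (lx ++ ln) hall _ hp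
    rw [List.cons_append, reflWord_cons] at hneg
    rcases pos_or_neg D hD _ hβ with hpos' | hneg'
    · have hβeq : reflWord D (lx ++ ln) (D.simple i) = D.simple j := by
        by_contra hne
        exact pos_neg_excl D hD _ (wPos_sound D j (wPos_all D hD j hj.1) _ hpos' hne).1 hneg
      have hPN := nProdGL_mem D hD F (lx ++ ln) hall
      rcases nProdGL_nGL_comm D hD (lx ++ ln) hall i j hi hj.1 hβeq (F := F) with e | e
      · refine ⟨lx, by simp, hl',
          (nProdGL D F (lx ++ ln))⁻¹ * (nGL D F (D.simple j) * nGL D F (D.simple j)) * nProdGL D F (lx ++ ln),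
          diag_conj_mem' D hD _ _ hPN (nGL_sq_mem D hD _ (std_simple_lt D hD j hj.1)), ?_⟩
        rw [List.cons_append, nProdGL_cons, mul_assoc, e]
        group
      · refine ⟨lx, by simp, hl', 1, one_mem _, ?_⟩
        rw [List.cons_append, nProdGL_cons, mul_assoc, e]
        group
    · obtain ⟨lx'', hlen, hl'', h, hh, heq⟩ := ih hl' hneg'
      refine ⟨j :: lx'', by simp [hlen], ?_, h, hh, ?_⟩
      · intro k hk
        rcases List.mem_cons.mp hk with rfl | hk
        · exact hj
        · exact hl'' k hk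
      · rw [List.cons_append, List.cons_append, nProdGL_cons, nProdGL_cons, mul_assoc, heq, mul_assoc]

/-- For `ln` keeping the fundamental roots of `I` positive and `lx` a word in `J`: the coset of `lx ln` modulo
`P_I` contains a word `lx' ln`, `lx'` in `J`, keeping the fundamental roots of `I` positive. -/
theorem jred_split (D : ChevalleyDatum) (hD : Std7 D) (J I : Set ℕ) (ln : List ℕ) (hln : ∀ a ∈ ln, a < D.rank)
    (hI : ∀ i, i < D.rank → i ∈ I → D.IsPosRoot (reflWord D ln (D.simple i))) :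
    ∀ k : ℕ, ∀ lx : List ℕ, lx.length = k → (∀ a ∈ lx, a < D.rank ∧ a ∈ J) →
    ∃ lx' : List ℕ, (∀ a ∈ lx', a < D.rank ∧ a ∈ J) ∧
      (∀ i, i < D.rank → i ∈ I → D.IsPosRoot (reflWord D (lx' ++ ln) (D.simple i))) ∧
      ∃ m ∈ D.parabolicSubgroup F I, nProdGL D F (lx ++ ln) * m = nProdGL D F (lx' ++ ln) := by
  intro k
  induction k using Nat.strong_induction_on with
  | _ k ih =>
    intro lx hlen hlx
    by_cases hred : ∀ i, i < D.rank → i ∈ I → D.IsPosRoot (reflWord D (lx ++ ln) (D.simple i))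
    · exact ⟨lx, hlx, hred, 1, one_mem _, mul_one _⟩
    · push_neg at hred
      obtain ⟨i, hi, hiI, hnp⟩ := hred
      have hall : ∀ a ∈ lx ++ ln, a < D.rank := by
        intro a ha
        rcases List.mem_append.mp ha with h | h
        · exact (hlx a h).1
        · exact hln a h
      have hneg : D.IsNegRoot (reflWord D (lx ++ ln) (D.simple i)) := by
        rcases pos_or_neg D hD _ (reflWord_lt D hD (lx ++ ln) hall _ (std_simple_lt D hD i hi)) with h | h
        · exact absurd h hnp
        · exact h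
      obtain ⟨lx1, hlen1, hlx1, h, hh, heq⟩ :=
        exchange_split D hD J i hi ln hln (hI i hi hiI) lx hlx hneg (F := F)
      obtain ⟨lx', hlx', hred', m, hm, hmeq⟩ := ih lx1.length (by omega) lx1 rfl hlx1
      refine ⟨lx', hlx', hred', nGL D F (D.simple i) * h⁻¹ * m, ?_, ?_⟩
      · exact mul_mem (mul_mem (nGL_mem_parabolic D hD I i hi hiI)
          (borel_le_parabolic D I (diagonal_le_borel D (inv_mem hh)))) hm
      · rw [← hmeq]
        calc nProdGL D F (lx ++ ln) * (nGL D F (D.simple i) * h⁻¹ * m)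
            = (nProdGL D F (lx ++ ln) * nGL D F (D.simple i)) * h⁻¹ * m := by group
          _ = nProdGL D F (lx1 ++ ln) * m := by rw [heq]; group

/-- If `ln` and `lx ln`, `lx` a word in `J`, both have inverses keeping the fundamental roots of `J` positive, then
`lx` lies in `H`. -/
theorem jleft_diag (D : ChevalleyDatum) (hD : Std7 D) (J : Set ℕ) (ln : List ℕ) (hln : ∀ a ∈ ln, a < D.rank)
    (lx : List ℕ) (hlx : ∀ a ∈ lx, a < D.rank ∧ a ∈ J)
    (hJ : ∀ j, j < D.rank → j ∈ J → D.IsPosRoot (reflWord D ln.reverse (D.simple j)))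
    (hJ2 : ∀ j, j < D.rank → j ∈ J → D.IsPosRoot (reflWord D (lx ++ ln).reverse (D.simple j))) :
    nProdGL D F lx ∈ D.diagonalSubgroup F := by
  have hlnr : ∀ a ∈ ln.reverse, a < D.rank := fun a ha => hln a (List.mem_reverse.mp ha)
  have hlxr : ∀ a ∈ lx.reverse, a < D.rank ∧ a ∈ J := fun a ha => hlx a (List.mem_reverse.mp ha)
  have h1 := jword_mem_diag D hD J ln.reverse hlnr hJ lx.reverse hlxr 1 (one_mem _) (by
    intro j hj hjJ
    have h0 := hJ2 j hj hjJ
    rwa [List.reverse_append, reflWord_append] at h0) (F := F)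
  rw [mul_one] at h1
  obtain ⟨h, hh, e⟩ := inv_word_rev D hD lx (fun a ha => (hlx a ha).1) (F := F)
  have h2 : (nProdGL D F lx)⁻¹ ∈ D.diagonalSubgroup F := by
    rw [e]
    exact mul_mem h1 hh
  have h3 := inv_mem h2
  rwa [inv_inv] at h3

end Cfsg.Agent.Helper8
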