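import Cfsg.Agent.Helper8.St5

set_option autoImplicit false

namespace Cfsg.Agent.Helper8

open Cfsg.Lie

variable {F : Type*} [Field F]

/-! ### Cells reduced on both sides -/

/-- `g` lies in a cell `B n B`, `n` a word of length `k`. -/
def HasLen (D : ChevalleyDatum) (F : Type*) [Field F] (g : GL D.Idx F) (k : ℕ) : Prop :=
  ∃ b ∈ D.borelSubgroup F, ∃ l : List ℕ, l.length = k ∧ (∀ a ∈ l, a < D.rank) ∧
    ∃ h ∈ D.diagonalSubgroup F, ∃ b' ∈ D.borelSubgroup F, g = b * (nProdGL D F l * h) * b'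

theorem hasLen_exists (D : ChevalleyDatum) (hD : Std7 D) (g : GL D.Idx F) (hg : g ∈ D.group F) :
    ∃ k, HasLen D F g k := by
  obtain ⟨b, hb, n, hn, b', hb', rfl⟩ := group_eq_bnb D hD g hg
  obtain ⟨k, l, hlen, hl, h, hh, rfl⟩ := monomial_word D hD n hn
  exact ⟨k, b, hb, l, hlen, hl, h, hh, b', hb', rfl⟩

theorem hasLen_inv (D : ChevalleyDatum) (hD : Std7 D) (g : GL D.Idx F) (k : ℕ) (hg : HasLen D F g k) :
    HasLen D F g⁻¹ k := by
  obtain ⟨b, hb, l, hlen, hl, h, hh, b', hb', rfl⟩ := hg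
  obtain ⟨h', hh', e⟩ := inv_word_rev' D hD l hl h hh
  refine ⟨b'⁻¹, inv_mem hb', l.reverse, by rw [List.length_reverse]; exact hlen,
    fun a ha => hl a (List.mem_reverse.mp ha), h', hh', b⁻¹, inv_mem hb, ?_⟩
  rw [← e]
  group

theorem hasLen_desc_right (D : ChevalleyDatum) (hD : Std7 D) (I : Set ℕ) (i : ℕ) (hi : i < D.rank) (hiI : i ∈ I)
    (g : GL D.Idx F) (k : ℕ) (hg : HasLen D F g k) (hna : ¬ AscAt D F i g) :
    ∃ π ∈ D.parabolicSubgroup F I, ∃ k', k' < k ∧ HasLen D F (g * π) k' := by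
  obtain ⟨b, hb, l, hlen, hl, h, hh, b', hb', rfl⟩ := hg
  have hneg : D.IsNegRoot (reflWord D l (D.simple i)) := by
    rcases pos_or_neg D hD _ (reflWord_lt D hD l hl _ (std_simple_lt D hD i hi)) with h1 | h1
    · exfalso
      exact hna ⟨b, hb, nProdGL D F l * h, mul_mem (nProdGL_mem D hD F l hl) (diagonal_le_monomial D hh), b', hb',
        rfl, toPos_of_word D hD l hl h hh _ (std_simple_lt D hD i hi) h1⟩
    · exact h1
  obtain ⟨l', hlen', hl', h', hh', heq⟩ := exchangeJ D hD i hi l hl hneg (F := F)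
  refine ⟨b'⁻¹ * h⁻¹ * nGL D F (D.simple i), ?_, l'.length, by omega, b, hb, l', rfl,
    fun a ha => hl a (hl' a ha), h', hh', 1, one_mem _, ?_⟩
  · exact mul_mem (borel_le_parabolic D I (mul_mem (inv_mem hb') (diagonal_le_borel D (inv_mem hh))))
      (nGL_mem_parabolic D hD I i hi hiI)
  · rw [← heq]
    group

theorem hasLen_desc_left (D : ChevalleyDatum) (hD : Std7 D) (J : Set ℕ) (j : ℕ) (hj : j < D.rank) (hjJ : j ∈ J)
    (g : GL D.Idx F) (k : ℕ) (hg : HasLen D F g k) (hna : ¬ AscAt D F j g⁻¹) :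
    ∃ π ∈ D.parabolicSubgroup F J, ∃ k', k' < k ∧ HasLen D F (π * g) k' := by
  obtain ⟨π, hπ, k', hk', h'⟩ := hasLen_desc_right D hD J j hj hjJ g⁻¹ k (hasLen_inv D hD g k hg) hna
  refine ⟨π⁻¹, inv_mem hπ, k', hk', ?_⟩
  have h2 := hasLen_inv D hD _ _ h'
  have e : (g⁻¹ * π)⁻¹ = π⁻¹ * g := by group
  rwa [e] at h2

/-- Every double coset `P_J g P_I` contains an element whose cell keeps the fundamental roots of `I` positive and
whose inverse keeps the fundamental roots of `J` positive. -/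
theorem exists_jired (D : ChevalleyDatum) (hD : Std7 D) (J I : Set ℕ) (g : GL D.Idx F) (hg : g ∈ D.group F) :
    ∃ q ∈ D.parabolicSubgroup F J, ∃ p ∈ D.parabolicSubgroup F I,
      (∀ i, i < D.rank → i ∈ I → AscAt D F i (q * g * p)) ∧
      (∀ j, j < D.rank → j ∈ J → AscAt D F j (q * g * p)⁻¹) := by
  classical
  have hex : ∃ k, ∃ q ∈ D.parabolicSubgroup F J, ∃ p ∈ D.parabolicSubgroup F I, HasLen D F (q * g * p) k := by
    obtain ⟨k, hk⟩ := hasLen_exists D hD g hg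
    exact ⟨k, 1, one_mem _, 1, one_mem _, by rwa [one_mul, mul_one]⟩
  obtain ⟨q, hq, p, hp, hlen⟩ := Nat.find_spec hex
  have hmin := fun k' (hk' : k' < Nat.find hex) => Nat.find_min hex hk'
  refine ⟨q, hq, p, hp, ?_, ?_⟩
  · intro i hi hiI
    by_contra hna
    obtain ⟨π, hπ, k', hk', h'⟩ := hasLen_desc_right D hD I i hi hiI _ _ hlen hna
    apply hmin k' hk'
    refine ⟨q, hq, p * π, mul_mem hp hπ, ?_⟩
    rwa [← mul_assoc]
  · intro j hj hjJ
    by_contra hna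
    obtain ⟨π, hπ, k', hk', h'⟩ := hasLen_desc_left D hD J j hj hjJ _ _ hlen hna
    apply hmin k' hk'
    refine ⟨π * q, mul_mem hπ hq, p, hp, ?_⟩
    have e : π * q * g * p = π * (q * g * p) := by group
    rwa [e]

theorem cells_rel (D : ChevalleyDatum) (hD : Std7 D) (J I : Set ℕ) (ln : List ℕ) (hln : ∀ a ∈ ln, a < D.rank)
    (h : GL D.Idx F) (hh : h ∈ D.diagonalSubgroup F)
    (hI : ∀ i, i < D.rank → i ∈ I → D.IsPosRoot (reflWord D ln (D.simple i)))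
    (lr : List ℕ) (hlr : ∀ a ∈ lr, a < D.rank) (hr : GL D.Idx F) (hhr : hr ∈ D.diagonalSubgroup F)
    (hJ : ∀ j, j < D.rank → j ∈ J → D.IsPosRoot (reflWord D lr (D.simple j)))
    (x : GL D.Idx F) (kx : ℕ) (hx : IsJWordLen D F J x kx) (hxmin : ∀ k', k' < kx → ¬ IsJWordLen D F J x k')
    (y : GL D.Idx F) (ky : ℕ) (hy : IsJWordLen D F I y ky) (hymin : ∀ k', k' < ky → ¬ IsJWordLen D F I y k')
    (b₁ b₂ b₃ b₄ : GL D.Idx F) (hb₁ : b₁ ∈ D.borelSubgroup F) (hb₂ : b₂ ∈ D.borelSubgroup F)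
    (hb₃ : b₃ ∈ D.borelSubgroup F) (hb₄ : b₄ ∈ D.borelSubgroup F)
    (heq : (nProdGL D F lr * hr)⁻¹ = b₁ * x * b₂ * (nProdGL D F ln * h) * b₃ * y * b₄) :
    nProdGL D F ln * h * y * (nProdGL D F lr * hr * x) ∈ D.diagonalSubgroup F := by
  obtain ⟨c₁, hc₁, c₂, hc₂, e1⟩ := bn_prod D hD I ln hln h hh hI ky y hy hymin b₃ hb₃
  obtain ⟨d₁, hd₁, d₂, hd₂, e2⟩ := bn_prod D hD J lr hlr hr hhr hJ kx x hx hxmin b₁ hb₁
  have hxN : x ∈ D.monomialSubgroup F := by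
    obtain ⟨l, -, hl, t, ht, rfl⟩ := hx
    exact mul_mem (nProdGL_mem D hD F l (fun a ha => (hl a ha).1)) (diagonal_le_monomial D ht)
  have hyN : y ∈ D.monomialSubgroup F := by
    obtain ⟨l, -, hl, t, ht, rfl⟩ := hy
    exact mul_mem (nProdGL_mem D hD F l (fun a ha => (hl a ha).1)) (diagonal_le_monomial D ht)
  have hnN : nProdGL D F ln * h ∈ D.monomialSubgroup F :=
    mul_mem (nProdGL_mem D hD F ln hln) (diagonal_le_monomial D hh)
  have hrN : nProdGL D F lr * hr ∈ D.monomialSubgroup F :=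
    mul_mem (nProdGL_mem D hD F lr hlr) (diagonal_le_monomial D hhr)
  have e3 : (nProdGL D F lr * hr)⁻¹ = b₁ * x * b₂ * (c₁ * (nProdGL D F ln * h * y) * c₂) * b₄ := by
    rw [← e1, heq]
    group
  have e4 : (nProdGL D F ln * h * y)⁻¹ = c₂ * b₄ * (nProdGL D F lr * hr * b₁ * x) * b₂ * c₁ := by
    have e5 : nProdGL D F ln * h * y =
        (b₁ * x * b₂ * c₁)⁻¹ * (nProdGL D F lr * hr)⁻¹ * (c₂ * b₄)⁻¹ := by
      rw [e3]
      group
    rw [e5]
    group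
  have key : (nProdGL D F ln * h * y)⁻¹ =
      (c₂ * b₄ * d₁) * (nProdGL D F lr * hr * x) * (d₂ * b₂ * c₁) := by
    rw [e4, e2]
    group
  have h1 := bn_coset_unique D hD _ _ (inv_mem (mul_mem hnN hyN)) (mul_mem hrN hxN)
    ⟨c₂ * b₄ * d₁, mul_mem (mul_mem hc₂ hb₄) hd₁, d₂ * b₂ * c₁, mul_mem (mul_mem hd₂ hb₂) hc₁, key⟩
  rwa [inv_inv] at h1

theorem weyl_unique (D : ChevalleyDatum) (hD : Std7 D) (J I : Set ℕ) (ln : List ℕ) (hln : ∀ a ∈ ln, a < D.rank)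
    (hI : ∀ i, i < D.rank → i ∈ I → D.IsPosRoot (reflWord D ln (D.simple i)))
    (hJ : ∀ j, j < D.rank → j ∈ J → D.IsPosRoot (reflWord D ln.reverse (D.simple j)))
    (n' : GL D.Idx F) (hn' : n' ∈ D.monomialSubgroup F)
    (hI' : ∀ i, i < D.rank → i ∈ I → ToPos D F n' (D.simple i))
    (hJ' : ∀ j, j < D.rank → j ∈ J → ToPos D F n'⁻¹ (D.simple j))
    (lx : List ℕ) (hlx : ∀ a ∈ lx, a < D.rank ∧ a ∈ J) (p : GL D.Idx F) (hp : p ∈ D.parabolicSubgroup F I)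
    (heq : n' * p = nProdGL D F (lx ++ ln)) :
    ∃ t ∈ D.diagonalSubgroup F, ∃ t' ∈ D.diagonalSubgroup F, n' = t * nProdGL D F ln * t' := by
  obtain ⟨lx', hlx', hred, m, hm, hmeq⟩ := jred_split D hD J I ln hln hI lx.length lx rfl hlx (F := F)
  have hall : ∀ a ∈ lx' ++ ln, a < D.rank := by
    intro a ha
    rcases List.mem_append.mp ha with h | h
    · exact (hlx' a h).1
    · exact hln a h
  have hallr : ∀ a ∈ (lx' ++ ln).reverse, a < D.rank := fun a ha => hall a (List.mem_reverse.mp ha)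
  have hq : (p * m)⁻¹ ∈ D.parabolicSubgroup F I := inv_mem (mul_mem hp hm)
  have e0 : nProdGL D F (lx' ++ ln) = n' * (p * m) := by
    rw [← hmeq, ← heq]
    group
  have e1 : 1 * (nProdGL D F (lx' ++ ln) * 1) * (p * m)⁻¹ = 1 * n' := by
    rw [e0]
    group
  have hB := jpos_coset_inj D hD I (lx' ++ ln) hall 1 (one_mem _) hred n' hn' hI' 1 1 (one_mem _) (one_mem _) _
    hq e1
  have hB' : p * m ∈ D.borelSubgroup F := by
    have h0 := inv_mem hB
    rwa [inv_inv] at h0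
  have hH := bn_coset_unique D hD (nProdGL D F (lx' ++ ln)) n' (nProdGL_mem D hD F _ hall) hn'
    ⟨1, one_mem _, p * m, hB', by rw [e0]; group⟩
  obtain ⟨h₄, hh₄, e4⟩ := inv_word_rev' D hD (lx' ++ ln) hall ((nProdGL D F (lx' ++ ln))⁻¹ * n') hH
  have en' : n' = nProdGL D F (lx' ++ ln) * ((nProdGL D F (lx' ++ ln))⁻¹ * n') := by group
  have hJ2 : ∀ j, j < D.rank → j ∈ J → D.IsPosRoot (reflWord D (lx' ++ ln).reverse (D.simple j)) := by
    intro j hj hjJ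
    have h1 : ToPos D F (nProdGL D F (lx' ++ ln).reverse * h₄) (D.simple j) := by
      rw [← e4, ← en']
      exact hJ' j hj hjJ
    exact pos_of_toPos_word D hD (lx' ++ ln).reverse hallr h₄ hh₄ _ (std_simple_lt D hD j hj) h1
  have hA2 := jleft_diag D hD J ln hln lx' hlx' hJ hJ2 (F := F)
  refine ⟨nProdGL D F lx', hA2, (nProdGL D F (lx' ++ ln))⁻¹ * n', hH, ?_⟩
  rw [← nProdGL_append]
  group

theorem cell_data (D : ChevalleyDatum) (hD : Std7 D) (J I : Set ℕ) (z : GL D.Idx F) (hz : z ∈ D.group F)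
    (hzI : ∀ i, i < D.rank → i ∈ I → AscAt D F i z) (hzJ : ∀ j, j < D.rank → j ∈ J → AscAt D F j z⁻¹) :
    ∃ b ∈ D.borelSubgroup F, ∃ ln : List ℕ, (∀ a ∈ ln, a < D.rank) ∧ ∃ h ∈ D.diagonalSubgroup F,
      ∃ b' ∈ D.borelSubgroup F, z = b * (nProdGL D F ln * h) * b' ∧
      (∀ i, i < D.rank → i ∈ I → D.IsPosRoot (reflWord D ln (D.simple i))) ∧
      (∀ j, j < D.rank → j ∈ J → D.IsPosRoot (reflWord D ln.reverse (D.simple j))) := by
  obtain ⟨b, hb, n, hn, b', hb', rfl⟩ := group_eq_bnb D hD z hz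
  obtain ⟨k, ln, -, hln, h, hh, rfl⟩ := monomial_word D hD n hn
  refine ⟨b, hb, ln, hln, h, hh, b', hb', rfl, ?_, ?_⟩
  · intro i hi hiI
    have h1 := ascAt_of_decomp D hD i hi _ (hzI i hi hiI) b (nProdGL D F ln * h) b' hb hn hb' rfl
    exact pos_of_toPos_word D hD ln hln h hh _ (std_simple_lt D hD i hi) h1
  · intro j hj hjJ
    obtain ⟨h', hh', e⟩ := inv_word_rev' D hD ln hln h hh
    have hlnr : ∀ a ∈ ln.reverse, a < D.rank := fun a ha => hln a (List.mem_reverse.mp ha)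
    have h1 := ascAt_of_decomp D hD j hj _ (hzJ j hj hjJ) b'⁻¹ (nProdGL D F ln.reverse * h') b⁻¹ (inv_mem hb')
      (mul_mem (nProdGL_mem D hD F _ hlnr) (diagonal_le_monomial D hh')) (inv_mem hb) (by rw [← e]; group)
    exact pos_of_toPos_word D hD ln.reverse hlnr h' hh' _ (std_simple_lt D hD j hj) h1

/-- Two elements whose cells keep the fundamental roots of `I` positive, with inverses keeping those of `J`
positive, lying in the same double coset of `P_J` and `P_I`, lie in the same cell. -/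
theorem jired_unique (D : ChevalleyDatum) (hD : Std7 D) (J I : Set ℕ) (z z' : GL D.Idx F) (hz : z ∈ D.group F)
    (hz' : z' ∈ D.group F)
    (hzI : ∀ i, i < D.rank → i ∈ I → AscAt D F i z) (hzJ : ∀ j, j < D.rank → j ∈ J → AscAt D F j z⁻¹)
    (hzI' : ∀ i, i < D.rank → i ∈ I → AscAt D F i z') (hzJ' : ∀ j, j < D.rank → j ∈ J → AscAt D F j z'⁻¹)
    (q p : GL D.Idx F) (hq : q ∈ D.parabolicSubgroup F J) (hp : p ∈ D.parabolicSubgroup F I)
    (heq : z' = q * z * p) :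
    ∃ b ∈ D.borelSubgroup F, ∃ b' ∈ D.borelSubgroup F, z' = b * z * b' := by
  classical
  obtain ⟨b, hb, ln, hln, h, hh, b', hb', rfl, hI, hJ⟩ := cell_data D hD J I z hz hzI hzJ
  obtain ⟨c, hc, ln', hln', h', hh', c', hc', rfl, hI', hJ'⟩ := cell_data D hD J I z' hz' hzI' hzJ'
  obtain ⟨b₁, hb₁, x, hx, b₂, hb₂, rfl⟩ := parabolic_bnb D hD J q hq
  obtain ⟨b₃, hb₃, y, hy, b₄, hb₄, rfl⟩ := parabolic_bnb D hD I p hp
  have hxs := Nat.find_spec hx
  have hxmin : ∀ k', k' < Nat.find hx → ¬ IsJWordLen D F J x k' := fun k' hk' => Nat.find_min hx hk'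
  have hys := Nat.find_spec hy
  have hymin : ∀ k', k' < Nat.find hy → ¬ IsJWordLen D F I y k' := fun k' hk' => Nat.find_min hy hk'
  obtain ⟨hr, hhr, er⟩ := inv_word_rev' D hD ln' hln' h' hh'
  have hlr : ∀ a ∈ ln'.reverse, a < D.rank := fun a ha => hln' a (List.mem_reverse.mp ha)
  have e0 : (nProdGL D F ln'.reverse * hr)⁻¹ =
      (c⁻¹ * b₁) * x * (b₂ * b) * (nProdGL D F ln * h) * (b' * b₃) * y * (b₄ * c'⁻¹) := by
    rw [← er, inv_inv]
    have e00 : nProdGL D F ln' * h' = c⁻¹ * (c * (nProdGL D F ln' * h') * c') * c'⁻¹ := by group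
    rw [e00, heq]
    group
  have ht := cells_rel D hD J I ln hln h hh hI ln'.reverse hlr hr hhr hJ' x _ hxs hxmin y _ hys hymin
    (c⁻¹ * b₁) (b₂ * b) (b' * b₃) (b₄ * c'⁻¹) (mul_mem (inv_mem hc) hb₁) (mul_mem hb₂ hb) (mul_mem hb' hb₃)
    (mul_mem hb₄ (inv_mem hc')) e0
  obtain ⟨lx, -, hlx, hx0, hhx0, ex⟩ := hxs
  obtain ⟨ly, -, hly, hy0, hhy0, ey⟩ := hys
  rw [ex, ey] at ht
  have hyP : nProdGL D F ly * hy0 ∈ D.parabolicSubgroup F I :=
    mul_mem (nProdGL_mem_parabolic D hD I ly hly) (borel_le_parabolic D I (diagonal_le_borel D hhy0))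
  have hwN : nProdGL D F ln ∈ D.monomialSubgroup F := nProdGL_mem D hD F ln hln
  have hp₀ : (nProdGL D F ly * hy0)⁻¹ * ((nProdGL D F ln)⁻¹ * (hx0 * (nProdGL D F ln * h *
      (nProdGL D F ly * hy0) * (nProdGL D F ln'.reverse * hr * (nProdGL D F lx * hx0)))⁻¹) *
      nProdGL D F ln * h)⁻¹ ∈ D.parabolicSubgroup F I :=
    mul_mem (inv_mem hyP) (inv_mem (borel_le_parabolic D I (diagonal_le_borel D
      (mul_mem (diag_conj_mem' D hD _ _ hwN (mul_mem hhx0 (inv_mem ht))) hh))))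
  have e5 : (nProdGL D F ln' * h') * ((nProdGL D F ly * hy0)⁻¹ * ((nProdGL D F ln)⁻¹ * (hx0 * (nProdGL D F ln * h *
      (nProdGL D F ly * hy0) * (nProdGL D F ln'.reverse * hr * (nProdGL D F lx * hx0)))⁻¹) *
      nProdGL D F ln * h)⁻¹) = nProdGL D F (lx ++ ln) := by
    rw [nProdGL_append]
    have e50 : nProdGL D F ln' * h' = (nProdGL D F ln'.reverse * hr)⁻¹ := by rw [← er, inv_inv]
    rw [e50]
    group
  have hn'N : nProdGL D F ln' * h' ∈ D.monomialSubgroup F :=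
    mul_mem (nProdGL_mem D hD F ln' hln') (diagonal_le_monomial D hh')
  have hI'' : ∀ i, i < D.rank → i ∈ I → ToPos D F (nProdGL D F ln' * h') (D.simple i) :=
    fun i hi hiI => toPos_of_word D hD ln' hln' h' hh' _ (std_simple_lt D hD i hi) (hI' i hi hiI)
  have hJ'' : ∀ j, j < D.rank → j ∈ J → ToPos D F (nProdGL D F ln' * h')⁻¹ (D.simple j) := by
    intro j hj hjJ
    rw [er]
    exact toPos_of_word D hD ln'.reverse hlr hr hhr _ (std_simple_lt D hD j hj) (hJ' j hj hjJ)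
  obtain ⟨t₁, ht₁, t₂, ht₂, e6⟩ := weyl_unique D hD J I ln hln hI hJ (nProdGL D F ln' * h') hn'N hI'' hJ'' lx hlx
    _ hp₀ e5
  refine ⟨c * t₁ * b⁻¹, mul_mem (mul_mem hc (diagonal_le_borel D ht₁)) (inv_mem hb), b'⁻¹ * h⁻¹ * t₂ * c',
    mul_mem (mul_mem (mul_mem (inv_mem hb') (diagonal_le_borel D (inv_mem hh))) (diagonal_le_borel D ht₂)) hc',
    ?_⟩
  rw [e6]
  group

end Cfsg.Agent.Helper8
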