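import Cfsg.Agent.Helper8.St6
import Cfsg.Agent.Helper11.Virtual1
import Cfsg.Agent.Helper25.CharBasic

set_option autoImplicit false

namespace Cfsg.Agent.Helper8

open Cfsg.Lie

/-! ### Double cosets as orbits -/

section Abstract

variable {Γ : Type*} [Group Γ]

theorem orbit_mk_eq_iff (Q P : Subgroup Γ) (g g' : Γ) :
    (Quotient.mk'' (g' : Γ ⧸ P) : MulAction.orbitRel.Quotient Q (Γ ⧸ P)) = Quotient.mk'' (g : Γ ⧸ P) ↔
      ∃ q ∈ Q, ∃ p ∈ P, g' = q * g * p := by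
  rw [Quotient.eq'', MulAction.orbitRel_apply, MulAction.mem_orbit_iff]
  constructor
  · rintro ⟨q, hq⟩
    have h1 : (((q : Γ) * g : Γ) : Γ ⧸ P) = (g' : Γ ⧸ P) := hq
    have h2 := QuotientGroup.eq.mp h1
    exact ⟨q, q.2, ((q : Γ) * g)⁻¹ * g', h2, by group⟩
  · rintro ⟨q, hq, p, hp, rfl⟩
    refine ⟨⟨q, hq⟩, ?_⟩
    show ((q * g : Γ) : Γ ⧸ P) = ((q * g * p : Γ) : Γ ⧸ P)
    apply QuotientGroup.eq.mpr
    have e : (q * g)⁻¹ * (q * g * p) = p := by group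
    rw [e]
    exact hp

/-- Counting the double cosets `Q g P` by the cells `B z B` of a set of representatives. -/
theorem doset_count [Finite Γ] (B Q P : Subgroup Γ) (Z : Γ → Prop)
    (hE : ∀ g : Γ, ∃ q ∈ Q, ∃ p ∈ P, Z (q * g * p))
    (hU : ∀ z z' : Γ, Z z → Z z' → (∃ q ∈ Q, ∃ p ∈ P, z' = q * z * p) → ∃ b ∈ B, ∃ b' ∈ B, z' = b * z * b')
    (hBQ : B ≤ Q) (hBP : B ≤ P) :
    Nat.card (MulAction.orbitRel.Quotient Q (Γ ⧸ P)) =
      Nat.card {c : MulAction.orbitRel.Quotient B (Γ ⧸ B) // ∃ g : Γ, Z g ∧ c = Quotient.mk'' (g : Γ ⧸ B)} := by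
  classical
  symm
  refine Nat.card_eq_of_bijective (fun c => (Quotient.mk'' ((Classical.choose c.2 : Γ) : Γ ⧸ P) :
    MulAction.orbitRel.Quotient Q (Γ ⧸ P))) ⟨?_, ?_⟩
  · intro c c' hcc
    have h1 := Classical.choose_spec c.2
    have h2 := Classical.choose_spec c'.2
    have hcc' : (Quotient.mk'' ((Classical.choose c.2 : Γ) : Γ ⧸ P) : MulAction.orbitRel.Quotient Q (Γ ⧸ P)) =
        Quotient.mk'' ((Classical.choose c'.2 : Γ) : Γ ⧸ P) := hcc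
    obtain ⟨q, hq, p, hp, e⟩ := (orbit_mk_eq_iff Q P _ _).mp hcc'
    obtain ⟨b, hb, b', hb', e'⟩ := hU _ _ h2.1 h1.1 ⟨q, hq, p, hp, e⟩
    apply Subtype.ext
    exact h1.2.trans (((orbit_mk_eq_iff B B _ _).mpr ⟨b, hb, b', hb', e'⟩).trans h2.2.symm)
  · intro ω
    refine Quotient.inductionOn' ω (fun x => ?_)
    obtain ⟨g, rfl⟩ := QuotientGroup.mk_surjective x
    obtain ⟨q, hq, p, hp, hZ⟩ := hE g
    have hc : ∃ g' : Γ, Z g' ∧ (Quotient.mk'' ((q * g * p : Γ) : Γ ⧸ B) : MulAction.orbitRel.Quotient B (Γ ⧸ B)) =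
        Quotient.mk'' (g' : Γ ⧸ B) := ⟨q * g * p, hZ, rfl⟩
    refine ⟨⟨Quotient.mk'' ((q * g * p : Γ) : Γ ⧸ B), hc⟩, ?_⟩
    have h1 := Classical.choose_spec hc
    obtain ⟨b, hb, b', hb', e⟩ := (orbit_mk_eq_iff B B _ _).mp h1.2
    show (Quotient.mk'' ((Classical.choose hc : Γ) : Γ ⧸ P) : MulAction.orbitRel.Quotient Q (Γ ⧸ P)) =
      Quotient.mk'' (g : Γ ⧸ P)
    apply (orbit_mk_eq_iff Q P _ _).mpr
    refine ⟨b⁻¹ * q, mul_mem (hBQ (inv_mem hb)) hq, p * b'⁻¹, mul_mem hp (hBP (inv_mem hb')), ?_⟩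
    have e2 : Classical.choose hc = b⁻¹ * (b * Classical.choose hc * b') * b'⁻¹ := by group
    rw [e2, ← e]
    group

/-- Burnside's lemma for a subgroup `Q` acting on `Γ ⧸ P`. -/
theorem burnside_sub [Finite Γ] (Q P : Subgroup Γ) [Fintype Q] :
    ∑ q : Q, (Nat.card (MulAction.fixedBy (Γ ⧸ P) (q : Γ)) : ℂ) =
      (Nat.card (MulAction.orbitRel.Quotient Q (Γ ⧸ P)) : ℂ) * (Nat.card Q : ℂ) := by
  classical
  haveI : Fintype (Γ ⧸ P) := Fintype.ofFinite _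
  haveI : ∀ q : Q, Fintype (MulAction.fixedBy (Γ ⧸ P) q) := fun q => Fintype.ofFinite _
  haveI : Fintype (MulAction.orbitRel.Quotient Q (Γ ⧸ P)) := Fintype.ofFinite _
  have h := MulAction.sum_card_fixedBy_eq_card_orbits_mul_card_group (↥Q) (Γ ⧸ P)
  have h2 : ∀ q : Q, Nat.card (MulAction.fixedBy (Γ ⧸ P) (q : Γ)) =
      Fintype.card (MulAction.fixedBy (Γ ⧸ P) q) := by
    intro q
    have e : MulAction.fixedBy (Γ ⧸ P) (q : Γ) = MulAction.fixedBy (Γ ⧸ P) q := rfl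
    rw [e, Nat.card_eq_fintype_card]
  calc ∑ q : Q, (Nat.card (MulAction.fixedBy (Γ ⧸ P) (q : Γ)) : ℂ)
      = ((∑ q : Q, Fintype.card (MulAction.fixedBy (Γ ⧸ P) q) : ℕ) : ℂ) := by
        rw [Nat.cast_sum]
        exact Finset.sum_congr rfl (fun q _ => by rw [h2 q])
    _ = (Nat.card (MulAction.orbitRel.Quotient Q (Γ ⧸ P)) : ℂ) * (Nat.card Q : ℂ) := by
        rw [h, Nat.cast_mul, Nat.card_eq_fintype_card, Nat.card_eq_fintype_card]

/-- The permutation character on the cosets of `P` is induced from the principal character of `P`. -/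
theorem fpc_eq_indFun {Γ : Type*} [Group Γ] [Fintype Γ] (P : Subgroup Γ) :
    Cfsg.fixedPointCharacter P = Cfsg.indFun P (fun _ => (1 : ℂ)) := by
  classical
  funext g
  rw [Cfsg.Agent.Helper2.indFun_apply]
  have hiff : ∀ x : Γ, (x : Γ ⧸ P) ∈ MulAction.fixedBy (Γ ⧸ P) g ↔ x⁻¹ * g * x ∈ P := by
    intro x
    rw [MulAction.mem_fixedBy]
    show ((g * x : Γ) : Γ ⧸ P) = (x : Γ ⧸ P) ↔ _
    rw [QuotientGroup.eq]
    constructor
    · intro h
      have h' := inv_mem h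
      have e : ((g * x)⁻¹ * x)⁻¹ = x⁻¹ * g * x := by group
      rwa [e] at h'
    · intro h
      have h' := inv_mem h
      have e : (x⁻¹ * g * x)⁻¹ = (g * x)⁻¹ * x := by group
      rwa [e] at h'
  have h1 : ∀ x : Γ, Cfsg.extendByZero P (fun _ => (1 : ℂ)) (x⁻¹ * g * x) =
      if (x : Γ ⧸ P) ∈ MulAction.fixedBy (Γ ⧸ P) g then 1 else 0 := by
    intro x
    by_cases hx : x⁻¹ * g * x ∈ P
    · rw [Cfsg.Agent.Helper2.extendByZero_of_mem P _ hx, if_pos ((hiff x).mpr hx)]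
    · rw [Cfsg.Agent.Helper2.extendByZero_of_not_mem P _ hx, if_neg (fun h => hx ((hiff x).mp h))]
  rw [Finset.sum_congr rfl (fun x _ => h1 x), Finset.sum_boole]
  have h3 : Nat.card {x : Γ // (x : Γ ⧸ P) ∈ MulAction.fixedBy (Γ ⧸ P) g} =
      Nat.card P * Nat.card (MulAction.fixedBy (Γ ⧸ P) g) := by
    rw [← Nat.card_prod]
    exact Nat.card_congr (QuotientGroup.preimageMkEquivSubgroupProdSet P (MulAction.fixedBy (Γ ⧸ P) g))
  have h2 : (Finset.univ.filter (fun x : Γ => (x : Γ ⧸ P) ∈ MulAction.fixedBy (Γ ⧸ P) g)).card =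
      Nat.card P * Nat.card (MulAction.fixedBy (Γ ⧸ P) g) := by
    rw [← h3, Nat.card_eq_fintype_card, Fintype.card_subtype]
  have hP : (Nat.card P : ℂ) ≠ 0 := Nat.cast_ne_zero.mpr Nat.card_pos.ne'
  unfold Cfsg.fixedPointCharacter
  rw [h2, Nat.cast_mul, ← mul_assoc, inv_mul_cancel₀ hP, one_mul]

end Abstract

end Cfsg.Agent.Helper8
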