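import Cfsg.Agent.Helper8.St7

set_option autoImplicit false

namespace Cfsg.Agent.Helper8

open Cfsg.Lie

variable {F : Type*} [Field F]

/-! ### The cells of the Chevalley group and the double cosets of parabolic subgroups -/

/-- The cells `B g B`, as orbits of `B` on `G ⧸ B`. -/
abbrev Cells (D : ChevalleyDatum) (F : Type*) [Field F] : Type _ :=
  MulAction.orbitRel.Quotient ↥((D.borelSubgroup F).subgroupOf (D.group F))
    (↥(D.group F) ⧸ (D.borelSubgroup F).subgroupOf (D.group F))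

/-- The cell of `g`. -/
def cellOf (D : ChevalleyDatum) {F : Type*} [Field F] (g : ↥(D.group F)) : Cells D F :=
  Quotient.mk'' (g : ↥(D.group F) ⧸ (D.borelSubgroup F).subgroupOf (D.group F))

theorem cell_eq_iff (D : ChevalleyDatum) (hD : Std7 D) (g g' : ↥(D.group F)) :
    cellOf D g' = cellOf D g ↔
      ∃ b ∈ D.borelSubgroup F, ∃ b' ∈ D.borelSubgroup F, (g' : GL D.Idx F) = b * (g : GL D.Idx F) * b' := by
  have hBG : D.borelSubgroup F ≤ D.group F := (Cfsg.Agent.S1043.result D hD).1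
  unfold cellOf
  rw [orbit_mk_eq_iff]
  constructor
  · rintro ⟨q, hq, p, hp, e⟩
    refine ⟨q.1, Subgroup.mem_subgroupOf.mp hq, p.1, Subgroup.mem_subgroupOf.mp hp, ?_⟩
    rw [e]
    rfl
  · rintro ⟨b, hb, b', hb', e⟩
    exact ⟨⟨b, hBG hb⟩, Subgroup.mem_subgroupOf.mpr hb, ⟨b', hBG hb'⟩, Subgroup.mem_subgroupOf.mpr hb',
      Subtype.ext e⟩

theorem cell_surj (D : ChevalleyDatum) (c : Cells D F) : ∃ g : ↥(D.group F), c = cellOf D g := by
  refine Quotient.inductionOn' c (fun x => ?_)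
  obtain ⟨g, rfl⟩ := QuotientGroup.mk_surjective x
  exact ⟨g, rfl⟩

open Classical in
/-- The fundamental roots kept positive by a cell. -/
noncomputable def ascC (D : ChevalleyDatum) (F : Type*) [Field F] (c : Cells D F) : Finset ℕ :=
  (Finset.range D.rank).filter (fun i => ∃ g : ↥(D.group F), c = cellOf D g ∧ AscAt D F i (g : GL D.Idx F))

open Classical in
/-- The fundamental roots kept positive by the inverse of a cell. -/
noncomputable def lascC (D : ChevalleyDatum) (F : Type*) [Field F] (c : Cells D F) : Finset ℕ :=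
  (Finset.range D.rank).filter (fun j => ∃ g : ↥(D.group F), c = cellOf D g ∧ AscAt D F j ((g : GL D.Idx F))⁻¹)

theorem ascC_subset (D : ChevalleyDatum) (c : Cells D F) : ascC D F c ⊆ Finset.range D.rank := by
  classical
  unfold ascC
  exact Finset.filter_subset _ _

theorem mem_ascC (D : ChevalleyDatum) (hD : Std7 D) (g : ↥(D.group F)) (i : ℕ) :
    i ∈ ascC D F (cellOf D g) ↔ i < D.rank ∧ AscAt D F i (g : GL D.Idx F) := by
  classical
  unfold ascC
  rw [Finset.mem_filter, Finset.mem_range]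
  constructor
  · rintro ⟨hi, g', hg', h⟩
    refine ⟨hi, ?_⟩
    obtain ⟨b, hb, b', hb', e⟩ := (cell_eq_iff D hD g' g).mp hg'
    rw [e]
    exact ascAt_mul_right D i _ _ hb' (ascAt_mul_left D i _ _ hb h)
  · rintro ⟨hi, h⟩
    exact ⟨hi, g, rfl, h⟩

theorem mem_lascC (D : ChevalleyDatum) (hD : Std7 D) (g : ↥(D.group F)) (j : ℕ) :
    j ∈ lascC D F (cellOf D g) ↔ j < D.rank ∧ AscAt D F j ((g : GL D.Idx F))⁻¹ := by
  classical
  unfold lascC
  rw [Finset.mem_filter, Finset.mem_range]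
  constructor
  · rintro ⟨hj, g', hg', h⟩
    refine ⟨hj, ?_⟩
    obtain ⟨b, hb, b', hb', e⟩ := (cell_eq_iff D hD g' g).mp hg'
    rw [e]
    have e2 : (b * (g' : GL D.Idx F) * b')⁻¹ = b'⁻¹ * ((g' : GL D.Idx F))⁻¹ * b⁻¹ := by group
    rw [e2]
    exact ascAt_mul_right D j _ _ (inv_mem hb) (ascAt_mul_left D j _ _ (inv_mem hb') h)
  · rintro ⟨hj, h⟩
    exact ⟨hj, g, rfl, h⟩

/-- The number of double cosets `P_J g P_I`. -/
theorem zcount [Fintype F] (D : ChevalleyDatum) (hD : Std7 D) (J I : Finset ℕ) (hJ : J ⊆ Finset.range D.rank)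
    (hI : I ⊆ Finset.range D.rank) :
    Nat.card (MulAction.orbitRel.Quotient ↥(D.parabolicIn F J) (↥(D.group F) ⧸ D.parabolicIn F I)) =
      Nat.card {c : Cells D F // I ⊆ ascC D F c ∧ J ⊆ lascC D F c} := by
  have hBG : D.borelSubgroup F ≤ D.group F := (Cfsg.Agent.S1043.result D hD).1
  have hE : ∀ g : ↥(D.group F), ∃ q ∈ D.parabolicIn F J, ∃ p ∈ D.parabolicIn F I,
      (∀ i, i < D.rank → i ∈ (↑I : Set ℕ) → AscAt D F i ((q * g * p : ↥(D.group F)) : GL D.Idx F)) ∧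
      (∀ j, j < D.rank → j ∈ (↑J : Set ℕ) → AscAt D F j (((q * g * p : ↥(D.group F)) : GL D.Idx F))⁻¹) := by
    intro g
    obtain ⟨q, hq, p, hp, h1, h2⟩ := exists_jired D hD (↑J : Set ℕ) (↑I : Set ℕ) g.1 g.2
    exact ⟨⟨q, parabolic_le_group D hD _ hq⟩, Subgroup.mem_subgroupOf.mpr hq,
      ⟨p, parabolic_le_group D hD _ hp⟩, Subgroup.mem_subgroupOf.mpr hp, h1, h2⟩
  have hU : ∀ z z' : ↥(D.group F),
      ((∀ i, i < D.rank → i ∈ (↑I : Set ℕ) → AscAt D F i (z : GL D.Idx F)) ∧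
        (∀ j, j < D.rank → j ∈ (↑J : Set ℕ) → AscAt D F j ((z : GL D.Idx F))⁻¹)) →
      ((∀ i, i < D.rank → i ∈ (↑I : Set ℕ) → AscAt D F i (z' : GL D.Idx F)) ∧
        (∀ j, j < D.rank → j ∈ (↑J : Set ℕ) → AscAt D F j ((z' : GL D.Idx F))⁻¹)) →
      (∃ q ∈ D.parabolicIn F J, ∃ p ∈ D.parabolicIn F I, z' = q * z * p) →
      ∃ b ∈ (D.borelSubgroup F).subgroupOf (D.group F), ∃ b' ∈ (D.borelSubgroup F).subgroupOf (D.group F),
        z' = b * z * b' := by
    rintro z z' hz hz' ⟨q, hq, p, hp, e⟩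
    obtain ⟨b, hb, b', hb', e'⟩ := jired_unique D hD (↑J : Set ℕ) (↑I : Set ℕ) z.1 z'.1 z.2 z'.2 hz.1 hz.2
      hz'.1 hz'.2 q.1 p.1 (Subgroup.mem_subgroupOf.mp hq) (Subgroup.mem_subgroupOf.mp hp) (by rw [e]; rfl)
    exact ⟨⟨b, hBG hb⟩, Subgroup.mem_subgroupOf.mpr hb, ⟨b', hBG hb'⟩, Subgroup.mem_subgroupOf.mpr hb',
      Subtype.ext e'⟩
  have hBQ : ∀ K : Finset ℕ, (D.borelSubgroup F).subgroupOf (D.group F) ≤ D.parabolicIn F K := by
    intro K x hx
    exact Subgroup.mem_subgroupOf.mpr (borel_le_parabolic D _ (Subgroup.mem_subgroupOf.mp hx))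
  rw [doset_count ((D.borelSubgroup F).subgroupOf (D.group F)) (D.parabolicIn F J) (D.parabolicIn F I) _ hE hU
    (hBQ J) (hBQ I)]
  apply Nat.card_congr
  apply Equiv.subtypeEquivRight
  intro c
  obtain ⟨g₀, rfl⟩ := cell_surj D c
  constructor
  · rintro ⟨g, ⟨h1, h2⟩, e⟩
    have e' : cellOf D g₀ = cellOf D g := e
    rw [e']
    exact ⟨fun i hi => (mem_ascC D hD g i).mpr ⟨Finset.mem_range.mp (hI hi),
        h1 i (Finset.mem_range.mp (hI hi)) (Finset.mem_coe.mpr hi)⟩,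
      fun j hj => (mem_lascC D hD g j).mpr ⟨Finset.mem_range.mp (hJ hj),
        h2 j (Finset.mem_range.mp (hJ hj)) (Finset.mem_coe.mpr hj)⟩⟩
  · rintro ⟨h1, h2⟩
    exact ⟨g₀, ⟨fun i _ hi => ((mem_ascC D hD g₀ i).mp (h1 (Finset.mem_coe.mp hi))).2,
      fun j _ hj => ((mem_lascC D hD g₀ j).mp (h2 (Finset.mem_coe.mp hj))).2⟩, rfl⟩

/-- Only the big cell keeps no fundamental root positive, and neither does its inverse. -/
theorem top_count [Fintype F] (D : ChevalleyDatum) (hD : Std7 D) (J : Finset ℕ) :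
    Nat.card {c : Cells D F // ascC D F c = ∅ ∧ J ⊆ lascC D F c} = if J = ∅ then 1 else 0 := by
  classical
  obtain ⟨l0, hw0⟩ := exists_w0 D hD
  obtain ⟨hl0, hpn, -⟩ := w0Check_sound D hD l0 hw0
  have hT1 : ∀ c : Cells D F, ascC D F c = ∅ → c = cellOf D (n0G D hD F l0 hw0) := by
    intro c hc
    obtain ⟨g, rfl⟩ := cell_surj D c
    have hx : ascSet D F (QuotientGroup.mk g) = ∅ := by
      rw [Finset.eq_empty_iff_forall_notMem]
      intro i hi
      have h1 : i ∈ ascC D F (cellOf D g) := (mem_ascC D hD g i).mpr ((mem_ascSet D g i).mp hi)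
      rw [hc] at h1
      exact absurd h1 (Finset.notMem_empty i)
    obtain ⟨y, hy⟩ := topMap_surj D hD l0 hw0 _ hx
    obtain ⟨β, rfl⟩ := QuotientGroup.mk_surjective y
    rw [topMap_mk] at hy
    have h2 := QuotientGroup.eq.mp hy
    apply (cell_eq_iff D hD _ _).mpr
    refine ⟨((β : ↥(D.group F)) : GL D.Idx F), Subgroup.mem_subgroupOf.mp β.2, _, Subgroup.mem_subgroupOf.mp h2, ?_⟩
    simp only [Subgroup.coe_mul, Subgroup.coe_inv]
    group
  have hT2 : lascC D F (cellOf D (n0G D hD F l0 hw0)) = ∅ := by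
    rw [Finset.eq_empty_iff_forall_notMem]
    intro j hj
    obtain ⟨hjr, hasc⟩ := (mem_lascC D hD (n0G D hD F l0 hw0) j).mp hj
    rw [n0G_val] at hasc
    obtain ⟨h, hh, e⟩ := inv_word_rev D hD l0 hl0 (F := F)
    have hl0r : ∀ a ∈ l0.reverse, a < D.rank := fun a ha => hl0 a (List.mem_reverse.mp ha)
    have hsl := std_simple_lt D hD j hjr
    have h1 := ascAt_of_decomp D hD j hjr _ hasc 1 (nProdGL D F l0.reverse * h) 1 (one_mem _)
      (mul_mem (nProdGL_mem D hD F _ hl0r) (diagonal_le_monomial D hh)) (one_mem _) (by rw [e]; group)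
    have hneg : D.IsNegRoot (reflWord D l0.reverse (D.simple j)) := by
      rcases pos_or_neg D hD _ (reflWord_lt D hD l0.reverse hl0r _ hsl) with hp | hn
      · exfalso
        have h2 := hpn _ hp
        rw [reflWord_reverse D hD l0 hl0 _ hsl] at h2
        exact pos_neg_excl D hD _ (simple_pos D hD j hjr) h2
      · exact hn
    exact not_toPos_toNeg D hD _ _ hsl h1 (toNeg_of_word D hD l0.reverse hl0r h hh _ hsl hneg)
  have hT3 : ascC D F (cellOf D (n0G D hD F l0 hw0)) = ∅ := by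
    rw [Finset.eq_empty_iff_forall_notMem]
    intro i hi
    obtain ⟨hir, hasc⟩ := (mem_ascC D hD (n0G D hD F l0 hw0) i).mp hi
    rw [n0G_val] at hasc
    have h1 := ascAt_of_decomp D hD i hir _ hasc 1 (nProdGL D F l0 * 1) 1 (one_mem _)
      (by rw [mul_one]; exact nProdGL_mem D hD F l0 hl0) (one_mem _) (by group)
    exact not_toPos_toNeg D hD _ _ (std_simple_lt D hD i hir) h1 (top_neg D hD l0 hw0 i hir)
  split_ifs with hJ
  · subst hJ
    rw [Nat.card_eq_one_iff_exists]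
    refine ⟨⟨cellOf D (n0G D hD F l0 hw0), hT3, Finset.empty_subset _⟩, ?_⟩
    rintro ⟨c, hc1, hc2⟩
    exact Subtype.ext (hT1 c hc1)
  · rw [Nat.card_eq_zero]
    left
    refine ⟨fun ⟨c, hc1, hc2⟩ => hJ ?_⟩
    rw [hT1 c hc1, hT2] at hc2
    exact Finset.subset_empty.mp hc2

/-- The sum of the Steinberg character over a standard parabolic subgroup. -/
theorem steinberg_par_sum [Fintype F] (D : ChevalleyDatum) (hD : Std7 D) (J : Finset ℕ)
    (hJ : J ∈ (Finset.range D.rank).powerset) [Fintype ↥(D.parabolicIn F J)] :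
    ∑ q : ↥(D.parabolicIn F J), D.steinbergCharacter F (q : ↥(D.group F)) =
      (if J = ∅ then 1 else 0) * (Nat.card ↥(D.parabolicIn F J) : ℂ) := by
  classical
  haveI : Fintype (Cells D F) := Fintype.ofFinite _
  have hJs := Finset.mem_powerset.mp hJ
  show ∑ q : ↥(D.parabolicIn F J), ∑ I ∈ (Finset.range D.rank).powerset,
    (-1 : ℂ) ^ I.card * Cfsg.fixedPointCharacter (D.parabolicIn F I) (q : ↥(D.group F)) = _
  rw [Finset.sum_comm]
  have h1 : ∀ I ∈ (Finset.range D.rank).powerset, ∑ q : ↥(D.parabolicIn F J),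
      (-1 : ℂ) ^ I.card * Cfsg.fixedPointCharacter (D.parabolicIn F I) (q : ↥(D.group F)) =
      (-1 : ℂ) ^ I.card * (Nat.card {c : Cells D F // I ⊆ ascC D F c ∧ J ⊆ lascC D F c} : ℂ) *
        (Nat.card ↥(D.parabolicIn F J) : ℂ) := by
    intro I hI
    rw [← Finset.mul_sum]
    have e : ∀ q : ↥(D.parabolicIn F J), Cfsg.fixedPointCharacter (D.parabolicIn F I) (q : ↥(D.group F)) =
        (Nat.card (MulAction.fixedBy (↥(D.group F) ⧸ D.parabolicIn F I) (q : ↥(D.group F))) : ℂ) := fun q => rfl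
    rw [Finset.sum_congr rfl (fun q _ => e q), burnside_sub, zcount D hD J I hJs (Finset.mem_powerset.mp hI),
      mul_assoc]
  rw [Finset.sum_congr rfl h1, ← Finset.sum_mul,
    alt_sum_card (Finset.range D.rank) (ascC D F) (ascC_subset D) (fun c => J ⊆ lascC D F c), top_count D hD J]
  split_ifs <;> simp

end Cfsg.Agent.Helper8
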