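import Cfsg.Agent.Helper8.St8

set_option autoImplicit false

namespace Cfsg.Agent.Helper8

open Cfsg.Lie

variable {F : Type*} [Field F]

/-! ### The Steinberg character is irreducible -/

theorem fpc_isCharacter {Γ : Type*} [Group Γ] [Fintype Γ] (P : Subgroup Γ) :
    Cfsg.IsCharacter Γ (Cfsg.fixedPointCharacter P) := by
  rw [fpc_eq_indFun]
  exact Cfsg.Agent.Helper2.isCharacter_indFun P Cfsg.Agent.Helper2.isCharacter_one

theorem steinberg_genchar (D : ChevalleyDatum) [Fintype ↥(D.group F)] :
    Cfsg.IsGeneralizedCharacter ↥(D.group F) (D.steinbergCharacter F) := by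
  classical
  refine ⟨∑ J ∈ (Finset.range D.rank).powerset.filter (fun J => Even J.card),
      Cfsg.fixedPointCharacter (D.parabolicIn F J),
    ∑ J ∈ (Finset.range D.rank).powerset.filter (fun J => ¬ Even J.card),
      Cfsg.fixedPointCharacter (D.parabolicIn F J),
    Cfsg.Agent.Helper2.isCharacter_sum _ _ (fun J _ => fpc_isCharacter _),
    Cfsg.Agent.Helper2.isCharacter_sum _ _ (fun J _ => fpc_isCharacter _), ?_⟩
  funext g
  rw [Pi.sub_apply, Finset.sum_apply, Finset.sum_apply]
  show ∑ J ∈ (Finset.range D.rank).powerset,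
    (-1 : ℂ) ^ J.card * Cfsg.fixedPointCharacter (D.parabolicIn F J) g = _
  rw [← Finset.sum_filter_add_sum_filter_not (Finset.range D.rank).powerset (fun J => Even J.card),
    sub_eq_add_neg, ← Finset.sum_neg_distrib]
  congr 1
  · apply Finset.sum_congr rfl
    intro J hJ
    rw [Even.neg_one_pow (Finset.mem_filter.mp hJ).2, one_mul]
  · apply Finset.sum_congr rfl
    intro J hJ
    rw [Odd.neg_one_pow (Nat.not_even_iff_odd.mp (Finset.mem_filter.mp hJ).2)]
    ring

theorem steinberg_norm [Fintype F] (D : ChevalleyDatum) (hD : Std7 D) [Fintype ↥(D.group F)] :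
    Cfsg.classInner (D.steinbergCharacter F) (D.steinbergCharacter F) = 1 := by
  classical
  have hgen := steinberg_genchar D (F := F)
  have hcl : Cfsg.IsClassFunction ↥(D.group F) (D.steinbergCharacter F) :=
    (Cfsg.Agent.Helper2.isGeneralizedCharacter_iff.mp hgen).1
  have hconj : ∀ g, (starRingEnd ℂ) (D.steinbergCharacter F g) = D.steinbergCharacter F g := by
    intro g
    unfold ChevalleyDatum.steinbergCharacter Cfsg.fixedPointCharacter
    simp [map_sum]
  have hJ : ∀ J ∈ (Finset.range D.rank).powerset,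
      Cfsg.classInner (Cfsg.fixedPointCharacter (D.parabolicIn F J)) (D.steinbergCharacter F) =
        if J = ∅ then 1 else 0 := by
    intro J hJ
    haveI : Fintype ↥(D.parabolicIn F J) := Fintype.ofFinite _
    rw [fpc_eq_indFun, Cfsg.Agent.Helper2.frobenius_reciprocity _ _ _ hcl]
    show (Nat.card ↥(D.parabolicIn F J) : ℂ)⁻¹ * ∑ q : ↥(D.parabolicIn F J),
      (1 : ℂ) * (starRingEnd ℂ) (D.steinbergCharacter F (q : ↥(D.group F))) = _
    have e : ∑ q : ↥(D.parabolicIn F J), (1 : ℂ) * (starRingEnd ℂ) (D.steinbergCharacter F (q : ↥(D.group F))) =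
        ∑ q : ↥(D.parabolicIn F J), D.steinbergCharacter F (q : ↥(D.group F)) :=
      Finset.sum_congr rfl (fun q _ => by rw [one_mul, hconj])
    rw [e, steinberg_par_sum D hD J hJ]
    have hP : (Nat.card ↥(D.parabolicIn F J) : ℂ) ≠ 0 := Nat.cast_ne_zero.mpr Nat.card_pos.ne'
    rw [← mul_assoc, mul_comm _ (if J = ∅ then (1 : ℂ) else 0), mul_assoc, inv_mul_cancel₀ hP, mul_one]
  have hexp : D.steinbergCharacter F = ∑ J ∈ (Finset.range D.rank).powerset,
      ((-1 : ℂ) ^ J.card) • Cfsg.fixedPointCharacter (D.parabolicIn F J) := by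
    funext g
    rw [Finset.sum_apply]
    rfl
  nth_rewrite 1 [hexp]
  rw [Cfsg.Agent.Helper2.classInner_sum_left,
    Finset.sum_congr rfl (fun J hJ' => by rw [Cfsg.Agent.Helper2.classInner_smul_left, hJ J hJ']),
    Finset.sum_eq_single ∅]
  · simp
  · intro J _ hne
    rw [if_neg hne, mul_zero]
  · intro h
    exact absurd (Finset.empty_mem_powerset _) h

/-- The Steinberg character is an irreducible character. -/
theorem steinberg_irr [Fintype F] (D : ChevalleyDatum) (hD : Std7 D) (n : ℕ) (hn : n ≠ 0)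
    (hdeg : D.steinbergCharacter F 1 = n) :
    Cfsg.IsIrrCharacter ↥(D.group F) (D.steinbergCharacter F) := by
  classical
  haveI : Fintype ↥(D.group F) := Fintype.ofFinite _
  obtain ⟨ψ, h | h⟩ := Cfsg.Agent.Helper11.virtual_norm_one (steinberg_genchar D (F := F)) (steinberg_norm D hD (F := F))
  · rw [h]
    exact ψ.2
  · exfalso
    have h2 := Cfsg.Agent.Helper25.irr_one_eq_degree ψ
    have h3 : D.steinbergCharacter F 1 = -(ψ : ↥(D.group F) → ℂ) 1 := by
      rw [h]
      rfl
    rw [hdeg, h2] at h3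
    have h5 : ((n + Cfsg.charDegree (ψ : ↥(D.group F) → ℂ) : ℕ) : ℂ) = 0 := by
      push_cast
      rw [h3]
      ring
    have h4 : n + Cfsg.charDegree (ψ : ↥(D.group F) → ℂ) = 0 := by exact_mod_cast h5
    omega

end Cfsg.Agent.Helper8
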