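import Cfsg.Agent.Helper8.UC4

set_option autoImplicit false
open scoped MatrixGroups

namespace Cfsg.Agent.Helper8

/-! ### Parabolic subgroups of `SL n` and `PSL n`: double cosets and indices as in `GL n` -/

section UC5

variable {F : Type*} [Field F] {n : ℕ}

/-- Diagonal elements of `GL n`. -/
noncomputable def dgGL (v : Fin n → F) (hv : ∀ i, v i ≠ 0) : GL (Fin n) F :=
  Matrix.GeneralLinearGroup.mkOfDetNeZero (Matrix.diagonal v) (by
    rw [Matrix.det_diagonal]
    exact Finset.prod_ne_zero_iff.mpr (fun i _ => hv i))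

theorem dgGL_val (v : Fin n → F) (hv : ∀ i, v i ≠ 0) :
    ((dgGL v hv : GL (Fin n) F) : Matrix (Fin n) (Fin n) F) = Matrix.diagonal v := rfl

theorem dgGL_mem_upper (v : Fin n → F) (hv : ∀ i, v i ≠ 0) : dgGL v hv ∈ Cfsg.upperTriangularGL n F := by
  show (Matrix.diagonal v).BlockTriangular id
  exact Matrix.blockTriangular_diagonal v

theorem dgGL_det (v : Fin n → F) (hv : ∀ i, v i ≠ 0) :
    ((Matrix.GeneralLinearGroup.det (dgGL v hv) : Fˣ) : F) = ∏ i, v i := by
  rw [Matrix.GeneralLinearGroup.val_det_apply, dgGL_val, Matrix.det_diagonal]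

theorem pmat_conj_diag (σ : Equiv.Perm (Fin n)) (v : Fin n → F) :
    pmat F σ⁻¹ * Matrix.diagonal v * pmat F σ = Matrix.diagonal (fun i => v (σ i)) := by
  ext i j
  rw [Matrix.mul_apply, Finset.sum_eq_single (σ j)]
  · rw [Matrix.mul_diagonal, pmat_apply, pmat_apply, if_pos rfl, mul_one, Matrix.diagonal_apply]
    by_cases h : i = j
    · subst h
      rw [if_pos (by simp), if_pos rfl, one_mul]
    · rw [if_neg, if_neg h, zero_mul]
      intro h'
      apply h
      rw [h']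
      simp
  · intro k _ hk
    rw [pmat_apply, if_neg hk, mul_zero]
  · intro h
    exact absurd (Finset.mem_univ _) h

theorem dgGL_conj (σ : Equiv.Perm (Fin n)) (v : Fin n → F) (hv : ∀ i, v i ≠ 0) :
    (permGL F n σ)⁻¹ * dgGL v hv * permGL F n σ = dgGL (fun i => v (σ i)) (fun i => hv (σ i)) := by
  apply Units.ext
  rw [Units.val_mul, Units.val_mul, ← map_inv, permGL_val, permGL_val, dgGL_val, dgGL_val]
  exact pmat_conj_diag σ v

theorem exists_diag_det (hn : 0 < n) (c : Fˣ) :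
    ∃ d : GL (Fin n) F, d ∈ Cfsg.upperTriangularGL n F ∧ Matrix.GeneralLinearGroup.det d = c ∧
      ∀ σ : Equiv.Perm (Fin n), (permGL F n σ)⁻¹ * d * permGL F n σ ∈ Cfsg.upperTriangularGL n F := by
  classical
  have hv : ∀ i : Fin n, Function.update (fun _ : Fin n => (1 : F)) ⟨0, hn⟩ (c : F) i ≠ 0 := by
    intro i
    by_cases h : i = ⟨0, hn⟩
    · rw [h, Function.update_self]
      exact c.ne_zero
    · rw [Function.update_of_ne h]
      exact one_ne_zero
  refine ⟨dgGL _ hv, dgGL_mem_upper _ _, ?_, ?_⟩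
  · apply Units.ext
    rw [dgGL_det, Finset.prod_update_of_mem (Finset.mem_univ _)]
    simp
  · intro σ
    rw [dgGL_conj]
    exact dgGL_mem_upper _ _

/-- An element of `GL n` of determinant one, as an element of `SL n`. -/
def slOfDet (X : GL (Fin n) F) (h : Matrix.GeneralLinearGroup.det X = 1) :
    Matrix.SpecialLinearGroup (Fin n) F :=
  ⟨(X : Matrix (Fin n) (Fin n) F), by
    have := congrArg Units.val h
    rwa [Matrix.GeneralLinearGroup.val_det_apply, Units.val_one] at this⟩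

theorem toGL_slOfDet (X : GL (Fin n) F) (h : Matrix.GeneralLinearGroup.det X = 1) :
    Matrix.SpecialLinearGroup.toGL (slOfDet X h) = X := Units.ext rfl

theorem gl_eq_diag_mul_sl (hn : 0 < n) (g : GL (Fin n) F) :
    ∃ d ∈ Cfsg.upperTriangularGL n F, ∃ s : Matrix.SpecialLinearGroup (Fin n) F,
      g = d * Matrix.SpecialLinearGroup.toGL s := by
  obtain ⟨d, hd, hdet, -⟩ := exists_diag_det hn (Matrix.GeneralLinearGroup.det g)
  refine ⟨d, hd, slOfDet (d⁻¹ * g) (by rw [map_mul, map_inv, hdet, inv_mul_cancel]), ?_⟩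
  rw [toGL_slOfDet]
  group

/-- The parabolic subgroups of `SL n`. -/
noncomputable def slPar (F : Type*) [Field F] {n : ℕ} (α : Fin n → ℕ) :
    Subgroup (Matrix.SpecialLinearGroup (Fin n) F) :=
  (Cfsg.parabolicGL n F α).comap Matrix.SpecialLinearGroup.toGL

/-- The parabolic subgroups of `PSL n`. -/
noncomputable def pslPar (F : Type*) [Field F] {n : ℕ} (α : Fin n → ℕ) :
    Subgroup (Matrix.ProjectiveSpecialLinearGroup (Fin n) F) :=
  (slPar F α).map (QuotientGroup.mk' (Subgroup.center (Matrix.SpecialLinearGroup (Fin n) F)))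

theorem center_le_slPar (α : Fin n → ℕ) :
    Subgroup.center (Matrix.SpecialLinearGroup (Fin n) F) ≤ slPar F α := by
  intro z hz
  obtain ⟨r, -, hr⟩ := Matrix.SpecialLinearGroup.mem_center_iff.mp hz
  show ((Matrix.SpecialLinearGroup.toGL z : GL (Fin n) F) : Matrix (Fin n) (Fin n) F).BlockTriangular
    (Cfsg.compLabel α)
  rw [Matrix.SpecialLinearGroup.coe_GL_coe_matrix, ← hr, Matrix.scalar_apply]
  exact Matrix.blockTriangular_diagonal _

theorem sl_rel (hn : 0 < n) (α β : Fin n → ℕ) (w w' : Matrix.SpecialLinearGroup (Fin n) F)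
    (q p : GL (Fin n) F) (hq : q ∈ Cfsg.parabolicGL n F α) (hp : p ∈ Cfsg.parabolicGL n F β)
    (h : Matrix.SpecialLinearGroup.toGL w' = q * Matrix.SpecialLinearGroup.toGL w * p) :
    ∃ x ∈ slPar F α, ∃ y ∈ slPar F β, w' = x * w * y := by
  obtain ⟨b₁, hb₁, b₂, hb₂, σ, hw⟩ := bruhat_gl (Matrix.SpecialLinearGroup.toGL w)
  obtain ⟨d, hd, hdet, hconj⟩ := exists_diag_det hn (Matrix.GeneralLinearGroup.det q)
  have hdets : Matrix.GeneralLinearGroup.det q * Matrix.GeneralLinearGroup.det p = 1 := by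
    have := congrArg Matrix.GeneralLinearGroup.det h
    rw [map_mul, map_mul, Matrix.SpecialLinearGroup.coeToGL_det, Matrix.SpecialLinearGroup.coeToGL_det,
      mul_one] at this
    exact this.symm
  have hX : Matrix.GeneralLinearGroup.det (q * (b₁ * d * b₁⁻¹)⁻¹) = 1 := by
    rw [map_mul, map_inv, map_mul, map_mul, map_inv, hdet,
      mul_right_comm (Matrix.GeneralLinearGroup.det b₁), mul_inv_cancel, one_mul, mul_inv_cancel]
  have hY : Matrix.GeneralLinearGroup.det ((Matrix.SpecialLinearGroup.toGL w)⁻¹ * (b₁ * d * b₁⁻¹) *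
      Matrix.SpecialLinearGroup.toGL w * p) = 1 := by
    rw [map_mul, map_mul, map_mul, map_inv, map_mul, map_mul, map_inv,
      Matrix.SpecialLinearGroup.coeToGL_det, hdet, inv_one, one_mul, mul_one,
      mul_right_comm (Matrix.GeneralLinearGroup.det b₁), mul_inv_cancel, one_mul, hdets]
  have hYeq : (Matrix.SpecialLinearGroup.toGL w)⁻¹ * (b₁ * d * b₁⁻¹) *
      Matrix.SpecialLinearGroup.toGL w * p =
      b₂⁻¹ * ((permGL F n σ)⁻¹ * d * permGL F n σ) * b₂ * p := by
    rw [hw]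
    group
  refine ⟨slOfDet _ hX, ?_, slOfDet _ hY, ?_, ?_⟩
  · show Matrix.SpecialLinearGroup.toGL (slOfDet _ hX) ∈ Cfsg.parabolicGL n F α
    rw [toGL_slOfDet]
    exact mul_mem hq (inv_mem (mul_mem (mul_mem (upper_le_parabolic α hb₁) (upper_le_parabolic α hd))
      (inv_mem (upper_le_parabolic α hb₁))))
  · show Matrix.SpecialLinearGroup.toGL (slOfDet _ hY) ∈ Cfsg.parabolicGL n F β
    rw [toGL_slOfDet, hYeq]
    exact mul_mem (mul_mem (mul_mem (inv_mem (upper_le_parabolic β hb₂)) (upper_le_parabolic β (hconj σ)))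
      (upper_le_parabolic β hb₂)) hp
  · apply Matrix.SpecialLinearGroup.toGL_injective
    rw [map_mul, map_mul, toGL_slOfDet, toGL_slOfDet, h]
    group

theorem psl_rel (Q₂ : Subgroup (Matrix.SpecialLinearGroup (Fin n) F)) (β : Fin n → ℕ)
    (w w' : Matrix.SpecialLinearGroup (Fin n) F) (q p : Matrix.ProjectiveSpecialLinearGroup (Fin n) F)
    (hq : q ∈ Q₂.map (QuotientGroup.mk' (Subgroup.center (Matrix.SpecialLinearGroup (Fin n) F))))
    (hp : p ∈ pslPar F β)
    (h : QuotientGroup.mk' (Subgroup.center (Matrix.SpecialLinearGroup (Fin n) F)) w' =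
      q * QuotientGroup.mk' (Subgroup.center (Matrix.SpecialLinearGroup (Fin n) F)) w * p) :
    ∃ x ∈ Q₂, ∃ y ∈ slPar F β, w' = x * w * y := by
  obtain ⟨x₀, hx₀, rfl⟩ := Subgroup.mem_map.mp hq
  obtain ⟨y₀, hy₀, rfl⟩ := Subgroup.mem_map.mp hp
  rw [← map_mul, ← map_mul] at h
  have h3 : (x₀ * w * y₀)⁻¹ * w' ∈ Subgroup.center (Matrix.SpecialLinearGroup (Fin n) F) :=
    QuotientGroup.eq.mp h.symm
  exact ⟨x₀, hx₀, y₀ * ((x₀ * w * y₀)⁻¹ * w'), mul_mem hy₀ (center_le_slPar β h3), by group⟩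

theorem par_dc_card [Fintype F] (α β : Fin n → ℕ) (hα : ∑ i, α i = n) (hβ : ∑ i, β i = n) :
    Nat.card (MulAction.orbitRel.Quotient (Cfsg.parabolicGL n F α)
        (GL (Fin n) F ⧸ Cfsg.parabolicGL n F β)) =
      ucN n α (Finsupp.equivFunOnFinite.symm β) := by
  rw [← young_dc_card α β hα hβ]
  refine doset_transfer (permGL F n) (Cfsg.parabolicGL n F α) (Cfsg.parabolicGL n F β) (Cfsg.youngSubgroup α)
    (Cfsg.youngSubgroup β) (fun x hx => permGL_mem_parabolic α x hx) (fun y hy => permGL_mem_parabolic β y hy) ?_ ?_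
  · intro g
    obtain ⟨u, hu, u', hu', σ, e⟩ := bruhat_gl g
    exact ⟨u, upper_le_parabolic α hu, u', upper_le_parabolic β hu', σ, e⟩
  · rintro w w' ⟨q, hq, p, hp, e⟩
    exact perm_rel α β w w' q p hq hp e

theorem sl_dc_card [Fintype F] (hn : 0 < n) (α β : Fin n → ℕ) (hα : ∑ i, α i = n) (hβ : ∑ i, β i = n) :
    Nat.card (MulAction.orbitRel.Quotient (slPar F α)
        (Matrix.SpecialLinearGroup (Fin n) F ⧸ slPar F β)) =
      ucN n α (Finsupp.equivFunOnFinite.symm β) := by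
  rw [← par_dc_card (F := F) α β hα hβ]
  symm
  refine doset_transfer (Matrix.SpecialLinearGroup.toGL) (Cfsg.parabolicGL n F α) (Cfsg.parabolicGL n F β)
    (slPar F α) (slPar F β) (fun x hx => hx) (fun y hy => hy) ?_ ?_
  · intro g
    obtain ⟨d, hd, s, hg⟩ := gl_eq_diag_mul_sl hn g
    exact ⟨d, upper_le_parabolic α hd, 1, one_mem _, s, by rw [hg, mul_one]⟩
  · rintro w w' ⟨q, hq, p, hp, e⟩
    exact sl_rel hn α β w w' q p hq hp e

theorem psl_dc_card [Fintype F] (hn : 0 < n) (α β : Fin n → ℕ) (hα : ∑ i, α i = n) (hβ : ∑ i, β i = n) :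
    Nat.card (MulAction.orbitRel.Quotient (pslPar F α)
        (Matrix.ProjectiveSpecialLinearGroup (Fin n) F ⧸ pslPar F β)) =
      ucN n α (Finsupp.equivFunOnFinite.symm β) := by
  rw [← sl_dc_card (F := F) hn α β hα hβ]
  refine doset_transfer (QuotientGroup.mk' (Subgroup.center (Matrix.SpecialLinearGroup (Fin n) F)))
    (pslPar F α) (pslPar F β) (slPar F α) (slPar F β)
    (fun x hx => Subgroup.mem_map_of_mem _ hx) (fun y hy => Subgroup.mem_map_of_mem _ hy) ?_ ?_
  · intro g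
    obtain ⟨w, rfl⟩ := QuotientGroup.mk'_surjective _ g
    exact ⟨1, one_mem _, 1, one_mem _, w, by rw [one_mul, mul_one]⟩
  · rintro w w' ⟨q, hq, p, hp, e⟩
    exact psl_rel (slPar F α) β w w' q p hq hp e

theorem psl_index [Fintype F] (hn : 0 < n) (α : Fin n → ℕ) :
    Nat.card (Matrix.ProjectiveSpecialLinearGroup (Fin n) F ⧸ pslPar F α) =
      Nat.card (GL (Fin n) F ⧸ Cfsg.parabolicGL n F α) := by
  have h1 : Nat.card (Matrix.ProjectiveSpecialLinearGroup (Fin n) F ⧸ pslPar F α) =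
      Nat.card (Matrix.SpecialLinearGroup (Fin n) F ⧸ slPar F α) := by
    rw [← Subgroup.index_eq_card, ← Subgroup.index_eq_card]
    exact Subgroup.index_map_eq (slPar F α) (QuotientGroup.mk'_surjective _) (by
      rw [QuotientGroup.ker_mk']
      exact center_le_slPar α)
  have h2 : Nat.card (GL (Fin n) F ⧸ Cfsg.parabolicGL n F α) =
      Nat.card (Matrix.SpecialLinearGroup (Fin n) F ⧸ slPar F α) := by
    rw [← dc_bot_card, ← dc_bot_card]
    refine doset_transfer (Matrix.SpecialLinearGroup.toGL) ⊥ (Cfsg.parabolicGL n F α) ⊥ (slPar F α)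
      (fun x hx => ?_) (fun y hy => hy) ?_ ?_
    · rw [Subgroup.mem_bot] at hx ⊢
      rw [hx, map_one]
    · intro g
      obtain ⟨d, hd, s, hg⟩ := gl_eq_diag_mul_sl hn g⁻¹
      refine ⟨1, Subgroup.mem_bot.mpr rfl, d⁻¹, inv_mem (upper_le_parabolic α hd), s⁻¹, ?_⟩
      rw [map_inv, one_mul, ← mul_inv_rev, ← hg, inv_inv]
    · rintro w w' ⟨q, hq, p, hp, e⟩
      rw [Subgroup.mem_bot] at hq
      subst hq
      refine ⟨1, Subgroup.mem_bot.mpr rfl, w⁻¹ * w', ?_, by group⟩
      show Matrix.SpecialLinearGroup.toGL (w⁻¹ * w') ∈ Cfsg.parabolicGL n F α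
      rw [map_mul, map_inv, e]
      have e2 : (Matrix.SpecialLinearGroup.toGL w)⁻¹ * (1 * Matrix.SpecialLinearGroup.toGL w * p) = p := by
        group
      rw [e2]
      exact hp
  rw [h1, h2]

theorem ucGen_psl_one [Fintype F] (hn : 0 < n) (ν : Fin n → ℕ) :
    ucGen (pslPar F) ν 1 = Cfsg.unipotentCharacterGL n F ν 1 := by
  unfold ucGen Cfsg.unipotentCharacterGL
  apply Finset.sum_congr rfl
  intro κ _
  split_ifs with hc
  · rw [fpc_one, fpc_one, psl_index hn]
  · rfl

theorem psl_inner [Fintype F] [Fintype (Matrix.ProjectiveSpecialLinearGroup (Fin n) F)] (hn : 0 < n)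
    (α β : Fin n → ℕ) (hα : ∑ i, α i = n) (hβ : ∑ i, β i = n) :
    Cfsg.classInner (Cfsg.fixedPointCharacter (pslPar F α)) (Cfsg.fixedPointCharacter (pslPar F β)) =
      (ucN n α (Finsupp.equivFunOnFinite.symm β) : ℂ) := by
  rw [fpc_classInner, psl_dc_card hn α β hα hβ]

end UC5

end Cfsg.Agent.Helper8
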