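import Cfsg.Agent.Helper8.UC5
import Cfsg.Agent.Helper25.CharArith
import Cfsg.Agent.S0165

set_option autoImplicit false
open scoped MatrixGroups

namespace Cfsg.Agent.Helper8

/-! ### The Steinberg character of `PSL n`: degree and vanishing -/

section UC6

variable {F : Type*} [Field F] {n : ℕ}

theorem fin_filter_lt_prod {M : Type*} [CommMonoid M] (j : Fin n) (g : ℕ → M) :
    ∏ i ∈ Finset.univ.filter (fun i : Fin n => i < j), g i.val = ∏ i ∈ Finset.range j.val, g i := by
  apply Finset.prod_bij (fun i _ => i.val)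
  · intro i hi
    exact Finset.mem_range.mpr (Fin.lt_def.mp (Finset.mem_filter.mp hi).2)
  · intro a _ b _ h
    exact Fin.ext h
  · intro k hk
    exact ⟨⟨k, lt_trans (Finset.mem_range.mp hk) j.2⟩,
      Finset.mem_filter.mpr ⟨Finset.mem_univ _, Fin.lt_def.mpr (Finset.mem_range.mp hk)⟩, rfl⟩
  · intro i _
    rfl

/-- The `q`-factorial. -/
def qFac (q m : ℕ) : ℕ := ∏ j ∈ Finset.range m, qInt q (j + 1)

theorem st_inner_prod (q : ℕ) (j : ℕ) :
    ∏ i ∈ Finset.range j, (qInt q (1 + j) - qInt q (1 + i)) = q ^ (j + j * (j - 1) / 2) * qFac q j := by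
  have h1 : ∀ i ∈ Finset.range j, qInt q (1 + j) - qInt q (1 + i) = q ^ (1 + i) * qInt q (j - 1 - i + 1) := by
    intro i hi
    have hij := Finset.mem_range.mp hi
    have h2 := qInt_split q (1 + i) (j - i)
    have e : 1 + i + (j - i) = 1 + j := by omega
    rw [e] at h2
    have e2 : j - 1 - i + 1 = j - i := by omega
    rw [h2, e2, Nat.add_sub_cancel_left]
  have hs : ∑ i ∈ Finset.range j, (1 + i) = j + j * (j - 1) / 2 := by
    rw [Finset.sum_add_distrib, Finset.sum_const, Finset.card_range, smul_eq_mul, mul_one, Finset.sum_range_id]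
  rw [Finset.prod_congr rfl h1, Finset.prod_mul_distrib, Finset.prod_pow_eq_pow_sum,
    Finset.prod_range_reflect (fun i => qInt q (i + 1)) j, hs]
  rfl

theorem stGL_degree [Fintype F] {q : ℕ} (hq : Fintype.card F = q) :
    Cfsg.unipotentCharacterGL n F (fun _ => 1) 1 = (q : ℂ) ^ (n * (n - 1) / 2) := by
  classical
  have hq1 : 1 < q := hq ▸ Fintype.one_lt_card
  have hres := Cfsg.Agent.S2424.result (F := F) hq (fun _ : Fin n => 1) monotone_const (by simp)
  beta_reduce at hres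
  have hQpos : ∀ r, 0 < qInt q (r + 1) := by
    intro r
    unfold qInt
    rw [Finset.sum_range_succ]
    have : 0 < q ^ r := pow_pos (by omega) r
    omega
  have hQmono : StrictMono (fun r : ℕ => qInt q r) := by
    apply strictMono_nat_of_lt_succ
    intro r
    show qInt q r < qInt q (r + 1)
    unfold qInt
    rw [Finset.sum_range_succ]
    have : 0 < q ^ r := pow_pos (by omega) r
    omega
  obtain ⟨A, hA⟩ : ∃ A : ℕ, A = q ^ (n * (n - 1) * (n - 2) / 6) *
      ∏ i : Fin n, ∏ j ∈ Finset.range (1 + i.val), qInt q (j + 1) := ⟨_, rfl⟩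
  obtain ⟨B, hB⟩ : ∃ B : ℕ, B = (∏ j ∈ Finset.range n, qInt q (j + 1)) *
      ∏ i : Fin n, ∏ j ∈ Finset.univ.filter (fun j : Fin n => i < j),
        (qInt q (1 + j.val) - qInt q (1 + i.val)) := ⟨_, rfl⟩
  have hAc : (q : ℂ) ^ (n * (n - 1) * (n - 2) / 6) *
      ∏ i : Fin n, ∏ j ∈ Finset.range (1 + i.val), ((∑ l ∈ Finset.range (j + 1), q ^ l : ℕ) : ℂ) = (A : ℂ) := by
    rw [hA, Nat.cast_mul, Nat.cast_pow, Nat.cast_prod]
    congr 1
    apply Finset.prod_congr rfl
    intro i _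
    rw [Nat.cast_prod]
    rfl
  have hBc : (∏ j ∈ Finset.range n, ((∑ l ∈ Finset.range (j + 1), q ^ l : ℕ) : ℂ)) *
      ∏ i : Fin n, ∏ j ∈ Finset.univ.filter (fun j : Fin n => i < j),
        (((∑ l ∈ Finset.range (1 + j.val), q ^ l : ℕ) : ℂ) - ((∑ l ∈ Finset.range (1 + i.val), q ^ l : ℕ) : ℂ)) =
      (B : ℂ) := by
    rw [hB, Nat.cast_mul, Nat.cast_prod, Nat.cast_prod]
    congr 1
    apply Finset.prod_congr rfl
    intro i _
    rw [Nat.cast_prod]
    apply Finset.prod_congr rfl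
    intro j hj
    have hij : i < j := (Finset.mem_filter.mp hj).2
    have hlt : qInt q (1 + i.val) < qInt q (1 + j.val) := hQmono (by
      have := Fin.lt_def.mp hij
      omega)
    rw [Nat.cast_sub hlt.le]
    rfl
  rw [mul_assoc, hAc, hBc] at hres
  have hswap : ∏ i : Fin n, ∏ j ∈ Finset.univ.filter (fun j : Fin n => i < j),
        (qInt q (1 + j.val) - qInt q (1 + i.val)) =
      ∏ j : Fin n, ∏ i ∈ Finset.univ.filter (fun i : Fin n => i < j),
        (qInt q (1 + j.val) - qInt q (1 + i.val)) := by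
    apply Finset.prod_comm'
    intro i j
    simp
  have hj : ∀ j : Fin n, ∏ i ∈ Finset.univ.filter (fun i : Fin n => i < j),
      (qInt q (1 + j.val) - qInt q (1 + i.val)) = q ^ (j.val + j.val * (j.val - 1) / 2) * qFac q j.val := by
    intro j
    rw [fin_filter_lt_prod j (fun i => qInt q (1 + j.val) - qInt q (1 + i)), st_inner_prod]
  have h3 : ∏ j : Fin n, (q ^ (j.val + j.val * (j.val - 1) / 2) * qFac q j.val) =
      q ^ (n * (n - 1) / 2 + n * (n - 1) * (n - 2) / 6) * ∏ j ∈ Finset.range n, qFac q j := by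
    rw [Fin.prod_univ_eq_prod_range (fun j => q ^ (j + j * (j - 1) / 2) * qFac q j) n, Finset.prod_mul_distrib,
      Finset.prod_pow_eq_pow_sum, Finset.sum_add_distrib, Finset.sum_range_id, sum_tri]
  have h4 : ∏ i : Fin n, ∏ j ∈ Finset.range (1 + i.val), qInt q (j + 1) =
      qFac q n * ∏ j ∈ Finset.range n, qFac q j := by
    rw [Fin.prod_univ_eq_prod_range (fun i => ∏ j ∈ Finset.range (1 + i), qInt q (j + 1)) n]
    have h5 := Finset.prod_range_succ (fun i => qFac q i) n
    have h6 := Finset.prod_range_succ' (fun i => qFac q i) n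
    have h7 : qFac q 0 = 1 := rfl
    rw [h6, h7, mul_one] at h5
    rw [mul_comm, ← h5]
    apply Finset.prod_congr rfl
    intro i _
    show ∏ j ∈ Finset.range (1 + i), qInt q (j + 1) = qFac q (i + 1)
    rw [add_comm 1 i]
    rfl
  have hBA : B = q ^ (n * (n - 1) / 2) * A := by
    rw [hB, hA, hswap, Finset.prod_congr rfl (fun j _ => hj j), h3, h4, pow_add,
      show (∏ j ∈ Finset.range n, qInt q (j + 1)) = qFac q n from rfl]
    ring
  have hApos : 0 < A := by
    rw [hA]
    exact Nat.mul_pos (pow_pos (by omega) _)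
      (Finset.prod_pos (fun i _ => Finset.prod_pos (fun j _ => hQpos j)))
  have hA0 : (A : ℂ) ≠ 0 := Nat.cast_ne_zero.mpr hApos.ne'
  apply mul_right_cancel₀ hA0
  rw [hres, hBA]
  push_cast
  ring

theorem psl_steinberg [Fintype F] (p : ℕ) [Fact p.Prime] [CharP F p] (n : ℕ) (hn : 2 ≤ n) :
    ∃ χ : Matrix.ProjectiveSpecialLinearGroup (Fin n) F → ℂ,
      Cfsg.IsIrrCharacter (Matrix.ProjectiveSpecialLinearGroup (Fin n) F) χ ∧
      ∀ P : Sylow p (Matrix.ProjectiveSpecialLinearGroup (Fin n) F), χ 1 = Nat.card P ∧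
        ∀ x : Matrix.ProjectiveSpecialLinearGroup (Fin n) F, x ∈ P → x ≠ 1 → χ x = 0 := by
  classical
  have hp : p.Prime := Fact.out
  have hn0 : 0 < n := by omega
  haveI : Fintype (Matrix.ProjectiveSpecialLinearGroup (Fin n) F) := Fintype.ofFinite _
  obtain ⟨f, -, hqf⟩ := FiniteField.card F p
  obtain ⟨e, he⟩ : ∃ e : ℕ, e = n * (n - 1) / 2 := ⟨_, rfl⟩
  have hdeg : ucGen (pslPar F) (fun _ : Fin n => 1) 1 = ((Fintype.card F ^ e : ℕ) : ℂ) := by
    rw [ucGen_psl_one hn0, stGL_degree rfl, he]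
    push_cast
    rfl
  have hirr := ucGen_irr (pslPar F) (fun α β hα hβ => psl_inner hn0 α β hα hβ) (fun _ : Fin n => 1)
    monotone_const (by simp) (Fintype.card F ^ e) (pow_ne_zero _ Fintype.card_ne_zero) hdeg
  refine ⟨ucGen (pslPar F) (fun _ : Fin n => 1), hirr, ?_⟩
  have hcd : Cfsg.charDegree (ucGen (pslPar F) (fun _ : Fin n => 1)) = Fintype.card F ^ e := by
    unfold Cfsg.charDegree
    rw [hdeg, Complex.natCast_re, Nat.floor_natCast]
  have hdvd1 : Fintype.card F ^ e ∣ Nat.card (Matrix.ProjectiveSpecialLinearGroup (Fin n) F) := by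
    have h := Cfsg.Agent.Helper25.irr_degree_dvd_card
      (⟨ucGen (pslPar F) (fun _ : Fin n => 1), hirr⟩ : Cfsg.IrrCharacter (Matrix.ProjectiveSpecialLinearGroup (Fin n) F))
    rw [← hcd]
    exact h
  obtain ⟨m, ρ, hρ, hχ⟩ := hirr
  haveI := hρ
  have hm : m = Fintype.card F ^ e := by
    have h1 : ρ.character 1 = (Module.finrank ℂ (Fin m → ℂ) : ℂ) := Representation.char_one ρ
    rw [hχ, hdeg, Module.finrank_fin_fun] at h1
    exact_mod_cast h1.symm
  have hG : Nat.card (Matrix.ProjectiveSpecialLinearGroup (Fin n) F) ≠ 0 := Nat.card_pos.ne'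
  obtain ⟨k, hk⟩ : ∃ k : ℕ, k = (Nat.card (Matrix.ProjectiveSpecialLinearGroup (Fin n) F)).factorization p :=
    ⟨_, rfl⟩
  have hqe : Fintype.card F ^ e = p ^ ((f : ℕ) * e) := by rw [hqf, ← pow_mul]
  -- lower bound
  have hle1 : (f : ℕ) * e ≤ k := by
    rw [hk]
    rw [hqe] at hdvd1
    exact (hp.pow_dvd_iff_le_factorization hG).mp hdvd1
  -- upper bound through the order of GL
  have hdvd2 : Nat.card (Matrix.ProjectiveSpecialLinearGroup (Fin n) F) ∣ Nat.card (GL (Fin n) F) :=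
    dvd_trans (Subgroup.card_quotient_dvd_card _)
      (Subgroup.card_dvd_of_injective Matrix.SpecialLinearGroup.toGL Matrix.SpecialLinearGroup.toGL_injective)
  have hGL : Nat.card (GL (Fin n) F) = Fintype.card F ^ e *
      ∏ i : Fin n, (Fintype.card F ^ (n - i.val) - 1) := by
    rw [Matrix.card_GL_field]
    have h1 : ∀ i : Fin n, Fintype.card F ^ n - Fintype.card F ^ (i : ℕ) =
        Fintype.card F ^ (i : ℕ) * (Fintype.card F ^ (n - i.val) - 1) := by
      intro i
      have hi := i.2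
      rw [Nat.mul_sub, mul_one, ← pow_add]
      congr 2
      omega
    rw [Finset.prod_congr rfl (fun i _ => h1 i), Finset.prod_mul_distrib, Finset.prod_pow_eq_pow_sum,
      Fin.sum_univ_eq_sum_range (fun i => i) n, Finset.sum_range_id, he]
  have hcop : Nat.Coprime (p ^ k) (∏ i : Fin n, (Fintype.card F ^ (n - i.val) - 1)) := by
    apply Nat.Coprime.pow_left
    rw [Nat.Prime.coprime_iff_not_dvd hp, (Nat.Prime.prime hp).dvd_finset_prod_iff]
    rintro ⟨i, -, hi⟩
    have hi2 := i.2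
    have h1 : p ∣ Fintype.card F ^ (n - i.val) := by
      rw [hqf, ← pow_mul]
      exact dvd_pow_self p (Nat.mul_ne_zero f.ne_zero (by omega))
    have h2 : 0 < Fintype.card F ^ (n - i.val) := pow_pos Fintype.card_pos _
    have h3 : p ∣ Fintype.card F ^ (n - i.val) - (Fintype.card F ^ (n - i.val) - 1) := Nat.dvd_sub h1 hi
    have h4 : Fintype.card F ^ (n - i.val) - (Fintype.card F ^ (n - i.val) - 1) = 1 := by omega
    rw [h4] at h3
    exact hp.one_lt.ne' (Nat.dvd_one.mp h3)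
  have hle2 : k ≤ (f : ℕ) * e := by
    have h1 : p ^ k ∣ Nat.card (GL (Fin n) F) := dvd_trans (hk ▸ Nat.ordProj_dvd _ _) hdvd2
    rw [hGL] at h1
    have h2 := Nat.Coprime.dvd_of_dvd_mul_right hcop h1
    rw [hqe] at h2
    exact (Nat.pow_dvd_pow_iff_le_right hp.one_lt).mp h2
  have hkfe : k = (f : ℕ) * e := le_antisymm hle2 hle1
  intro P
  have hPc : Nat.card P = Fintype.card F ^ e := by
    rw [P.card_eq_multiplicity, ← hk, hkfe, hqe]
  refine ⟨by rw [hdeg, hPc], ?_⟩
  intro x hx hx1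
  have hpx : p ∣ orderOf x := by
    obtain ⟨j, hj⟩ := (IsPGroup.iff_orderOf.mp P.isPGroup') ⟨x, hx⟩
    rw [Subgroup.orderOf_mk] at hj
    have hj0 : j ≠ 0 := by
      rintro rfl
      rw [pow_zero, orderOf_eq_one_iff] at hj
      exact hx1 hj
    rw [hj]
    exact dvd_pow_self p hj0
  rw [← hχ]
  refine Cfsg.Agent.S0165.result ρ p k hp (hk ▸ Nat.ordProj_dvd _ _) ?_ ?_ x hpx
  · intro h
    have := (hp.pow_dvd_iff_le_factorization hG).mp h
    omega
  · rw [Module.finrank_fin_fun, hm, hqe, hkfe]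

end UC6

end Cfsg.Agent.Helper8
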